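import Cfsg.Agent.Lib.Grp.H14Sr2
import Cfsg.Agent.Lib.Loc.AmbTr
import Cfsg.Agent.Lib.Block.H13Zstar
import Cfsg.Agent.Lib.Grp.H13Misc

/-!
Fusion of involutions in a simple group whose Sylow `2`-subgroup is `(Q₁ ∘ Q₂)⟨t⟩` (type `G₂(q)`).
-/

set_option autoImplicit false
set_option linter.unusedSectionVars false
set_option linter.style.haveILetI false

namespace CA.H14G2

open Subgroup Cfsg CA.BG

variable {G : Type*} [Group G]

structure QF (m : ℕ) (z t a b : G) : Prop where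
  o : orderOf a = 2 ^ (m + 2)
  ez : a ^ 2 ^ (m + 1) = z
  bb : b * b = z
  ba : b * a * b⁻¹ = a⁻¹
  ta : t * a * t⁻¹ = a⁻¹
  tb : t * b * t⁻¹ = a * z * b

theorem QF.map_iff {G' : Type*} [Group G'] {f : G →* G'} (hf : Function.Injective f) {m : ℕ} {z t a b : G} :
    QF m (f z) (f t) (f a) (f b) ↔ QF m z t a b := by
  constructor
  · rintro ⟨h1, h2, h3, h4, h5, h6⟩
    exact ⟨(orderOf_injective f hf a).symm.trans h1, hf (by simpa using h2), hf (by simpa using h3),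
      hf (by simpa using h4), hf (by simpa using h5), hf (by simpa using h6)⟩
  · rintro ⟨h1, h2, h3, h4, h5, h6⟩
    exact ⟨(orderOf_injective f hf a).trans h1, by rw [← map_pow, h2], by rw [← map_mul, h3],
      by simpa using congrArg f h4, by simpa using congrArg f h5, by simpa using congrArg f h6⟩

theorem inv_zp {a g x : G} (h : g * a * g⁻¹ = a⁻¹) (hx : x ∈ zpowers a) : g * x = x⁻¹ * g := by
  obtain ⟨i, rfl⟩ := hx
  have : g * a ^ i * g⁻¹ = (a ^ i)⁻¹ := by rw [← conj_zpow, h, inv_zpow]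
  rw [← this]; group

theorem cm_zp {a g x : G} (h : g * a = a * g) (hx : x ∈ zpowers a) : g * x = x * g := by
  obtain ⟨i, rfl⟩ := hx
  exact (Commute.zpow_right h i).eq

namespace QF
variable {m : ℕ} {z t a b x : G} (h : QF m z t a b)
include h

theorem zz : z * z = 1 := by rw [← h.ez, ← pow_two, ← pow_mul, ← pow_succ, ← h.o, pow_orderOf_eq_one]

theorem z1 : z ≠ 1 := fun e => by
  have := orderOf_dvd_of_pow_eq_one (h.ez.trans e)
  rw [h.o, Nat.pow_dvd_pow_iff_le_right (by norm_num)] at this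
  omega

theorem zA : z ∈ zpowers a := h.ez ▸ npow_mem_zpowers a _

theorem c1 (hx : x ∈ zpowers a) (e : x * x = 1) : x = 1 ∨ x = z := by
  obtain ⟨i, rfl⟩ := hx
  have e1 : a ^ (2 * i) = 1 := by rw [two_mul, zpow_add]; exact e
  rw [← orderOf_dvd_iff_zpow_eq_one, h.o] at e1
  obtain ⟨k, hk⟩ := e1
  have : i = 2 ^ (m + 1) * k := by push_cast at hk; rw [pow_succ] at hk; linarith
  have e2 : a ^ i = z ^ k := by rw [this, zpow_mul, ← h.ez]; norm_cast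
  show a ^ i = 1 ∨ a ^ i = z
  rw [e2]
  exact H7SR.mem_zpowers_two (by rw [pow_two, h.zz]) ⟨k, rfl⟩

theorem jj : a ^ 2 ^ m * a ^ 2 ^ m = z := by rw [← pow_two, ← pow_mul, ← pow_succ, h.ez]

theorem c3 (hx : x ∈ zpowers a) : (x * x * a⁻¹) * (x * x * a⁻¹) ≠ 1 := by
  obtain ⟨i, rfl⟩ := hx
  intro e
  have e1 : a ^ (2 * (2 * i - 1)) = 1 := by rw [← e]; group
  rw [← orderOf_dvd_iff_zpow_eq_one, h.o] at e1
  obtain ⟨k, hk⟩ := e1
  push_cast at hk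
  rw [pow_succ, pow_succ] at hk
  rw [show (2 : ℤ) ^ m * 2 * 2 * k = 4 * (2 ^ m * k) by ring] at hk
  omega

theorem c2 (h1 : x ∈ zpowers a) (e : x * x = z) : x = a ^ 2 ^ m ∨ x = a ^ 2 ^ m * z := by
  have j1 : a ^ 2 ^ m ∈ zpowers a := npow_mem_zpowers a _
  have cm : (a ^ 2 ^ m)⁻¹ * x = x * (a ^ 2 ^ m)⁻¹ := cm_zp ((Commute.pow_self a _).inv_left.eq) h1
  rcases h.c1 (mul_mem (inv_mem j1) h1) (by
    calc (a ^ 2 ^ m)⁻¹ * x * ((a ^ 2 ^ m)⁻¹ * x) = (a ^ 2 ^ m)⁻¹ * (x * (a ^ 2 ^ m)⁻¹) * x := by group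
      _ = (a ^ 2 ^ m * a ^ 2 ^ m)⁻¹ * (x * x) := by rw [← cm]; group
      _ = 1 := by rw [h.jj, e, inv_mul_cancel]) with e | e
  · exact .inl (inv_mul_eq_one.1 e).symm
  · exact .inr (by rw [← e]; group)

omit h in
theorem c4 (hx : x ∈ zpowers a) : ∃ y ∈ zpowers a, x = y * y ∨ x = y * y * a := by
  obtain ⟨i, rfl⟩ := hx
  rcases Int.even_or_odd' i with ⟨k, rfl | rfl⟩
  · exact ⟨a ^ k, ⟨k, rfl⟩, .inl (by group)⟩
  · exact ⟨a ^ k, ⟨k, rfl⟩, .inr (by group)⟩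

theorem m0 (e : a ^ 4 = 1) : m = 0 := by
  have := orderOf_dvd_of_pow_eq_one e
  rw [h.o, show 4 = 2 ^ 2 by norm_num, Nat.pow_dvd_pow_iff_le_right (by norm_num)] at this
  omega

end QF

structure GS (m n : ℕ) (S : Subgroup G) (z t a b c d : G) : Prop where
  q1 : QF m z t a b
  q2 : QF n z t c d
  ac : a * c = c * a
  ad : d * a = a * d
  bc : b * c = c * b
  bd : b * d = d * b
  tt : t * t = 1
  int : ∀ i j : ℤ, a ^ i = c ^ j → a ^ i = 1 ∨ a ^ i = z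
  aS : a ∈ S
  bS : b ∈ S
  cS : c ∈ S
  dS : d ∈ S
  tS : t ∈ S
  nf : ∀ x ∈ S, ∃ i j : ℤ, ∃ e f g : Bool,
    x = a ^ i * c ^ j * ((if e then b else 1) * (if f then d else 1) * (if g then t else 1))

/-- cosets of `⟨a, c⟩` -/
def Co (a c w x : G) : Prop := ∃ α ∈ zpowers a, ∃ γ ∈ zpowers c, x = α * γ * w

namespace GS
variable {m n : ℕ} {S : Subgroup G} {z t a b c d x y α γ : G} (h : GS m n S z t a b c d)
include h

theorem symm : GS n m S z t c d a b :=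
  ⟨h.q2, h.q1, h.ac.symm, h.bc, h.ad, h.bd.symm, h.tt, fun i j e => e ▸ h.int j i e.symm, h.cS, h.dS, h.aS, h.bS, h.tS,
    fun x hx => by
      obtain ⟨i, j, e, f, g, rfl⟩ := h.nf x hx
      refine ⟨j, i, f, e, g, ?_⟩
      rw [(Commute.zpow_zpow h.ac i j).eq]
      cases e <;> cases f <;> simp [h.bd]⟩

theorem AC (h1 : α ∈ zpowers a) (h2 : γ ∈ zpowers c) : γ * α = α * γ := cm_zp (cm_zp h.ac h2).symm h1

theorem int' (h1 : α ∈ zpowers a) (h2 : α ∈ zpowers c) : α = 1 ∨ α = z := by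
  obtain ⟨i, rfl⟩ := h1
  obtain ⟨j, e⟩ := h2
  exact h.int i j e.symm

theorem AS : zpowers a ≤ S := zpowers_le_of_mem h.aS

theorem cases (hx : x ∈ S) : Co a c 1 x ∨ Co a c b x ∨ Co a c d x ∨ Co a c (b * d) x ∨ Co a c t x ∨
    Co a c (b * t) x ∨ Co a c (d * t) x ∨ Co a c (b * d * t) x := by
  obtain ⟨i, j, e, f, g, rfl⟩ := h.nf x hx
  have k : ∀ w, Co a c w (a ^ i * c ^ j * w) := fun w => ⟨_, ⟨i, rfl⟩, _, ⟨j, rfl⟩, rfl⟩
  have k1 := k 1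
  rw [mul_one] at k1
  cases e <;> cases f <;> cases g <;> simp [k, k1]

theorem zc (hx : x ∈ S) : x * z = z * x := by
  have z1 := inv_eq_of_mul_eq_one_right h.q1.zz
  have hb : b * z = z * b := by rw [← h.q1.bb, mul_assoc]
  have hd : d * z = z * d := by rw [← h.q2.bb, mul_assoc]
  have ht : t * z = z * t := by rw [inv_zp h.q1.ta h.q1.zA, z1]
  obtain ⟨i, j, e, f, g, rfl⟩ := h.nf x hx
  have ha : Commute (a ^ i) z := cm_zp (Commute.zpow_self a i).eq h.q1.zA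
  have hc : Commute (c ^ j) z := cm_zp (Commute.zpow_self c j).eq h.q2.zA
  refine ((ha.mul_left hc).mul_left (Commute.mul_left (Commute.mul_left ?_ ?_) ?_)).eq
  · cases e; exacts [Commute.one_left _, hb]
  · cases f; exacts [Commute.one_left _, hd]
  · cases g; exacts [Commute.one_left _, ht]

theorem sq_co {w : G} (h1 : α ∈ zpowers a) (h2 : γ ∈ zpowers c) {α' γ' : G} (e1 : w * α = α' * w)
    (e2 : w * γ = γ' * w) (h3 : α' ∈ zpowers a) : α * γ * w * (α * γ * w) = α * α' * (γ * γ') * (w * w) := by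
  calc α * γ * w * (α * γ * w) = α * γ * (w * α) * γ * w := by group
    _ = α * (γ * α') * (w * γ) * w := by rw [e1]; group
    _ = _ := by rw [e2, h.AC h3 h2]; group

theorem bA (h1 : α ∈ zpowers a) : b * α = α⁻¹ * b := inv_zp h.q1.ba h1
theorem tA (h1 : α ∈ zpowers a) : t * α = α⁻¹ * t := inv_zp h.q1.ta h1
theorem dA (h1 : α ∈ zpowers a) : d * α = α * d := cm_zp h.ad h1

theorem bdA (h1 : α ∈ zpowers a) : b * d * α = α⁻¹ * (b * d) := by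
  rw [mul_assoc, h.dA h1, ← mul_assoc, h.bA h1, mul_assoc]

theorem btA (h1 : α ∈ zpowers a) : b * t * α = α * (b * t) := by
  rw [mul_assoc, h.tA h1, ← mul_assoc, h.bA (inv_mem h1), inv_inv, mul_assoc]

theorem dtA (h1 : α ∈ zpowers a) : d * t * α = α⁻¹ * (d * t) := by
  rw [mul_assoc, h.tA h1, ← mul_assoc, h.dA (inv_mem h1), mul_assoc]

theorem bdtA (h1 : α ∈ zpowers a) : b * d * t * α = α * (b * d * t) := by
  rw [mul_assoc, h.tA h1, ← mul_assoc, h.bdA (inv_mem h1), inv_inv, mul_assoc]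

theorem ti : t⁻¹ = t := inv_eq_of_mul_eq_one_right h.tt

theorem bt2 : b * t * (b * t) = a⁻¹ := by
  calc b * t * (b * t) = b * (t * b * t⁻¹) := by rw [h.ti]; group
    _ = (b * a) * (z * b) := by rw [h.q1.tb]; group
    _ = a⁻¹ * (b * b) * z := by rw [h.bA (mem_zpowers a), ← h.zc h.bS]; group
    _ = _ := by rw [h.q1.bb, mul_assoc, h.q1.zz, mul_one]

theorem bd2 : b * d * (b * d) = 1 := by
  calc b * d * (b * d) = b * (d * b) * d := by group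
    _ = (b * b) * (d * d) := by rw [← h.bd]; group
    _ = 1 := by rw [h.q1.bb, h.q2.bb, h.q1.zz]

theorem bdt2 : b * d * t * (b * d * t) = a⁻¹ * c⁻¹ := by
  calc b * d * t * (b * d * t) = b * d * (t * b * t⁻¹) * (t * d * t) := by group
    _ = b * (d * (a * z * b)) * (t * d * t) := by rw [h.q1.tb]; group
    _ = b * (t * b * t⁻¹) * (d * t * (d * t)) := by
      rw [h.q1.tb, (show Commute d (a * z * b) from
        (Commute.mul_right (Commute.mul_right h.ad (h.zc h.dS)) h.bd.symm)).eq]; group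
    _ = _ := by rw [h.symm.bt2, h.ti, ← h.bt2]; group

theorem sqA (hx : x ∈ S) : Co a c 1 (x * x) := by
  have z1 := h.q1.zA
  have k : ∀ {α γ α' γ' w u v : G}, α ∈ zpowers a → γ ∈ zpowers c → w * α = α' * w → w * γ = γ' * w →
      α' ∈ zpowers a → γ' ∈ zpowers c → u ∈ zpowers a → v ∈ zpowers c → w * w = u * v →
      Co a c 1 (α * γ * w * (α * γ * w)) := fun {α γ α' γ' w u v} h1 h2 e1 e2 h3 h4 h5 h6 e =>
    ⟨α * α' * u, mul_mem (mul_mem h1 h3) h5, γ * γ' * v, mul_mem (mul_mem h2 h4) h6, by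
      rw [h.sq_co h1 h2 e1 e2 h3, e, mul_one, mul_assoc (α * α'), ← mul_assoc (γ * γ'), h.AC h5 (mul_mem h2 h4)]; group⟩
  rcases h.cases hx with e | e | e | e | e | e | e | e <;> obtain ⟨α, h1, γ, h2, rfl⟩ := e
  · exact k h1 h2 (by simp) (by simp) h1 h2 (one_mem _) (one_mem _) rfl
  · exact k h1 h2 (h.bA h1) (h.symm.dA h2) (inv_mem h1) h2 z1 (one_mem _) (by rw [h.q1.bb, mul_one])
  · exact k h1 h2 (h.dA h1) (h.symm.bA h2) h1 (inv_mem h2) z1 (one_mem _) (by rw [h.q2.bb, mul_one])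
  · exact k h1 h2 (h.bdA h1) (h.bd ▸ h.symm.bdA h2) (inv_mem h1) (inv_mem h2) (one_mem _) (one_mem _)
      (by rw [h.bd2, mul_one])
  · exact k h1 h2 (h.tA h1) (h.symm.tA h2) (inv_mem h1) (inv_mem h2) (one_mem _) (one_mem _) (by rw [h.tt, mul_one])
  · exact k h1 h2 (h.btA h1) (h.symm.dtA h2) h1 (inv_mem h2) (inv_mem (mem_zpowers a)) (one_mem _)
      (by rw [h.bt2, mul_one])
  · exact k h1 h2 (h.dtA h1) (h.symm.btA h2) (inv_mem h1) h2 (one_mem _) (inv_mem (mem_zpowers c))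
      (by rw [h.symm.bt2, one_mul])
  · exact k h1 h2 (h.bdtA h1) (h.bd ▸ h.symm.bdtA h2) h1 h2 (inv_mem (mem_zpowers a)) (inv_mem (mem_zpowers c)) h.bdt2

theorem n_bt (e : Co a c (b * t) x) : x * x ≠ 1 := by
  obtain ⟨α, h1, γ, h2, rfl⟩ := e
  rw [h.sq_co h1 h2 (h.btA h1) (h.symm.dtA h2) h1, h.bt2, mul_inv_cancel, mul_one]
  exact fun e => h.q1.c3 h1 (by rw [e, mul_one])

theorem Co_symm {w : G} (e : Co a c w x) : Co c a w x := by
  obtain ⟨α, h1, γ, h2, rfl⟩ := e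
  exact ⟨γ, h2, α, h1, by rw [h.AC h1 h2]⟩

theorem n_bdt (e : Co a c (b * d * t) x) : x * x = 1 → m = 0 ∧ False := by
  obtain ⟨α, h1, γ, h2, rfl⟩ := e
  rw [h.sq_co h1 h2 (h.bdtA h1) (h.bd ▸ h.symm.bdtA h2) h1, h.bdt2]
  intro e
  have h3 : γ * γ * c⁻¹ ∈ zpowers c := mul_mem (mul_mem h2 h2) (inv_mem (mem_zpowers c))
  have h4 : α * α * a⁻¹ ∈ zpowers a := mul_mem (mul_mem h1 h1) (inv_mem (mem_zpowers a))
  have e1 : α * α * a⁻¹ * (γ * γ * c⁻¹) = 1 := by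
    rw [← e, mul_assoc (α * α), mul_assoc (α * α), ← mul_assoc a⁻¹, ← mul_assoc (γ * γ),
      h.AC (inv_mem (mem_zpowers a)) (mul_mem h2 h2)]
  have e2 := h.int' h4 (by rw [eq_inv_of_mul_eq_one_left e1]; exact inv_mem h3)
  exfalso
  rcases e2 with e2 | e2
  · exact h.q1.c3 h1 (by rw [e2, mul_one])
  · exact h.q1.c3 h1 (by rw [e2, h.q1.zz])

theorem omA (e : Co a c 1 x) (e2 : x * x = 1) :
    x = 1 ∨ x = z ∨ x = a ^ 2 ^ m * c ^ 2 ^ n ∨ x = a ^ 2 ^ m * c ^ 2 ^ n * z := by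
  obtain ⟨α, h1, γ, h2, rfl⟩ := e
  rw [h.sq_co h1 h2 (α' := α) (γ' := γ) (by simp) (by simp) h1, mul_one, mul_one] at e2
  have j1 : a ^ 2 ^ m ∈ zpowers a := npow_mem_zpowers a _
  have j2 : c ^ 2 ^ n ∈ zpowers c := npow_mem_zpowers c _
  have zi := inv_eq_of_mul_eq_one_right h.q1.zz
  rcases h.int' (mul_mem h1 h1) (by rw [eq_inv_of_mul_eq_one_left e2]; exact inv_mem (mul_mem h2 h2)) with e | e
  · rw [e, one_mul] at e2
    rcases h.q1.c1 h1 e with rfl | rfl <;> rcases h.q2.c1 h2 e2 with rfl | rfl <;> simp [h.q1.zz]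
  · rw [e] at e2
    have e3 : γ * γ = z := by rw [eq_inv_of_mul_eq_one_right e2, zi]
    have cz := h.zc (h.symm.AS j2)
    rcases h.q1.c2 h1 e with rfl | rfl <;> rcases h.q2.c2 h2 e3 with rfl | rfl
    · simp
    · simp [mul_assoc]
    · simp [mul_assoc, cz]
    · right; right; left
      rw [mul_one, mul_assoc, ← mul_assoc z, ← cz, mul_assoc, h.q1.zz, mul_one]

/-- classification of the involutions -/
theorem cls (hx : x ∈ S) (e2 : x * x = 1) : Co a c 1 x ∨ (∃ α ∈ zpowers a, ∃ γ ∈ zpowers c, γ * γ = z ∧ x = α * γ * b) ∨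
    (∃ γ ∈ zpowers c, ∃ α ∈ zpowers a, α * α = z ∧ x = γ * α * d) ∨ Co a c (b * d) x ∨ Co a c t x := by
  have k : ∀ {m n : ℕ} {a b c d : G}, GS m n S z t a b c d → Co a c b x →
      ∃ α ∈ zpowers a, ∃ γ ∈ zpowers c, γ * γ = z ∧ x = α * γ * b := fun {m n a b c d} h e => by
    obtain ⟨α, h1, γ, h2, rfl⟩ := e
    rw [h.sq_co h1 h2 (h.bA h1) (h.symm.dA h2) (inv_mem h1), h.q1.bb, mul_inv_cancel, one_mul] at e2
    exact ⟨α, h1, γ, h2, by rw [eq_inv_of_mul_eq_one_left e2, inv_eq_of_mul_eq_one_right h.q1.zz], rfl⟩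
  rcases h.cases hx with e | e | e | e | e | e | e | e
  · exact .inl e
  · exact .inr (.inl (k h e))
  · exact .inr (.inr (.inl (k h.symm (h.Co_symm e))))
  · exact .inr (.inr (.inr (.inl e)))
  · exact .inr (.inr (.inr (.inr e)))
  · exact absurd e2 (h.n_bt e)
  · exact absurd e2 (h.symm.n_bt (h.Co_symm e))
  · exact (h.n_bdt e e2).2.elim

theorem cjU1 (h1 : α ∈ zpowers a) {w : G} (hw : ∀ α ∈ zpowers a, w * α = α⁻¹ * w) (hb : IsConj w (a * w)) :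
    IsConj w (α * w) := by
  obtain ⟨y, y1, rfl | rfl⟩ := QF.c4 h1
  · exact isConj_iff.2 ⟨y, by rw [mul_assoc, hw _ (inv_mem y1)]; group⟩
  · refine hb.trans (isConj_iff.2 ⟨y, ?_⟩)
    rw [mul_assoc, mul_assoc, hw _ (inv_mem y1), inv_inv, ← mul_assoc a, cm_zp rfl y1]; group

theorem btb : b⁻¹ * t * b = a⁻¹ * z * t := by
  calc b⁻¹ * t * b = b⁻¹ * (t * b * t⁻¹) * t := by group
    _ = b⁻¹ * (a * b) * z * t := by rw [h.q1.tb, mul_assoc a, ← h.zc h.bS]; group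
    _ = _ := by rw [← inv_inv a, ← h.bA (inv_mem (mem_zpowers a))]; group

theorem cjU (e : Co a c t x) : IsConj t x := by
  have k : ∀ {m n : ℕ} {a b c d : G}, GS m n S z t a b c d → ∀ γ ∈ zpowers c, ∀ α ∈ zpowers a,
      IsConj (γ * t) (α * (γ * t)) := fun {m n a b c d} h γ h2 α h1 => by
    have hw : ∀ α ∈ zpowers a, γ * t * α = α⁻¹ * (γ * t) := fun α h1 => by
      rw [mul_assoc, h.tA h1, ← mul_assoc, h.AC (inv_mem h1) h2, mul_assoc]
    refine h.cjU1 h1 hw ?_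
    have y1 : a * a ^ 2 ^ m ∈ zpowers a := mul_mem (mem_zpowers a) (npow_mem_zpowers a _)
    refine isConj_iff.2 ⟨a * a ^ 2 ^ m * b⁻¹, ?_⟩
    have e1 : b⁻¹ * (γ * t) * b = a⁻¹ * z * (γ * t) := by
      calc b⁻¹ * (γ * t) * b = b⁻¹ * (γ * b) * (b⁻¹ * t * b) := by group
        _ = γ * (a⁻¹ * z) * t := by rw [← h.symm.dA h2, h.btb]; group
        _ = _ := by rw [h.AC (mul_mem (inv_mem (mem_zpowers a)) h.q1.zA) h2]; group
    calc a * a ^ 2 ^ m * b⁻¹ * (γ * t) * (a * a ^ 2 ^ m * b⁻¹)⁻¹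
        = a * a ^ 2 ^ m * (b⁻¹ * (γ * t) * b) * (a * a ^ 2 ^ m)⁻¹ := by group
      _ = a * a ^ 2 ^ m * (a⁻¹ * z) * (γ * t * (a * a ^ 2 ^ m)⁻¹) := by rw [e1]; group
      _ = a * (a ^ 2 ^ m * a ^ 2 ^ m * (a ^ 2 ^ m * a ^ 2 ^ m)) * (γ * t) := by
        rw [hw _ (inv_mem y1), ← h.q1.jj]; group
      _ = _ := by rw [h.q1.jj, h.q1.zz, mul_one]
  obtain ⟨α, h1, γ, h2, rfl⟩ := e
  have := k h.symm 1 (one_mem _) γ h2
  rw [one_mul] at this
  exact this.trans (mul_assoc α γ t ▸ k h γ h2 α h1)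

theorem cjS (h1 : α ∈ zpowers a) (h2 : γ ∈ zpowers c) (e : γ * γ = z) : IsConj (c ^ 2 ^ n * b) (α * γ * b) := by
  have j2 : c ^ 2 ^ n ∈ zpowers c := npow_mem_zpowers c _
  have k : ∀ γ ∈ zpowers c, γ * γ = z → ∀ α ∈ zpowers a, IsConj (γ * b) (α * (γ * b)) := fun γ h2 e α h1 => by
    refine h.cjU1 h1 (fun α h1 => by rw [mul_assoc, h.bA h1, ← mul_assoc, h.AC (inv_mem h1) h2, mul_assoc]) ?_
    refine isConj_iff.2 ⟨t, ?_⟩
    calc t * (γ * b) * t⁻¹ = (t * γ) * t⁻¹ * (t * b * t⁻¹) := by group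
      _ = γ⁻¹ * a * z * b := by rw [h.symm.tA h2, h.q1.tb]; group
      _ = _ := by rw [h.AC (mem_zpowers a) (inv_mem h2), ← e]; group
  rcases h.q2.c2 h2 e with rfl | rfl
  · exact mul_assoc α _ b ▸ k _ j2 e α h1
  · have := k _ j2 h.q2.jj (α * z) (mul_mem h1 h.q1.zA)
    rwa [mul_assoc α, ← mul_assoc z, ← h.zc (h.symm.AS j2), ← mul_assoc] at this

theorem jinv : (a ^ 2 ^ m)⁻¹ = a ^ 2 ^ m * z := by
  rw [inv_eq_iff_mul_eq_one, ← mul_assoc, h.q1.jj, h.q1.zz]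

theorem sgn (hx : x ∈ S) : x * a ^ 2 ^ m = a ^ 2 ^ m * x ∨ x * a ^ 2 ^ m = a ^ 2 ^ m * z * x := by
  have j1 : a ^ 2 ^ m ∈ zpowers a := npow_mem_zpowers a _
  have k : ∀ {w x : G} {β : G}, β ∈ zpowers a → w * a ^ 2 ^ m = β * w → Co a c w x → x * a ^ 2 ^ m = β * x := by
    rintro w _ β hβ e ⟨α, h1, γ, h2, rfl⟩
    rw [mul_assoc, e, ← mul_assoc, mul_assoc α, h.AC hβ h2, ← mul_assoc, cm_zp (cm_zp rfl h1).symm hβ]; group
  rw [← h.jinv]
  rcases h.cases hx with e | e | e | e | e | e | e | e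
  · exact .inl (k j1 (by simp) e)
  · exact .inr (k (inv_mem j1) (h.bA j1) e)
  · exact .inl (k j1 (h.dA j1) e)
  · exact .inr (k (inv_mem j1) (h.bdA j1) e)
  · exact .inr (k (inv_mem j1) (h.tA j1) e)
  · exact .inl (k j1 (h.btA j1) e)
  · exact .inr (k (inv_mem j1) (h.dtA j1) e)
  · exact .inl (k j1 (h.bdtA j1) e)

theorem idx2 {v w : G} (hw : w ∈ S) (e : w * v = v * z * w) (hs : ∀ x ∈ S, x * v = v * x ∨ x * v = v * z * x) :
    (S ⊓ 𝓒₁(v)).relIndex S = 2 := by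
  refine relIndex_eq_two_iff_exists_notMem_and.2 ⟨w, hw, fun h1 => h.q1.z1 ?_, fun x hx => ?_⟩
  · have := mem_cent1.1 (mem_inf.1 h1).2
    rw [e] at this
    simpa using mul_right_cancel this
  · rcases hs x hx with e1 | e1
    · exact .inr (mem_inf.2 ⟨hx, mem_cent1.2 e1⟩)
    · refine .inl (mem_inf.2 ⟨mul_mem hx hw, mem_cent1.2 ?_⟩)
      rw [mul_assoc, e, ← mul_assoc, ← mul_assoc, e1, mul_assoc _ x z, h.zc hx, ← mul_assoc, mul_assoc v, h.q1.zz]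
      group

theorem ne_z {v w : G} (e : w * v = v * z * w) : w * v ≠ v * w := fun e1 => h.q1.z1 (by
  rw [e] at e1
  simpa using mul_right_cancel e1)

theorem invA {w : G} (h1 : ∀ α ∈ zpowers a, w * α = α⁻¹ * w) (h2 : ∀ γ ∈ zpowers c, w * γ = γ⁻¹ * w) (e : Co a c w x) :
    (∀ α ∈ zpowers a, x * α = α⁻¹ * x) ∧ ∀ γ ∈ zpowers c, x * γ = γ⁻¹ * x := by
  obtain ⟨α, h3, γ, h4, rfl⟩ := e
  refine ⟨fun β hβ => ?_, fun β hβ => ?_⟩
  · rw [mul_assoc, h1 β hβ, ← mul_assoc, mul_assoc α, h.AC (inv_mem hβ) h4, ← mul_assoc,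
      cm_zp (cm_zp rfl h3).symm (inv_mem hβ)]; group
  · rw [mul_assoc, h2 β hβ, ← mul_assoc, mul_assoc α, cm_zp (cm_zp rfl h4).symm (inv_mem hβ), ← mul_assoc,
      ← h.AC h3 (inv_mem hβ)]; group

theorem inv3 (e : Co a c (b * d) x ∨ Co a c t x) :
    (∀ α ∈ zpowers a, x * α = α⁻¹ * x) ∧ ∀ γ ∈ zpowers c, x * γ = γ⁻¹ * x := by
  rcases e with e | e
  · exact h.invA (fun _ => h.bdA) (fun _ h2 => h.bd ▸ h.symm.bdA h2) e
  · exact h.invA (fun _ => h.tA) (fun _ => h.symm.tA) e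

theorem act1 (h1 : α ∈ zpowers a) (h2 : γ ∈ zpowers c) : α * γ * b * a ^ 2 ^ m = a ^ 2 ^ m * z * (α * γ * b) ∧
    α * γ * b * c ^ 2 ^ n = c ^ 2 ^ n * (α * γ * b) := by
  have j1 : a ^ 2 ^ m ∈ zpowers a := npow_mem_zpowers a _
  have j2 : c ^ 2 ^ n ∈ zpowers c := npow_mem_zpowers c _
  constructor
  · rw [← h.jinv, mul_assoc, h.bA j1, ← mul_assoc, mul_assoc α, h.AC (inv_mem j1) h2, ← mul_assoc,
      cm_zp (cm_zp rfl h1).symm (inv_mem j1)]; group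
  · rw [mul_assoc, h.symm.dA j2, ← mul_assoc, mul_assoc α, cm_zp (cm_zp rfl h2).symm j2, ← mul_assoc, ← h.AC h1 j2]
    group

theorem act1v (h1 : α ∈ zpowers a) (h2 : γ ∈ zpowers c) :
    α * γ * b * (a ^ 2 ^ m * c ^ 2 ^ n) = a ^ 2 ^ m * c ^ 2 ^ n * z * (α * γ * b) := by
  rw [← mul_assoc, (h.act1 h1 h2).1, mul_assoc, (h.act1 h1 h2).2, ← mul_assoc, mul_assoc _ z,
    ← h.zc (pow_mem h.cS _)]; group

theorem vsymm : c ^ 2 ^ n * a ^ 2 ^ m = a ^ 2 ^ m * c ^ 2 ^ n := h.AC (npow_mem_zpowers a _) (npow_mem_zpowers c _)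

theorem sgnv (hx : x ∈ S) : x * (a ^ 2 ^ m * c ^ 2 ^ n) = a ^ 2 ^ m * c ^ 2 ^ n * x ∨
    x * (a ^ 2 ^ m * c ^ 2 ^ n) = a ^ 2 ^ m * c ^ 2 ^ n * z * x := by
  have cz := h.zc (pow_mem h.cS (2 ^ n))
  rw [← mul_assoc]
  rcases h.sgn hx with e | e <;> rcases h.symm.sgn hx with f | f <;> rw [e, mul_assoc, f]
  · left; group
  · right; group
  · right; rw [← mul_assoc, mul_assoc _ z, ← cz]; group
  · left
    calc _ = a ^ 2 ^ m * (z * c ^ 2 ^ n) * z * x := by group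
      _ = a ^ 2 ^ m * c ^ 2 ^ n * (z * z) * x := by rw [← cz]; group
      _ = _ := by rw [h.q1.zz, mul_one]

theorem vv : a ^ 2 ^ m * c ^ 2 ^ n * (a ^ 2 ^ m * c ^ 2 ^ n) = 1 := by
  rw [mul_assoc, ← mul_assoc (c ^ 2 ^ n), h.vsymm, mul_assoc, ← mul_assoc, h.q1.jj, h.q2.jj, h.q1.zz]

theorem vz : IsConj (a ^ 2 ^ m * c ^ 2 ^ n) (a ^ 2 ^ m * c ^ 2 ^ n * z) := isConj_iff.2 ⟨b, by
  have := h.act1v (one_mem _) (one_mem _)
  simp only [one_mul] at this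
  rw [this, mul_inv_cancel_right]⟩

theorem s2 : c ^ 2 ^ n * b * (c ^ 2 ^ n * b) = 1 := by
  rw [mul_assoc, ← mul_assoc b, h.symm.dA (npow_mem_zpowers c _), mul_assoc, h.q1.bb, ← mul_assoc, h.q2.jj, h.q1.zz]

theorem s1 : c ^ 2 ^ n * b ≠ 1 := fun e => by
  have := (h.act1 (one_mem _) (npow_mem_zpowers c (2 ^ n))).1
  rw [one_mul, e] at this
  exact h.q1.z1 (by simpa using this)

/-- involutions commuting with an involution of the coset of `t` -/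
theorem cU (e : Co a c t y) (hx : x ∈ S) (e2 : x * x = 1) (hc : x * y = y * x) : Co a c 1 x ∨ Co a c t x := by
  obtain ⟨α, h1, γ, h2, rfl⟩ := e
  have y2 : α * γ * t * (α * γ * t) = 1 := by
    rw [h.sq_co h1 h2 (h.tA h1) (h.symm.tA h2) (inv_mem h1), h.tt]; simp
  have p2 : x * (α * γ * t) * (x * (α * γ * t)) = 1 := by
    rw [mul_assoc, ← mul_assoc (α * γ * t), ← hc, mul_assoc, ← mul_assoc, e2, y2, mul_one]
  have k : ∀ {w α' γ' : G}, α' ∈ zpowers a → γ' ∈ zpowers c → w * α = α' * w → w * γ = γ' * w → Co a c w x →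
      Co a c (w * t) (x * (α * γ * t)) := by
    rintro w α' γ' h3 h4 f1 f2 ⟨β, h5, δ, h6, rfl⟩
    refine ⟨β * α', mul_mem h5 h3, δ * γ', mul_mem h6 h4, ?_⟩
    calc β * δ * w * (α * γ * t) = β * δ * (w * α) * γ * t := by group
      _ = β * (δ * α') * (w * γ) * t := by rw [f1]; group
      _ = _ := by rw [f2, h.AC h3 h6]; group
  rcases h.cls hx e2 with e | ⟨β, h3, δ, h4, -, e⟩ | ⟨δ, h4, β, h3, -, e⟩ | e | e
  · exact .inl e
  · exact absurd p2 (h.n_bt (k (inv_mem h1) h2 (h.bA h1) (h.symm.dA h2) ⟨β, h3, δ, h4, e⟩))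
  · exact absurd p2 (h.symm.n_bt (h.Co_symm (k h1 (inv_mem h2) (h.dA h1) (h.symm.bA h2)
      (h.symm.Co_symm ⟨δ, h4, β, h3, e⟩))))
  · exact (h.n_bdt (k (inv_mem h1) (inv_mem h2) (h.bdA h1) (h.bd ▸ h.symm.bdA h2) e) p2).2.elim
  · exact .inr e

variable [Finite G] [IsSimpleGroup G] (hS : Syl 2 S ⊤)
include hS

theorem extz {D : Subgroup G} (e : IsConj z x) (hD : IsPi {2} D) (h2 : D ≤ 𝓒₁(x)) :
    ∃ r, r * x * r⁻¹ = z ∧ cj r D ≤ S := by
  obtain ⟨g, rfl⟩ := isConj_iff.1 e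
  have h3 : Syl 2 S 𝓒₁(z) := hS.of_le (fun y hy => mem_cent1.2 (h.zc hy)) le_top
  obtain ⟨k, hk, h4⟩ := h3.syl_conj_le Nat.prime_two (hD.cj g⁻¹) (by rw [cj_le_iff, inv_inv, cj_cent1]; exact h2)
  refine ⟨k * g⁻¹, ?_, cj_mul k g⁻¹ D ▸ h4⟩
  calc k * g⁻¹ * (g * z * g⁻¹) * (k * g⁻¹)⁻¹ = k * z * k⁻¹ := by group
    _ = z := by rw [mem_cent1.1 hk, mul_inv_cancel_right]

theorem typeI (e : IsConj z x) (hne : x ≠ z) (hy : y ∈ S) (hc : y * x = x * y) (y2 : y * y = z) :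
    IsConj z (a ^ 2 ^ m * c ^ 2 ^ n) := by
  obtain ⟨r, r1, r2⟩ := h.extz hS e (hS.pi.of_le (zpowers_le_of_mem hy)) (zpowers_le_of_mem (mem_cent1.2 hc))
  have h1 := h.sqA (r2 (conj_mem_cj.2 (mem_zpowers y)))
  have h2 : r * y * r⁻¹ * (r * y * r⁻¹) = r * z * r⁻¹ := by rw [← y2]; group
  rw [h2] at h1
  have h3 : IsConj z (r * z * r⁻¹) := isConj_iff.2 ⟨r, rfl⟩
  rcases h.omA h1 (by rw [conj_mul, h.q1.zz]; simp) with e1 | e1 | e1 | e1
  · exact absurd (by simpa using e1) h.q1.z1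
  · exact absurd (by simpa using r1.trans e1.symm) hne
  · exact e1 ▸ h3
  · exact (e1 ▸ h3).trans h.vz.symm

omit hS in
theorem nc : ¬ IsMulCommutative G := fun e => h.ne_z ((h.act1 (one_mem _) (one_mem _)).1) (e.1.1 _ _)

theorem zv : IsConj z (a ^ 2 ^ m * c ^ 2 ^ n) := by
  by_contra hn
  have cl : ∀ x ∈ S, IsConj z x → x ≠ z → Co a c t x := fun x hx e hne => by
    have e2 : x * x = 1 := by
      obtain ⟨g, rfl⟩ := isConj_iff.1 e
      rw [conj_mul, h.q1.zz]; simp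
    rcases h.cls hx e2 with e1 | ⟨β, h3, δ, h4, e3, rfl⟩ | ⟨δ, h4, β, h3, e3, rfl⟩ | ⟨β, h3, δ, h4, rfl⟩ | e1
    · rcases h.omA e1 e2 with rfl | rfl | rfl | rfl
      · exact absurd (isConj_one_right.1 e.symm) h.q1.z1
      · exact absurd rfl hne
      · exact absurd e hn
      · exact absurd (e.trans h.vz.symm) hn
    · refine absurd (h.typeI hS e hne (h.symm.AS h4) ?_ e3) hn
      rw [mul_assoc β δ b, ← h.symm.dA h4, ← mul_assoc, ← mul_assoc, h.AC h3 h4, h.symm.dA h4]; group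
    · refine absurd (h.typeI hS e hne (h.AS h3) ?_ e3) hn
      rw [mul_assoc δ β d, ← h.dA h3, ← mul_assoc, ← mul_assoc, ← h.AC h3 h4, h.dA h3]; group
    · refine absurd (h.typeI hS e hne (mul_mem (h.AS h3) h.bS) ?_ (y := β * b) ?_) hn
      · have c1 : Commute (β * b) (δ * d) := Commute.mul_left (Commute.mul_right (h.AC h3 h4).symm (h.dA h3).symm)
          (Commute.mul_right (h.symm.dA h4) h.bd)
        have e4 : β * δ * (b * d) = β * b * (δ * d) := by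
          rw [mul_assoc β δ, ← mul_assoc δ, ← h.symm.dA h4]; group
        rw [e4, mul_assoc (β * b) (δ * d), ← c1.eq]
      · rw [mul_assoc, ← mul_assoc b, h.bA h3, mul_assoc, h.q1.bb]; group
    · exact e1
  haveI : Fact (Nat.Prime 2) := ⟨Nat.prime_two⟩
  have oz : orderOf z = 2 := orderOf_eq_prime (by rw [pow_two, h.q1.zz]) h.q1.z1
  obtain ⟨g, h1, h2⟩ := CA.H13Zstar.exists_commute_conj h.q1.zz (CA.H13Misc.not_inZStar h.nc oz)
  have h3 : Syl 2 S 𝓒₁(z) := hS.of_le (fun y hy => mem_cent1.2 (h.zc hy)) le_top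
  obtain ⟨k, hk, h4⟩ := h3.syl_conj_le Nat.prime_two (K := zpowers (g * z * g⁻¹))
    (isPi_of_card_eq Nat.prime_two (by rw [Nat.card_zpowers, ← MulAut.conj_apply, MulEquiv.orderOf_eq, oz]))
    (zpowers_le_of_mem (mem_cent1.2 h1.symm))
  have u1 := h4 (conj_mem_cj.2 (mem_zpowers _))
  have u2 : IsConj z (k * (g * z * g⁻¹) * k⁻¹) := isConj_iff.2 ⟨k * g, by group⟩
  have u3 : k * (g * z * g⁻¹) * k⁻¹ ≠ z := fun e => h2 (by
    calc g * z * g⁻¹ = k⁻¹ * (k * (g * z * g⁻¹) * k⁻¹) * k := by group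
      _ = z := by rw [e, mul_assoc, ← mem_cent1.1 hk, inv_mul_cancel_left])
  have u4 := h.inv3 (.inr (cl _ u1 u2 u3))
  generalize k * (g * z * g⁻¹) * k⁻¹ = u at u1 u2 u3 u4
  have vS : a ^ 2 ^ m * c ^ 2 ^ n ∈ S := mul_mem (pow_mem h.aS _) (pow_mem h.cS _)
  have zS := h.AS h.q1.zA
  have uv : u * (a ^ 2 ^ m * c ^ 2 ^ n) = a ^ 2 ^ m * c ^ 2 ^ n * u := by
    rw [← mul_assoc, u4.1 _ (npow_mem_zpowers a _), mul_assoc, u4.2 _ (npow_mem_zpowers c _), ← mul_assoc,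
      ← mul_inv_rev, h.vsymm, inv_eq_of_mul_eq_one_right h.vv]
  obtain ⟨r, r1, r2⟩ := h.extz hS u2 (D := zpowers z ⊔ zpowers (a ^ 2 ^ m * c ^ 2 ^ n))
    (hS.pi.of_le (sup_le (zpowers_le_of_mem zS) (zpowers_le_of_mem vS)))
    (sup_le (zpowers_le_of_mem (mem_cent1.2 (h.zc u1).symm)) (zpowers_le_of_mem (mem_cent1.2 uv.symm)))
  have z1 := r2 (conj_mem_cj.2 (mem_sup_left (mem_zpowers _)))
  have v1 := r2 (conj_mem_cj.2 (mem_sup_right (mem_zpowers _)))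
  have z2 : IsConj z (r * z * r⁻¹) := isConj_iff.2 ⟨r, rfl⟩
  have z3 : r * z * r⁻¹ ≠ z := fun e => u3 (by simpa using r1.trans e.symm)
  have z4 := cl _ z1 z2 z3
  have k : ∀ w, IsConj (a ^ 2 ^ m * c ^ 2 ^ n) w → w ∈ S → r * w * r⁻¹ ∈ S →
      r * w * r⁻¹ = a ^ 2 ^ m * c ^ 2 ^ n ∨ r * w * r⁻¹ = a ^ 2 ^ m * c ^ 2 ^ n * z := fun w w1 w2 w3 => by
    have w4 : IsConj (a ^ 2 ^ m * c ^ 2 ^ n) (r * w * r⁻¹) := w1.trans (isConj_iff.2 ⟨r, rfl⟩)
    have w5 : r * w * r⁻¹ * (r * w * r⁻¹) = 1 := by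
      obtain ⟨g, e⟩ := isConj_iff.1 w4
      rw [← e, conj_mul, h.vv]; simp
    rcases h.cU z4 w3 w5 (by rw [conj_mul, conj_mul, h.zc w2]) with e | e
    · rcases h.omA e w5 with e1 | e1 | e1 | e1
      · rw [e1] at w4
        have := h.vz
        rw [isConj_one_right.1 w4.symm, one_mul] at this
        exact absurd (isConj_one_right.1 this) h.q1.z1
      · exact absurd (e1 ▸ w4).symm hn
      · exact .inl e1
      · exact .inr e1
    · exact absurd (z2.trans ((h.cjU z4).symm.trans ((h.cjU e).trans w4.symm))) hn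
  have e0 : r * (a ^ 2 ^ m * c ^ 2 ^ n * z) * r⁻¹ = r * (a ^ 2 ^ m * c ^ 2 ^ n) * r⁻¹ * (r * z * r⁻¹) := by group
  have k1 := k _ (IsConj.refl _) vS v1
  have k2 := k _ h.vz (mul_mem vS zS) (e0 ▸ mul_mem v1 z1)
  rw [e0] at k2
  rcases k1 with k1 | k1 <;> rw [k1] at k2 <;> rcases k2 with k2 | k2
  · exact h.q1.z1 (by simpa using k2)
  · exact z3 (mul_left_cancel k2)
  · rw [mul_assoc, mul_eq_left] at k2
    exact z3 (by rw [eq_inv_of_mul_eq_one_right k2, inv_eq_of_mul_eq_one_right h.q1.zz])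
  · exact h.q1.z1 (by simpa using k2)

theorem BV (e : Co a c 1 x) (e2 : x * x = 1) (e1 : x ≠ 1) : IsConj z x := by
  rcases h.omA e e2 with rfl | rfl | rfl | rfl
  exacts [absurd rfl e1, IsConj.refl _, h.zv hS, (h.zv hS).trans h.vz]

theorem tte {M T : Subgroup G} (hi : (S ⊓ M).relIndex S = 2) (e2 : x * x = 1) (hT : T ≤ S) (hc : T ≤ 𝓒₁(x)) :
    ∃ g : G, g⁻¹ * x * g ∈ S ⊓ M ∧ cj g⁻¹ T ≤ S := by
  refine AmbTr.thompson_extremal (CA.PRes.pResidual_two_eq_top_iff.2 fun N hN => ?_)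
    (Nat.not_even_iff_odd.1 fun e => hS.not_dvd Nat.prime_two (relIndex_top_right S ▸ e.two_dvd)) inf_le_left hi
    (by rw [pow_two, e2]) ((hS.pi.of_le hT).isPGroup Nat.prime_two) hc
  rcases (normal_of_index_eq_two hN).eq_bot_or_eq_top with rfl | rfl
  · have := card_le_card_group (zpowers a)
    rw [index_bot] at hN
    rw [Nat.card_zpowers, h.q1.o, hN, pow_succ, pow_succ] at this
    have := Nat.one_le_two_pow (n := m)
    omega
  · simp at hN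

theorem two (e2 : x * x = 1) (e1 : x ≠ 1) : IsConj z x ∨ IsConj (c ^ 2 ^ n * b) x := by
  have j2 : c ^ 2 ^ n ∈ zpowers c := npow_mem_zpowers c _
  obtain ⟨g, g1, -⟩ := h.tte hS (h.idx2 h.tS (by rw [h.symm.tA j2, h.symm.jinv]) fun _ => h.symm.sgn) e2 bot_le bot_le
  obtain ⟨g1, g2⟩ := mem_inf.1 g1
  have g3 : IsConj (g⁻¹ * x * g) x := isConj_iff.2 ⟨g, by group⟩
  have g4 : g⁻¹ * x * g * (g⁻¹ * x * g) = 1 := by
    calc _ = g⁻¹ * (x * x) * g := by group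
      _ = 1 := by rw [e2]; simp
  have g5 : g⁻¹ * x * g ≠ 1 := fun e => e1 (isConj_one_right.1 (e ▸ g3))
  rw [mem_cent1] at g2
  generalize g⁻¹ * x * g = y at g1 g2 g3 g4 g5
  rcases h.cls g1 g4 with e | ⟨β, h3, δ, h4, e3, rfl⟩ | ⟨δ, h4, β, h3, e3, rfl⟩ | e | e
  · exact .inl ((h.BV hS e g4 g5).trans g3)
  · exact .inr ((h.cjS h3 h4 e3).trans g3)
  · exact absurd g2 (h.ne_z (h.symm.act1 h4 h3).1)
  · exact absurd g2 (h.ne_z (by rw [(h.inv3 (.inl e)).2 _ j2, h.symm.jinv]))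
  · exact absurd g2 (h.ne_z (by rw [(h.inv3 (.inr e)).2 _ j2, h.symm.jinv]))

theorem big (hn : n ≠ 0) : IsConj z (c ^ 2 ^ n * b) := by
  have hb := h.act1v (one_mem _) (one_mem _)
  simp only [one_mul] at hb
  obtain ⟨g, g1, g6⟩ := h.tte hS (T := zpowers c) (h.idx2 h.bS hb fun _ => h.sgnv) h.s2 h.symm.AS
    (zpowers_le_of_mem (mem_cent1.2 (by rw [mul_assoc, h.bc, ← mul_assoc, ← mul_assoc, (Commute.self_pow c _).eq])))
  obtain ⟨g1, g2⟩ := mem_inf.1 g1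
  have g3 : IsConj (g⁻¹ * (c ^ 2 ^ n * b) * g) (c ^ 2 ^ n * b) := isConj_iff.2 ⟨g, by group⟩
  have g4 : g⁻¹ * (c ^ 2 ^ n * b) * g * (g⁻¹ * (c ^ 2 ^ n * b) * g) = 1 := by
    calc _ = g⁻¹ * (c ^ 2 ^ n * b * (c ^ 2 ^ n * b)) * g := by group
      _ = 1 := by rw [h.s2]; simp
  have g5 : g⁻¹ * (c ^ 2 ^ n * b) * g ≠ 1 := fun e => h.s1 (isConj_one_right.1 (e ▸ g3))
  have y1 : g⁻¹ * c * g⁻¹⁻¹ ∈ S := g6 (conj_mem_cj.2 (mem_zpowers c))
  have y2 : Commute (g⁻¹ * (c ^ 2 ^ n * b) * g) (g⁻¹ * c * g⁻¹⁻¹) := by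
    have : Commute (c ^ 2 ^ n * b) c := (Commute.pow_self c _).mul_left h.bc
    show _ = _
    calc _ = g⁻¹ * (c ^ 2 ^ n * b * c) * g := by group
      _ = _ := by rw [this.eq]; group
  have y3 : (g⁻¹ * c * g⁻¹⁻¹) ^ 4 ≠ 1 := fun e => hn (h.q2.m0 (by
    rw [conj_pow] at e
    calc c ^ 4 = g * (g⁻¹ * c ^ 4 * g⁻¹⁻¹) * g⁻¹ := by group
      _ = 1 := by rw [e]; group))
  rw [mem_cent1] at g2
  generalize g⁻¹ * (c ^ 2 ^ n * b) * g = x at g1 g2 g3 g4 g5 y2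
  generalize g⁻¹ * c * g⁻¹⁻¹ = y at y1 y2 y3
  have k : Co a c (b * d) x ∨ Co a c t x → False := fun e => by
    obtain ⟨α, h1, γ, h2, e1⟩ := h.sqA y1
    have e2 := (y2.mul_right y2).eq
    rw [e1, mul_one, ← mul_assoc, (h.inv3 e).1 _ h1, mul_assoc, (h.inv3 e).2 _ h2, ← mul_assoc] at e2
    have e3 := mul_right_cancel e2
    apply y3
    calc y ^ 4 = y * y * (y * y) := by simp [pow_succ, mul_assoc]
      _ = α * γ * (α⁻¹ * γ⁻¹) := by rw [e3, e1, mul_one]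
      _ = 1 := by rw [mul_assoc, ← mul_assoc γ, h.AC (inv_mem h1) h2]; group
  rcases h.cls g1 g4 with e | ⟨β, h3, δ, h4, e3, rfl⟩ | ⟨δ, h4, β, h3, e3, rfl⟩ | e | e
  · exact (h.BV hS e g4 g5).trans g3
  · exact absurd g2 (h.ne_z (h.act1v h3 h4))
  · exact absurd g2 (h.ne_z (h.vsymm ▸ h.symm.act1v h4 h3))
  · exact (k (.inl e)).elim
  · exact (k (.inr e)).elim

theorem main (hc : ♯S = 2 ^ (m + 3) * 2 ^ (n + 3)) : (∀ x y : G, orderOf x = 2 → orderOf y = 2 → IsConj x y) ∨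
    (♯S = 64 ∧ ∃ x y : G, orderOf x = 2 ∧ orderOf y = 2 ∧ ¬ IsConj x y ∧
      ∀ w : G, orderOf w = 2 → IsConj w x ∨ IsConj w y) := by
  haveI : Fact (Nat.Prime 2) := ⟨Nat.prime_two⟩
  have o : ∀ x : G, orderOf x = 2 → x * x = 1 ∧ x ≠ 1 := fun x e =>
    ⟨by rw [← pow_two, ← e, pow_orderOf_eq_one], fun e1 => by rw [e1, orderOf_one] at e; omega⟩
  by_cases h1 : IsConj z (c ^ 2 ^ n * b)
  · have k : ∀ x : G, orderOf x = 2 → IsConj z x := fun x e =>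
      (h.two hS (o x e).1 (o x e).2).elim id h1.trans
    exact .inl fun x y hx hy => (k x hx).symm.trans (k y hy)
  by_cases h2 : IsConj z (a ^ 2 ^ m * d)
  · have k : ∀ x : G, orderOf x = 2 → IsConj z x := fun x e =>
      (h.symm.two hS (o x e).1 (o x e).2).elim id h2.trans
    exact .inl fun x y hx hy => (k x hx).symm.trans (k y hy)
  have n0 : n = 0 := by by_contra e; exact h1 (h.big hS e)
  have m0 : m = 0 := by by_contra e; exact h2 (h.symm.big hS e)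
  refine .inr ⟨by rw [hc, n0, m0]; norm_num, z, c ^ 2 ^ n * b, orderOf_eq_prime (by rw [pow_two, h.q1.zz]) h.q1.z1,
    orderOf_eq_prime (by rw [pow_two, h.s2]) h.s1, h1, fun w e => ?_⟩
  exact (h.two hS (o w e).1 (o w e).2).imp IsConj.symm IsConj.symm

end GS

end CA.H14G2
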