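import Cfsg.Agent.Lib.Grp.H14G2a
import Cfsg.Agent.Lib.Grp.H7Max
import Cfsg.Agent.Lib.Fus.FusMw

/-!
A Sylow `2`-subgroup of the form `(Q₁ ∘ Q₂)⟨t⟩` from two commuting subgroups with quaternion Sylow `2`-subgroups.
-/

set_option autoImplicit false
set_option linter.unusedSectionVars false
set_option linter.style.haveILetI false

namespace CA.H14G2

open Subgroup Cfsg CA.BG CA.MC2

variable {G : Type*} [Group G]

theorem cj_mem {L : Subgroup G} {t x : G} (tn : t ∈ 𝓝(L)) (hx : x ∈ L) : t * x * t⁻¹ ∈ L :=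
  (mem_normalizer_iff.1 tn x).1 hx

/-- `L⟨t⟩` -/
def ext2 (L : Subgroup G) {t : G} (tt : t * t = 1) (tn : t ∈ 𝓝(L)) : Subgroup G where
  carrier := {x | x ∈ L ∨ x * t ∈ L}
  one_mem' := .inl (one_mem _)
  mul_mem' := by
    have ti : t⁻¹ = t := inv_eq_of_mul_eq_one_right tt
    rintro x y (h1 | h1) (h2 | h2)
    · exact .inl (mul_mem h1 h2)
    · exact .inr (mul_assoc x y t ▸ mul_mem h1 h2)
    · refine .inr ?_
      have := mul_mem h1 (cj_mem tn h2)
      rwa [ti, show x * t * (t * y * t) = x * (t * t) * y * t by group, tt, mul_one] at this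
    · refine .inl ?_
      have := mul_mem h1 (cj_mem tn h2)
      rwa [show x * t * (t * (y * t) * t⁻¹) = x * (t * t) * y by group, tt, mul_one] at this
  inv_mem' := by
    have ti : t⁻¹ = t := inv_eq_of_mul_eq_one_right tt
    rintro x (h1 | h1)
    · exact .inl (inv_mem h1)
    · refine .inr ?_
      have := cj_mem tn (inv_mem h1)
      rwa [show t * (x * t)⁻¹ * t⁻¹ = x⁻¹ * t⁻¹ by group, ti] at this

theorem mem_ext2 {L : Subgroup G} {t x : G} {tt : t * t = 1} {tn : t ∈ 𝓝(L)} :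
    x ∈ ext2 L tt tn ↔ x ∈ L ∨ x * t ∈ L := Iff.rfl

theorem card_two {Q X : Subgroup G} {t : G} (tt : t * t = 1) (h : Q ≤ X) (tX : t ∈ X) (tQ : t ∉ Q)
    (e : ∀ x ∈ X, x ∈ Q ∨ x * t ∈ Q) : ♯X = ♯Q * 2 := by
  rw [← card_mul_relIndex h, relIndex_eq_two_iff.2 ⟨t, tX, fun b hb => ?_⟩]
  have k : b * t ∈ Q → b ∈ Q → False := fun h1 h2 => tQ (by simpa using mul_mem (inv_mem h2) h1)
  rcases e b hb with e | e
  · exact .inr ⟨e, fun h1 => k h1 e⟩
  · exact .inl ⟨e, k e⟩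

structure LH (L : Subgroup G) (z t : G) : Prop where
  ex : ∃ x ∈ L, x * x = z
  u : ∀ x ∈ L, x * x = 1 → x = 1 ∨ x = z
  tt : t * t = 1
  tn : t ∈ 𝓝(L)
  P : ∀ x ∈ L, x * x = z → t * x ≠ x * t
  nc : ∀ Q, Syl 2 Q L → ¬ IsCyclic Q

theorem LH.tL {L : Subgroup G} {z t : G} (h : LH L z t) : t ∉ L := fun e => by
  obtain ⟨x, h1, h2⟩ := h.ex
  refine h.P x h1 h2 ?_
  rcases h.u t e h.tt with e | e
  · simp [e]
  · rw [e, ← h2]; group

theorem LH.exists_QF [Finite G] {L : Subgroup G} {z t : G} (h : LH L z t) :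
    ∃ (m : ℕ) (a b : G) (Q : Subgroup G), Syl 2 Q L ∧ QF m z t a b ∧ ♯Q = 2 ^ (m + 3) ∧ a ∈ Q ∧ b ∈ Q ∧ t ∈ 𝓝(Q) ∧
      ∀ x ∈ Q, ∃ i : ℤ, ∃ e : Bool, x = a ^ i * (if e then b else 1) := by
  have tt := h.tt
  have ti : t⁻¹ = t := inv_eq_of_mul_eq_one_right tt
  have p2 := Nat.prime_two
  have tM : t ∈ ext2 L tt h.tn := .inr (tt ▸ one_mem _)
  obtain ⟨X, hX, tX⟩ := syl_superset (p := 2) (K := zpowers t) (H := ext2 L tt h.tn) p2
    (isPi_of_isPGroup p2 (CA.Fus2.isPGroup_zpowers (k := 1) (by simpa [pow_two] using tt))) (zpowers_le.2 tM)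
  replace tX : t ∈ X := tX (mem_zpowers t)
  have dec : ∀ x ∈ X, x ∈ L ∨ x * t ∈ L := fun x hx => hX.le hx
  have XN : X ≤ 𝓝(L) := fun x hx => by
    rcases dec x hx with e | e
    · exact le_normalizer e
    · simpa using mul_mem (le_normalizer e) (inv_mem h.tn)
  have hQ : Syl 2 (X ⊓ L) L := hX.inf_normal (fun x hx => .inl hx) XN
  have cX : ♯X = ♯(X ⊓ L : Subgroup G) * 2 := card_two tt inf_le_left tX (fun e => h.tL e.2) fun x hx =>
    (dec x hx).imp (fun e => ⟨hx, e⟩) fun e => ⟨mul_mem hx tX, e⟩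
  obtain ⟨k, hk⟩ := hQ.pi.exists_card p2
  obtain ⟨n, rfl⟩ : ∃ n, k = n + 2 := by
    refine ⟨k - 2, ?_⟩
    by_contra e
    haveI := Fact.mk p2
    refine h.nc _ hQ ?_
    have : k = 0 ∨ k = 1 := by omega
    rcases this with rfl | rfl
    · exact isCyclic_of_card_dvd_prime (p := 2) (by rw [hk]; simp)
    · exact isCyclic_of_card_dvd_prime (p := 2) (by rw [hk]; simp)
  have cX' : ♯X = 2 ^ (n + 3) := by rw [cX, hk]; ring
  have pX : IsPGroup 2 X := hX.pi.isPGroup p2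
  have fx : ∀ x ∈ X, x ∈ L → t * x = x * t → x = 1 ∨ x = z := fun x h1 h2 h3 => by
    refine h.u x h2 ?_
    have := CA.FusMw.sq_of_fix pX (c := ⟨x, h1⟩) (by
      rintro _ ⟨i, rfl⟩ e
      have e1 : (x ^ i) ^ 4 = 1 := by simpa using congrArg Subtype.val e
      have m1 : x ^ i ∈ L := zpow_mem h2 i
      apply Subtype.ext
      show (x ^ i) ^ 2 = 1
      rcases h.u _ (mul_mem m1 m1) (by rw [← e1]; simp [pow_succ, mul_assoc]) with e2 | e2
      · rwa [pow_two]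
      · exact absurd (Commute.zpow_right h3 i).eq (h.P _ m1 e2))
    simpa [pow_two] using congrArg Subtype.val this
  have cc : ♯(𝓒₁(t) ⊓ X : Subgroup G) ≤ 2 ^ 2 := by
    classical
    have : ((𝓒₁(t) ⊓ X : Subgroup G) : Set G) ⊆ ({1, z, t, z * t} : Finset G) := by
      rintro x ⟨h1, h2⟩
      replace h1 : x * t = t * x := mem_cent1.1 h1
      simp only [Finset.coe_insert, Finset.coe_singleton, Set.mem_insert_iff, Set.mem_singleton_iff]
      rcases dec x h2 with e | e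
      · rcases fx x h2 e h1.symm with e | e <;> simp [e]
      · have e2 : x = x * t * t := by rw [mul_assoc, tt, mul_one]
        rcases fx _ (mul_mem h2 tX) e (by rw [← mul_assoc, h1]) with e | e <;> rw [e2, e] <;> simp
    exact ((Set.ncard_le_ncard this).trans (Set.ncard_coe_finset _).le).trans Finset.card_le_four
  have lc := CA.H7Max.lcs_ne_bot_of_cent (G := X) (H := ⊤) (n := n) p2 (by rw [card_top, cX']) (a := ⟨t, tX⟩) trivial
    (le_trans (Nat.card_le_card_of_injective (fun x => (⟨x.1.1, mem_cent1.2 (congrArg Subtype.val (mem_cent1.1 x.2.1)),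
      x.1.2⟩ : (𝓒₁(t) ⊓ X : Subgroup G))) fun x y e => Subtype.ext (Subtype.ext (by simpa using congrArg Subtype.val e))) cc)
  obtain ⟨g', y', h3, e3⟩ := CA.H7Max.mc3_of_class cX' lc
  obtain ⟨ε, δ, h4⟩ := h3.exists
  have h5 := h4.map X.subtype X.subtype_injective
  have e4 : zpowers (X.subtype g') ⊔ zpowers (X.subtype y') = X := by
    rw [← MonoidHom.map_zpowers, ← MonoidHom.map_zpowers, ← Subgroup.map_sup, e3, ← MonoidHom.range_eq_map, range_subtype]
  generalize X.subtype g' = g at h5 e4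
  generalize X.subtype y' = y at h5 e4
  have gX : g ∈ X := e4 ▸ mem_sup_left (mem_zpowers g)
  have sq : ∀ x ∈ X, x * x ∈ L := fun x hx => by
    rcases dec x hx with e | e
    · exact mul_mem e e
    · have := mul_mem e (cj_mem h.tn e)
      rwa [show x * t * (t * (x * t) * t⁻¹) = x * (t * t) * x by group, tt, mul_one] at this
  have eZ : g ^ (2 ^ (n + 1) : ℤ) = z := by
    refine (h.u _ ?_ (by rw [← pow_two, h5.z_sq])).resolve_left h5.z_ne
    rw [pow_succ, mul_two, zpow_add]; exact sq _ (zpow_mem gX _)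
  have zL : z ∈ L := by obtain ⟨x, h1, h2⟩ := h.ex; exact h2 ▸ mul_mem h1 h1
  have tg : t ∉ zpowers g := fun e =>
    h.tL ((h5.eq_z e (by rw [pow_two, tt]) fun e1 => h.tL (e1 ▸ one_mem _)).trans eZ ▸ zL)
  obtain ⟨δ', h6, e6⟩ := h5.out (e4.symm ▸ tX) tg
  rw [e4] at e6
  have nfX : ∀ x ∈ X, ∃ i : ℤ, x = g ^ i ∨ x = g ^ i * t := fun x hx => h6.mem_iff.1 (e6.symm ▸ hx)
  have gL : g ∉ L := fun e => h.nc _ hQ (by
    have : X ⊓ L = zpowers g := le_antisymm (fun x hx => by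
      obtain ⟨i, rfl | rfl⟩ := nfX x hx.1
      · exact ⟨i, rfl⟩
      · exact absurd (by simpa using mul_mem (inv_mem (zpow_mem e i)) hx.2) h.tL) (zpowers_le.2 ⟨gX, e⟩)
    rw [this]; infer_instance)
  have bL : g⁻¹ * t ∈ L := (dec _ (inv_mem gX)).resolve_left fun e => gL (by simpa using inv_mem e)
  have zg : z * g = g * z := by rw [← eZ]; group
  have zt : t * z = z * t := eZ ▸ h6.commute_z
  have zz : z * z = 1 := by rw [← eZ, ← pow_two, h5.z_sq]
  have tgt : t * g * t⁻¹ = g⁻¹ * z := by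
    have e1 : t * g * t⁻¹ = g⁻¹ * g ^ (2 ^ (n + 1) * ε : ℤ) := by rw [h6.conj]; group
    rcases h6.z_zpow ε with e | e
    · rw [e, mul_one] at e1
      exfalso
      rcases h.u _ bL (by
        calc g⁻¹ * t * (g⁻¹ * t) = g⁻¹ * (t * g * t⁻¹)⁻¹ * (t * t) := by group
          _ = 1 := by rw [e1, tt]; group) with e | e
      · exact tg ((inv_mul_eq_one.1 e) ▸ mem_zpowers g)
      · exact tg ((inv_mul_eq_iff_eq_mul.1 e).symm ▸ mul_mem (mem_zpowers g) (eZ ▸ zpow_mem (mem_zpowers g) _))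
    · rw [e1, e, eZ]
  obtain ⟨m, rfl⟩ : ∃ m, n = m + 1 := by
    refine ⟨n - 1, ?_⟩
    by_contra e
    obtain rfl : n = 0 := by omega
    have := (h6.commute_iff (i := 1)).1 (by
      rw [zpow_one, ← mul_inv_eq_iff_eq_mul, tgt, ← eZ]; group)
    norm_num at this
  have zi : z⁻¹ = z := inv_eq_of_mul_eq_one_right zz
  have zg' : z * g⁻¹ = g⁻¹ * z := (Commute.inv_right zg).eq
  have ta : t * (g * g) * t⁻¹ = (g * g)⁻¹ := by
    calc t * (g * g) * t⁻¹ = t * g * t⁻¹ * (t * g * t⁻¹) := by group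
      _ = g⁻¹ * (z * g⁻¹) * z := by rw [tgt]; group
      _ = _ := by rw [zg', mul_assoc, mul_assoc, zz]; group
  refine ⟨m, g * g, g⁻¹ * t, X ⊓ L, hQ, ⟨?_, ?_, ?_, ?_, ta, ?_⟩, hk, ⟨mul_mem gX gX, sq g gX⟩,
    mem_inf.2 ⟨mul_mem (inv_mem gX) tX, bL⟩, ?_, fun x hx => ?_⟩
  · have := h6.ord_pow (k := 1) (j := m + 2) (by omega)
    rwa [pow_one, zpow_two] at this
  · rw [← eZ, ← pow_two, ← pow_mul, ← zpow_natCast]; congr 1; push_cast; ring
  · calc g⁻¹ * t * (g⁻¹ * t) = g⁻¹ * (t * g * t⁻¹)⁻¹ * (t * t) := by group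
      _ = z := by rw [tgt, tt, mul_inv_rev, zi, ← mul_assoc, ← zg']; group
  · calc g⁻¹ * t * (g * g) * (g⁻¹ * t)⁻¹ = g⁻¹ * (t * (g * g) * t⁻¹) * g := by group
      _ = _ := by rw [ta]; group
  · calc t * (g⁻¹ * t) * t⁻¹ = (t * g * t⁻¹)⁻¹ * t := by group
      _ = _ := by rw [tgt, mul_inv_rev, zi, inv_inv, zg, mul_assoc (g * g), ← mul_assoc z, zg']; group
  · exact inf_normalizer_le_normalizer_inf ⟨le_normalizer tX, h.tn⟩
  · obtain ⟨i, e⟩ := nfX x hx.1
    have ev : ∀ k : ℤ, (g * g) ^ k ∈ L := fun k => zpow_mem (sq g gX) k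
    rcases Int.even_or_odd' i with ⟨k, rfl | rfl⟩ <;> rcases e with rfl | rfl
    · exact ⟨k, false, by simp [← pow_two, zpow_mul, zpow_two]⟩
    · refine absurd ?_ h.tL
      have := mul_mem (inv_mem (ev k)) hx.2
      rwa [zpow_mul, zpow_two, inv_mul_cancel_left] at this
    · refine absurd ?_ gL
      have := mul_mem (inv_mem (ev k)) hx.2
      rwa [zpow_add, zpow_mul, zpow_two, inv_mul_cancel_left, zpow_one] at this
    · exact ⟨k + 1, true, by rw [← zpow_two, ← zpow_mul]; simp only [if_true]; group⟩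

theorem final {Γ : Type*} [Group Γ] [Finite Γ] {L K : Subgroup Γ} {z t : Γ} (h1 : LH L z t) (h2 : LH K z t)
    (cm : ∀ x ∈ L, ∀ y ∈ K, x * y = y * x) (int : ∀ x ∈ L, x ∈ K → x = 1 ∨ x = z)
    (hc : ∀ s : Γ, orderOf s = 2 → ♯𝓒₁(s) ∣ ♯L * ♯K) [Finite G] [IsSimpleGroup G] (S : Sylow 2 G) (P : Sylow 2 Γ)
    (hS : Nonempty ((S : Subgroup G) ≃* (P : Subgroup Γ))) :
    (∀ x y : G, orderOf x = 2 → orderOf y = 2 → IsConj x y) ∨
      (♯(S : Subgroup G) = 64 ∧ ∃ x y : G, orderOf x = 2 ∧ orderOf y = 2 ∧ ¬ IsConj x y ∧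
        ∀ w : G, orderOf w = 2 → IsConj w x ∨ IsConj w y) := by
  have p2 := Nat.prime_two
  haveI := Fact.mk p2
  obtain ⟨m, a, b, Q, q1, q2, q3, aQ, bQ, q4, q5⟩ := h1.exists_QF
  obtain ⟨n, c, d, R, r1, r2, r3, cR, dR, r4, r5⟩ := h2.exists_QF
  have cm' : ∀ x ∈ Q, ∀ y ∈ R, x * y = y * x := fun x hx y hy => cm x (q1.le hx) y (r1.le hy)
  have RQ : R ≤ 𝓝(Q) := fun y hy => centralizer_le_normalizer _ (mem_cent.2 fun x hx => cm' x hx y hy)
  have tn : t ∈ 𝓝(Q ⊔ R) := normalizer_inf_normalizer_le_normalizer_sup _ _ ⟨q4, r4⟩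
  have zQ : z ∈ Q := q2.bb ▸ mul_mem bQ bQ
  have zR : z ∈ R := r2.bb ▸ mul_mem dR dR
  have tQR : t ∉ Q ⊔ R := fun e => by
    obtain ⟨x, hx, y, hy, e⟩ := (mem_sup_norm' RQ).1 e
    have e1 : x * x = (y * y)⁻¹ := by
      rw [eq_inv_iff_mul_eq_one, ← h1.tt, ← e]
      calc x * x * (y * y) = x * (x * y) * y := by group
        _ = x * (y * x) * y := by rw [cm' x hx y hy]
        _ = _ := by group
    rcases int _ (q1.le (mul_mem hx hx)) (e1 ▸ r1.le (inv_mem (mul_mem hy hy))) with e2 | e2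
    · refine h2.tL (e ▸ mul_mem ?_ (r1.le hy))
      rcases h1.u x (q1.le hx) e2 with e3 | e3 <;> rw [e3]
      exacts [one_mem _, r1.le zR]
    · exact h1.P x (q1.le hx) e2 (by rw [← e, mul_assoc, ← cm' x hx y hy])
  have i2 : Q ⊓ R = zpowers z := le_antisymm (fun x hx => by
    rcases int x (q1.le hx.1) (r1.le hx.2) with e | e <;> rw [e]
    exacts [one_mem _, mem_zpowers z]) (zpowers_le.2 ⟨zQ, zR⟩)
  have oz : orderOf z = 2 := orderOf_eq_prime (by rw [pow_two, q2.zz]) q2.z1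
  set T := ext2 (Q ⊔ R) h1.tt tn with hT
  have tT : t ∈ T := .inr (h1.tt ▸ one_mem _)
  have QT : Q ≤ T := fun x hx => .inl (mem_sup_left hx)
  have RT : R ≤ T := fun x hx => .inl (mem_sup_right hx)
  have cT : ♯T = 2 ^ (m + 3) * 2 ^ (n + 3) := by
    have := CA.H1Basic.card_sup_mul_card_inf_of_le_normalizer (H := Q) (K := R)
      fun x hx => centralizer_le_normalizer _ (mem_cent.2 fun y hy => (cm' x hx y hy).symm)
    rw [i2, Nat.card_zpowers, oz, q3, r3] at this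
    rw [← this]
    exact card_two h1.tt (fun x hx => .inl hx) tT tQR fun x hx => hx
  have pT : IsPGroup 2 T := IsPGroup.of_card (cT.trans (pow_add _ _ _).symm)
  obtain ⟨P', hP'⟩ := pT.exists_le_sylow
  have e1 : T = P' := by
    refine eq_of_le_of_card_ge hP' (Nat.le_of_dvd Nat.card_pos ?_)
    haveI : Nontrivial (P' : Subgroup Γ) := ⟨⟨⟨z, hP' (QT zQ)⟩, 1, fun e => q2.z1 (congrArg Subtype.val e)⟩⟩
    haveI := P'.isPGroup'.center_nontrivial
    obtain ⟨s, hs⟩ := exists_prime_orderOf_dvd_card' (G := center (P' : Subgroup Γ)) 2 (by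
      obtain ⟨k, hk⟩ := IsPGroup.iff_card.1 (P'.isPGroup'.to_subgroup (center (P' : Subgroup Γ)))
      rw [hk]
      refine dvd_pow_self 2 fun e => ?_
      rw [e] at hk
      exact (Finite.one_lt_card (α := center (P' : Subgroup Γ))).ne' hk)
    have o : orderOf (s.1.1 : Γ) = 2 := by rw [orderOf_coe, orderOf_coe, hs]
    have le : (P' : Subgroup Γ) ≤ 𝓒₁(s.1.1) := fun x hx =>
      mem_cent1.2 (congrArg Subtype.val (mem_center_iff.1 s.2 ⟨x, hx⟩))
    have d1 := (card_dvd_of_le le).trans (hc _ o)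
    rw [← card_mul_relIndex q1.le, ← card_mul_relIndex r1.le, mul_mul_mul_comm, q3, r3, ← cT] at d1
    obtain ⟨k, hk⟩ := IsPGroup.iff_card.1 P'.isPGroup'
    refine Nat.Coprime.dvd_of_dvd_mul_right ?_ d1
    rw [hk]
    refine Nat.Coprime.pow_left _ ((Nat.Prime.coprime_iff_not_dvd p2).2 fun e => ?_)
    rcases (Nat.Prime.dvd_mul p2).1 e with e | e
    exacts [q1.idx 2 p2 e rfl, r1.idx 2 p2 e rfl]
  obtain ⟨φ⟩ := hS
  let ψ : T ≃* (S : Subgroup G) := ((MulEquiv.subgroupCongr e1).trans (P'.equiv P)).trans φ.symm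
  let f : T →* G := (S : Subgroup G).subtype.comp ψ.toMonoidHom
  have hf : Function.Injective f := Subtype.val_injective.comp ψ.injective
  have fS : ∀ x, f x ∈ (S : Subgroup G) := fun x => (ψ x).2
  have tr : ∀ {x y : T}, (x : Γ) * y = y * x → f x * f y = f y * f x := fun {x y} e => by
    rw [← map_mul, ← map_mul]; exact congrArg f (Subtype.ext e)
  refine GS.main (m := m) (n := n) (z := f ⟨z, QT zQ⟩) (t := f ⟨t, tT⟩) (a := f ⟨a, QT aQ⟩) (b := f ⟨b, QT bQ⟩)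
    (c := f ⟨c, RT cR⟩) (d := f ⟨d, RT dR⟩) ⟨(QF.map_iff hf).2 ((QF.map_iff T.subtype_injective).1 q2),
      (QF.map_iff hf).2 ((QF.map_iff T.subtype_injective).1 r2), tr (cm' a aQ c cR), tr (cm' a aQ d dR).symm,
      tr (cm' b bQ c cR), tr (cm' b bQ d dR), ?_, fun i j e => ?_, fS _, fS _, fS _, fS _, fS _, fun x hx => ?_⟩
    (syl_top p2 S) ((Nat.card_congr ψ.toEquiv).symm.trans cT)
  · rw [← map_mul, ← map_one f]; exact congrArg f (Subtype.ext h1.tt)
  · rw [← map_zpow, ← map_zpow] at e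
    have e2 : a ^ i = c ^ j := congrArg Subtype.val (hf e)
    rw [← map_zpow, ← map_one f]
    exact (int _ (q1.le (zpow_mem aQ i)) (e2 ▸ r1.le (zpow_mem cR j))).imp (fun e => congrArg f (Subtype.ext e))
      fun e => congrArg f (Subtype.ext e)
  · obtain ⟨y, rfl⟩ : ∃ y, f y = x := ⟨ψ.symm ⟨x, hx⟩, by simp [f]⟩
    have k : ∀ w ∈ Q ⊔ R, ∃ i j : ℤ, ∃ e g : Bool,
        w = a ^ i * c ^ j * ((if e then b else 1) * (if g then d else 1)) := fun w hw => by
      obtain ⟨x, hx, y, hy, rfl⟩ := (mem_sup_norm' RQ).1 hw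
      obtain ⟨i, e, rfl⟩ := q5 x hx
      obtain ⟨j, g, rfl⟩ := r5 y hy
      refine ⟨i, j, e, g, ?_⟩
      rw [mul_assoc, ← mul_assoc _ (c ^ j), cm' _ (by split_ifs; exacts [bQ, one_mem _]) _ (zpow_mem cR j)]; group
    have k2 : ∃ i j : ℤ, ∃ e g o : Bool,
        y.1 = a ^ i * c ^ j * ((if e then b else 1) * (if g then d else 1) * (if o then t else 1)) := by
      rcases y.2 with e | e
      · obtain ⟨i, j, e, g, e1⟩ := k _ e
        exact ⟨i, j, e, g, false, by simpa using e1⟩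
      · obtain ⟨i, j, e, g, e1⟩ := k _ e
        exact ⟨i, j, e, g, true, by rw [if_pos rfl, ← mul_assoc, ← mul_assoc, mul_assoc _ _ (ite _ _ _), ← e1, mul_assoc,
          h1.tt, mul_one]⟩
    obtain ⟨i, j, e, g, o, e1⟩ := k2
    refine ⟨i, j, e, g, o, ?_⟩
    have : y = (⟨a, QT aQ⟩ : T) ^ i * (⟨c, RT cR⟩ : T) ^ j * ((if e then ⟨b, QT bQ⟩ else 1) *
        (if g then ⟨d, RT dR⟩ else 1) * (if o then ⟨t, tT⟩ else 1)) := Subtype.ext (by
      rw [e1]; cases e <;> cases g <;> cases o <;> simp)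
    rw [this]; simp only [map_mul, map_zpow, apply_ite f, map_one]

end CA.H14G2
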