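import Cfsg.Agent.Lib.Grp.H14G2b
import Cfsg.Agent.Lib.Lin.SL2Sylow2
import Cfsg.Agent.S4279

/-!
The configuration `LH` for the two commuting `SL₂(q)` in `G₂(q)`.
-/

set_option autoImplicit false
set_option linter.unusedSectionVars false
set_option linter.style.haveILetI false

namespace CA.H14G2

open Subgroup Cfsg CA.BG CA.SL2Unip CA.SL2Embed CA.Chev Cfsg.Lie
open scoped MatrixGroups

variable {F : Type*} [Field F]

/-- conjugation by `diag(μ, 1)` -/
def dl (μ : F) (hμ : μ ≠ 0) : SL(2, F) →* SL(2, F) := MonoidHom.mk'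
  (fun g => mk2 (g.1 0 0) (μ * g.1 0 1) (μ⁻¹ * g.1 1 0) (g.1 1 1) (by
    have := g.2
    rw [Matrix.det_fin_two] at this
    exact Eq.trans (by field_simp) this))
  fun g h => by
    apply sl_ext4 <;> simp [sl_mul_apply] <;> field_simp

theorem dl_mk2 (μ : F) (hμ : μ ≠ 0) (a b c d : F) (h : a * d - b * c = 1) :
    (dl μ hμ (mk2 a b c d h)).1 = !![a, μ * b; μ⁻¹ * c, d] := rfl

theorem LH_of {Γ : Type*} [Group Γ] [Finite Γ] [Finite F] (h2 : (2 : F) ≠ 0) (φ : SL(2, F) →* Γ)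
    (hφ : Function.Injective φ) {h k : Γ} {μ : F} (hμ : ¬ IsSquare μ)
    (hu : ∀ b, h * φ (u b) * h⁻¹ = φ (u (μ * b))) (hl : ∀ b, h * φ (l b) * h⁻¹ = φ (l (μ⁻¹ * b)))
    (hk : ∀ x, φ x * k = k * φ x) (tt : h * φ w0 * k * (h * φ w0 * k) = 1) :
    LH φ.range (φ (-1)) (h * φ w0 * k) := by
  have m0 : μ ≠ 0 := fun e => hμ (e ▸ IsSquare.zero)
  have hd : ∀ x, h * φ x * h⁻¹ = φ (dl μ m0 x) := fun x => by
    have := eq_top_of_u_l (((MulAut.conj h).toMonoidHom.comp φ).eqLocus (φ.comp (dl μ m0)))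
      (fun b => (hu b).trans (congrArg φ (by apply sl_ext4 <;> simp [u, dl_mk2])))
      (fun b => (hl b).trans (congrArg φ (by apply sl_ext4 <;> simp [l, dl_mk2])))
    exact (this.ge (mem_top x) :)
  have hc : ∀ x, h * φ w0 * k * φ x * (h * φ w0 * k)⁻¹ = φ (dl μ m0 (w0 * x * w0⁻¹)) := fun x => by
    rw [← hd, map_mul, map_mul, map_inv, mul_assoc _ k, ← hk]; group
  haveI := Fact.mk Nat.prime_two
  refine ⟨⟨φ w0, ⟨_, rfl⟩, by rw [← map_mul]; congr 1; apply sl_ext4 <;> simp [sl_mul_apply]⟩, ?_, tt, ?_, ?_, ?_⟩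
  · rintro _ ⟨x, rfl⟩ e
    rw [← map_mul, ← map_one φ] at e
    by_cases e1 : x = 1
    · exact .inl (by rw [e1, map_one])
    · exact .inr (by rw [CA.SL2Basic.eq_neg_one_of_orderOf h2 x (orderOf_eq_prime (by rw [pow_two, hφ e]) e1)])
  · refine mem_normalizer_fintype ?_
    rintro _ ⟨x, rfl⟩
    exact ⟨_, (hc x).symm⟩
  · rintro _ ⟨x, rfl⟩ e1 e2
    rw [← map_mul] at e1
    rw [← mul_inv_eq_iff_eq_mul, hc] at e2
    obtain ⟨a, b, c, d, hx, rfl⟩ := sl_ex4 x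
    have f1 := congrArg (·.1 0 0) (hφ e1)
    have f2 := congrArg (·.1 0 0) (hφ e2)
    have f3 := congrArg (·.1 0 1) (hφ e2)
    simp only [w0, mk2_inv, mk2_mul, dl_mk2] at f1 f2 f3
    simp at f1 f2 f3
    have a0 : a = 0 := by
      have : 2 * a ^ 2 = 0 := by rw [f2] at hx; linear_combination hx + f1
      simpa [h2] using this
    have c1 : μ * c * c = 1 := by rw [a0, ← f3] at hx; linear_combination hx
    have c0 : c ≠ 0 := fun e => by simp [e] at c1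
    exact hμ ⟨c⁻¹, by field_simp; linear_combination c1⟩
  · intro Q hQ hc
    obtain ⟨p, hp⟩ := CharP.exists F
    haveI := Fact.mk (CharP.char_is_prime F p)
    obtain ⟨q, hq⟩ := CA.SL2Sylow2.exists_quaternionHom (F := F) p fun e => h2 (by
      subst e; exact_mod_cast CharP.cast_eq_zero F 2)
    have h3 := (syl_iff Nat.prime_two).1 hQ
    refine CA.SL2Sylow2.not_isCyclic_of_quaternionHom (φ.rangeRestrict.comp q)
      ((MonoidHom.rangeRestrict_injective_iff.2 hφ).comp hq) h3.toSylow ?_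
    exact isCyclic_of_injective (G' := Q) (MonoidHom.mk' (fun x => ⟨x.1.1, h3.mem_toSylow.1 x.2⟩) fun _ _ => rfl)
      fun x y e => Subtype.ext (Subtype.ext (congrArg Subtype.val e :))

theorem sl2' (r : Rt chevG2) (hr : Pos r) (i : Nd chevG2) (hi : cor r i = 1) :
    ∃ φ : SL(2, F) →* chevG2.group F, Function.Injective φ ∧ (∀ x, φ x ∈ (adjG chevG2 F).X {r, ng r}) ∧
      (φ (-1) = Twist.adjG_R3.torH fun j => (-1) ^ cor r j) ∧ (∀ b, φ (u b) = (adjG chevG2 F).x r b) ∧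
      (∀ b, φ (l b) = (adjG chevG2 F).x (ng r) b) ∧ φ w0 = (adjG chevG2 F).n r 1 := by
  obtain ⟨φ, h1, h2, h3, h4⟩ := (Twist.adjG_R3 (K := F)).exists_SL2 r
  set A := adjG chevG2 F
  have h5 : ∀ a, A.h r a = Twist.adjG_R3.torH fun j => a ^ cor r j := fun a => adjG_θ_injective (by
    rw [A.θh, Twist.adjG_R3.θ_torH, tor_cor])
  have h6 : ∀ b ∈ B F, φ b ∈ A.B := fun b hb => by
    obtain ⟨a, b, rfl⟩ := exists_of_mem_B hb
    rw [map_mul, h1, h3]; exact mul_mem (A.U_le_B (A.x_mem hr _)) (A.H_le_B (A.h_mem _ _))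
  refine ⟨φ, (injective_iff_map_eq_one _).2 fun x e => ?_, fun x => ?_, ?_, h1, h2, h4⟩
  · by_cases hx : x ∈ B F
    · obtain ⟨a, b, rfl⟩ := exists_of_mem_B hx
      rw [map_mul, h1, h3] at e
      obtain ⟨e1, e2⟩ := A.UH_unique (A.x_mem hr _) (one_mem _) (A.h_mem _ _) (one_mem _) (e.trans (one_mul 1).symm)
      rw [h5] at e2
      have := congrArg A.θ e2
      rw [Twist.adjG_R3.θ_torH, map_one, ← map_one dgG, ← map_one tor] at this
      have := congrFun (tor_injective_G2 (dgG_injective this)) i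
      rw [hi, zpow_one] at this
      rw [A.x_injective r (e1.trans (A.x_zero r).symm), this, u_zero, one_mul]
      apply sl_ext4 <;> simp [CA.SL2Torus.dg_coe]
    · obtain ⟨c, b, hb, rfl⟩ := bruhat hx
      rw [map_mul, map_mul, h4] at e
      exact absurd ((refl_self r).symm.trans (congrArg (· r) (A.bruhat_unique (h6 _ (U_le_B (u_mem_U c))) (h6 b hb)
        (A.n_mem r 1) (A.act_n r 1) .one e.symm))) (ng_ne r)
  · exact ((Sys.range_SL2 h1 h2).le.trans (sup_le (A.X_mono (by simp)) (A.X_mono (by simp)))) ⟨x, rfl⟩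
  · rw [← h5, ← h3]; congr 1; apply sl_ext4 <;> simp [CA.SL2Torus.dg_coe]

/-- roots of `G₂` -/
def rG2 (i : Fin 12) : Rt chevG2 := i

theorem g2 {G : Type*} [Group G] [Finite G] [IsSimpleGroup G] [Fintype F] (hF : Odd (Fintype.card F)) (S : Sylow 2 G)
    (P : Sylow 2 (chevG2.group F)) (hS : Nonempty ((S : Subgroup G) ≃* (P : Subgroup (chevG2.group F)))) :
    (∀ x y : G, orderOf x = 2 → orderOf y = 2 → IsConj x y) ∨
      (♯(S : Subgroup G) = 64 ∧ ∃ x y : G, orderOf x = 2 ∧ orderOf y = 2 ∧ ¬ IsConj x y ∧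
        ∀ w : G, orderOf w = 2 → IsConj w x ∨ IsConj w y) := by
  haveI : Finite (chevG2.group F) := inferInstance
  obtain ⟨φ, a1, a2, a3, a4, a5, a6⟩ := sl2' (F := F) (rG2 7) (show 6 ≤ 7 by decide) (0 : Fin 2) (by decide +kernel)
  obtain ⟨ψ, b1, b2, b3, b4, b5, b6⟩ := sl2' (F := F) (rG2 11) (show 6 ≤ 11 by decide) (0 : Fin 2) (by decide +kernel)
  have h6 : φ (-1) = ψ (-1) := by
    rw [a3, b3]; congr 1
    exact funext (Fin.forall_fin_two.2 ⟨rfl, show (-1 : Fˣ) ^ (0 : ℤ) = (-1) ^ (2 : ℤ) by simp⟩)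
  have hr : ringChar F ≠ 2 := fun e => by
    have := FiniteField.even_card_iff_char_two.1 e
    have := Nat.odd_iff.1 hF
    omega
  have h2 : (2 : F) ≠ 0 := Ring.two_ne_zero hr
  have h8 : ∀ x y, φ x * ψ y = ψ y * φ x := fun x y => (adjG chevG2 F).orth_of_chk tab_G2 (p := 0) (by simp)
    (r := rG2 7) (s := rG2 11) (by decide +kernel) _ (a2 x) _ (b2 y)
  obtain ⟨μ, hμ⟩ := FiniteField.exists_nonsquare hr
  have m0 : μ ≠ 0 := fun e => hμ (e ▸ IsSquare.zero)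
  set A := adjG chevG2 F
  let s : Rt chevG2 := rG2 6
  have hw : (Chev.refl (rG2 7) * Chev.refl (rG2 11)) s = ng s :=
    wt_injective (by rw [Equiv.Perm.mul_apply, wt_refl, pr, wt_refl, wt_ng]; decide +kernel)
  have hn := Twist.adjG_R3.conj_h ((A.act_n (rG2 7) 1).mul (A.act_n (rG2 11) 1)) s (Units.mk0 μ m0)
  rw [hw, Sys.h_ng adjG_θ_injective, ← a6, ← b6] at hn
  have p1 : pr s (rG2 7) = -1 := by decide +kernel
  have p2 : pr s (rG2 11) = 1 := by decide +kernel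
  have w2 : (w0 : SL(2, F)) * w0 = -1 := by apply sl_ext4 <;> simp [sl_mul_apply]
  have tt : A.h s (Units.mk0 μ m0) * φ w0 * ψ w0 * (A.h s (Units.mk0 μ m0) * φ w0 * ψ w0) = 1 := by
    have e1 : φ w0 * ψ w0 * (φ w0 * ψ w0) = 1 := by
      rw [mul_assoc, ← mul_assoc (ψ w0), ← h8, mul_assoc, ← mul_assoc, ← map_mul, ← map_mul, w2, h6, ← map_mul]; simp
    calc _ = A.h s (Units.mk0 μ m0) * (φ w0 * ψ w0 * A.h s (Units.mk0 μ m0) * (φ w0 * ψ w0)⁻¹) *
          (φ w0 * ψ w0 * (φ w0 * ψ w0)) := by group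
      _ = 1 := by rw [hn, e1, mul_one]; exact mul_inv_cancel _
  have L1 := LH_of h2 φ a1 (h := A.h s (Units.mk0 μ m0)) (k := ψ w0) (μ := μ⁻¹) (by simpa using hμ)
    (fun b => by rw [a4, a4, A.h_conj, p1]; simp) (fun b => by rw [a5, a5, A.h_conj, pr_ng_right, p1]; simp)
    (fun x => h8 x _) tt
  have e : A.h s (Units.mk0 μ m0) * φ w0 * ψ w0 = A.h s (Units.mk0 μ m0) * ψ w0 * φ w0 := by
    rw [mul_assoc, h8, mul_assoc]
  have L2 := LH_of h2 ψ b1 (h := A.h s (Units.mk0 μ m0)) (k := φ w0) hμ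
    (fun b => by rw [b4, b4, A.h_conj, p2]; simp) (fun b => by rw [b5, b5, A.h_conj, pr_ng_right, p2]; simp)
    (fun x => (h8 _ x).symm) (e ▸ tt)
  rw [← h6, ← e] at L2
  refine final L1 L2 (by rintro _ ⟨x, rfl⟩ _ ⟨y, rfl⟩; exact h8 x y) ?_ (fun s hs => ?_) S P hS
  · rintro _ ⟨x, rfl⟩ ⟨y, e'⟩
    rcases (CA.SL2Basic.mem_center_iff x).1 (mem_center_iff.2 fun z => a1 (by rw [map_mul, map_mul, ← e', h8])) with
      rfl | rfl
    exacts [.inl (map_one φ), .inr rfl]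
  · rw [(Cfsg.Agent.S4279.result hF s hs).1, ← Nat.card_congr (MonoidHom.ofInjective a1).toEquiv,
      ← Nat.card_congr (MonoidHom.ofInjective b1).toEquiv, CA.SLnCard.card_SL2, Nat.card_eq_fintype_card (α := F),
      ← mul_pow, sq]

end CA.H14G2
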