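import Cfsg.Agent.Lib.Fus.FusMw3
import Mathlib.GroupTheory.SpecificGroups.Quaternion

/-!
A finite `2`-group with a self-centralizing extraspecial subgroup of order `32` has sectional rank at most `4`.
-/

set_option autoImplicit false
set_option linter.unusedSectionVars false
set_option linter.style.haveILetI false

namespace CA.H14Sr

open Subgroup Cfsg CA.BG CA.FusPat
open scoped commutatorElement

variable {G : Type*} [Group G] [Finite G]

theorem cel (a b : G) : ⁅a, b⁆ = a * b * a⁻¹ * b⁻¹ := commutatorElement_def a b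

theorem norm_of_normal (A : Subgroup G) [h : A.Normal] (H : Subgroup G) : H ≤ 𝓝(A) := by
  rw [normalizer_eq_top]; exact le_top

theorem inv_eq_of_sq {a : G} (h : a ^ 2 = 1) : a⁻¹ = a := by
  rw [inv_eq_iff_mul_eq_one, ← pow_two, h]

/-- a normal four-step chain `Z < W < A` -/
structure Ch (z : G) (W A : Subgroup G) : Prop where
  z1 : z ≠ 1
  z2 : z ^ 2 = 1
  zc : z ∈ center G
  zW : z ∈ W
  WA : W ≤ A
  nW : W.Normal
  nA : A.Normal
  cW : ♯W = 4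
  cA : ♯A = 8
  ab : IsMulCommutative A
  s2 : ∀ a ∈ A, a ^ 2 = 1
  cmW : ∀ w ∈ W, ∀ g, ⁅w, g⁆ ∈ zpowers z
  cmA : ∀ a ∈ A, ∀ g, ⁅a, g⁆ ∈ W

theorem card_z {z : G} (h1 : z ≠ 1) (h2 : z ^ 2 = 1) : ♯(zpowers z) = 2 := by
  rw [Nat.card_zpowers]
  haveI : Fact (Nat.Prime 2) := ⟨Nat.prime_two⟩
  exact orderOf_eq_prime h2 h1

theorem exists_ch (hG : IsPGroup 2 G) {z : G} (h1 : z ≠ 1) (h2 : z ^ 2 = 1) (hc : z ∈ center G)
    (hZ : center G ≤ zpowers z) {B : Subgroup G} [B.Normal] (ab : IsMulCommutative B)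
    (sq : ∀ a ∈ B, a ^ 2 = 1) (h4 : 4 < ♯B) : ∃ W A, Ch z W A := by
  haveI : Fact (Nat.Prime 2) := ⟨Nat.prime_two⟩
  haveI := H7SR.normal_zpowers hc
  have hz := card_z h1 h2
  have hB : B ≠ ⊥ := by
    rintro rfl
    simp at h4
  obtain ⟨x, x1, x2, x3⟩ := PGBasic.exists_mem_center_orderOf hG hB
  have zB : zpowers z ≤ B := by
    rcases H7SR.mem_zpowers_two h2 (hZ x2) with h | h
    · rw [h, orderOf_one] at x3; omega
    · rw [← h]; exact zpowers_le_of_mem x1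
  obtain ⟨n, hn⟩ := PGBasic.exists_card_eq_pow hG B
  have h8 : 8 ≤ ♯B := by
    rw [hn] at h4 ⊢
    have : 2 < n := by
      by_contra h
      have : 2 ^ n ≤ 2 ^ 2 := Nat.pow_le_pow_right (by norm_num) (by omega)
      omega
    exact le_trans (by norm_num) (Nat.pow_le_pow_right (by norm_num) (show 3 ≤ n by omega))
  obtain ⟨W, nW, w1, w2, -, w4, w5⟩ := PGBasic.exists_normal_relIndex hG (M := B) (N := zpowers z)
    (lt_of_le_of_ne zB (fun h => by rw [← h] at h8; omega))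
  obtain ⟨A, nA, a1, a2, -, a4, a5⟩ := PGBasic.exists_normal_relIndex hG (M := B) (N := W)
    (lt_of_le_of_ne w2 (fun h => by rw [← h] at h8; omega))
  exact ⟨W, A, h1, h2, hc, w1 (mem_zpowers z), a1, nW, nA, by omega, by omega, comm_of_le ab a2,
    fun a ha => sq a (a2 ha), fun w hw g => w5 (commutator_mem_commutator hw (mem_top g)),
    fun a ha g => a5 (commutator_mem_commutator ha (mem_top g))⟩

namespace Ch
variable {z : G} {W A : Subgroup G} (c : Ch z W A)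
include c

theorem cZ : ♯(zpowers z) = 2 := card_z c.z1 c.z2

theorem zcases {x : G} (hx : x ∈ zpowers z) : x = 1 ∨ x = z := H7SR.mem_zpowers_two c.z2 hx

theorem zcm {x : G} (hx : x ∈ zpowers z) (g : G) : x * g = g * x := by
  rcases c.zcases hx with rfl | rfl
  · simp
  · exact (mem_center_iff.1 c.zc g).symm

theorem ZW : zpowers z ≤ W := zpowers_le_of_mem c.zW

theorem ZA : zpowers z ≤ A := c.ZW.trans c.WA

theorem nZ : (zpowers z).Normal := H7SR.normal_zpowers c.zc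

theorem acm {a b : G} (ha : a ∈ A) (hb : b ∈ A) : a * b = b * a :=
  PGBasic.isMulCommutative_iff.1 c.ab a ha b hb

theorem AC : A ≤ 𝓒(A) := comm_iff_le_cent.1 c.ab

theorem rZW : (zpowers z).relIndex W = 2 := by
  have := card_mul_relIndex c.ZW
  rw [c.cZ, c.cW] at this; omega

theorem rWA : W.relIndex A = 2 := by
  have := card_mul_relIndex c.WA
  rw [c.cA, c.cW] at this; omega

theorem rZA : (zpowers z).relIndex A = 4 := by
  have := card_mul_relIndex c.ZA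
  rw [c.cZ, c.cA] at this; omega

/-- an element commuting with one element of `W` outside `Z` centralizes `W` -/
theorem centW {w g : G} (hw : w ∈ W) (hw' : w ∉ zpowers z) (h : w * g = g * w) : g ∈ 𝓒(W) := by
  have e := PGBasic.sup_zpowers_eq_of_relIndex_prime Nat.prime_two c.rZW c.ZW hw hw'
  rw [← e, cent_sup, cent_zpowers, cent_zpowers]
  exact ⟨mem_cent1.2 (mem_center_iff.1 c.zc g), mem_cent1.2 h.symm⟩

/-- a subgroup whose squares centralize `A` and which does not centralize `W` acts trivially on `A / Z` -/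
theorem lemL {H : Subgroup G} (h1 : ∀ x ∈ H, x ^ 2 ∈ 𝓒(A)) (h2 : ¬ H ≤ 𝓒(W)) {a g : G} (ha : a ∈ A)
    (hg : g ∈ H) : ⁅a, g⁆ ∈ zpowers z := by
  haveI := c.nA
  by_contra hw
  set w := ⁅a, g⁆ with ew
  have wW : w ∈ W := c.cmA a ha g
  have wA := c.WA wW
  have ai := inv_eq_of_sq (c.s2 a ha)
  have wi := inv_eq_of_sq (c.s2 w wA)
  -- g a g⁻¹ = a w
  have e1 : g * a * g⁻¹ = a * w := by
    rw [ew, cel, ai]
    have : a * a = 1 := by rw [← pow_two]; exact c.s2 a ha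
    calc g * a * g⁻¹ = (a * a) * (g * a * g⁻¹) := by rw [this, one_mul]
      _ = _ := by group
  have e2 : g * w * g⁻¹ = w := by
    have h3 := mem_cent.1 (h1 g hg) a ha
    have h4 : g * (g * a * g⁻¹) * g⁻¹ = a := by
      calc g * (g * a * g⁻¹) * g⁻¹ = (g ^ 2 * a) * (g ^ 2)⁻¹ := by rw [pow_two]; group
        _ = a := by rw [← h3]; group
    rw [e1] at h4
    have h5 : (g * a * g⁻¹) * (g * w * g⁻¹) = a := Eq.trans (by group) h4
    rw [e1] at h5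
    have h6 : w * (g * w * g⁻¹) = 1 := by
      apply mul_left_cancel (a := a); rw [← mul_assoc, h5, mul_one]
    exact (eq_inv_of_mul_eq_one_right h6).trans wi
  have gW : g ∈ 𝓒(W) := c.centW wW hw (mul_inv_eq_iff_eq_mul.1 e2).symm
  obtain ⟨q, q1, q2⟩ := SetLike.not_le_iff_exists.1 h2
  have hq : w * q ≠ q * w := fun h => q2 (c.centW wW hw h)
  set v := ⁅a, q⁆ with ev
  have vW : v ∈ W := c.cmA a ha q
  have e3 : q * a * q⁻¹ = a * v := by
    rw [ev, cel, ai]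
    have : a * a = 1 := by rw [← pow_two]; exact c.s2 a ha
    calc q * a * q⁻¹ = (a * a) * (q * a * q⁻¹) := by rw [this, one_mul]
      _ = _ := by group
  have e4 : g * v * g⁻¹ = v := by rw [← mem_cent.1 gW v vW]; group
  have h7 := FusMw.cm h1 (H.inv_mem hg) (H.inv_mem q1)
  have h8 := mem_cent.1 h7 a ha
  have h9 : q * (g * a * g⁻¹) * q⁻¹ = g * (q * a * q⁻¹) * g⁻¹ := by
    calc q * (g * a * g⁻¹) * q⁻¹ = q * g * (a * (g⁻¹ * q⁻¹ * g⁻¹⁻¹ * q⁻¹⁻¹)) * q⁻¹ * g⁻¹ := by group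
      _ = _ := by rw [h8]; group
  rw [e1, e3] at h9
  have h10 : (q * a * q⁻¹) * (q * w * q⁻¹) = (g * a * g⁻¹) * (g * v * g⁻¹) := by
    calc _ = q * (a * w) * q⁻¹ := by group
      _ = _ := by rw [h9]; group
  rw [e1, e3, e4, mul_assoc, mul_assoc a w v, c.acm wA (c.WA vW)] at h10
  have h11 := mul_left_cancel (mul_left_cancel h10)
  exact hq (mul_inv_eq_iff_eq_mul.1 h11).symm

theorem idx8 (hG : IsPGroup 2 G) : (𝓒(A)).relIndex ⊤ ≤ 8 := by
  haveI := c.nA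
  haveI := c.nZ
  haveI := c.nW
  have pA : IsPi {2} A := isPi_of_isPGroup Nat.prime_two (hG.to_subgroup A)
  have h1 := pair (S := ⊤) Nat.prime_two (W0 := zpowers z) (W1 := W) (T0 := W) (norm_of_normal _ _)
    c.rZW.le (by rw [comm_symm]; exact commutator_le.2 fun w hw g _ => c.cmW w hw g) A pA c.WA
    (norm_of_normal _ _) (by rw [comm_symm]; exact commutator_le.2 fun w hw g _ => c.cmA w hw g)
  have h2 := pair (S := kk ⊤ (zpowers z) A) Nat.prime_two (W0 := ⊥) (W1 := zpowers z) (T0 := zpowers z)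
    (norm_of_normal _ _) (by rw [relIndex_bot_left, c.cZ]) (commutator_le.2 fun g _ x hx => by
      rw [cel, ← c.zcm hx g]; simp) A pA c.ZA (norm_of_normal _ _) (comm_kk (norm_of_normal _ _))
  rw [c.rWA] at h1
  rw [c.rZA] at h2
  have h3 : kk (kk ⊤ (zpowers z) A) ⊥ A ≤ 𝓒(A) :=
    comm_eq_bot_iff.1 (eq_bot_iff.2 (comm_kk (norm_of_normal _ _)))
  have h4 := relIndex_mul_relIndex (kk (kk ⊤ (zpowers z) A) ⊥ A) (kk ⊤ (zpowers z) A) ⊤ kk_le le_top
  have h5 := relIndex_le_of_le_left h3 (relIndex_ne_zero' (kk (kk ⊤ (zpowers z) A) ⊥ A) ⊤)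
  calc _ ≤ _ := h5
    _ = _ := h4.symm
    _ ≤ 4 * 2 := Nat.mul_le_mul h2 h1

end Ch

theorem cm_of_comm {a b : G} (h : ⁅a, b⁆ = 1) : a * b = b * a := commutatorElement_eq_one_iff_mul_comm.1 h

theorem comm_of_cm {a b : G} (h : a * b = b * a) : ⁅a, b⁆ = 1 := commutatorElement_eq_one_iff_mul_comm.2 h

/-- self-centralizing extraspecial subgroup of order `32` -/
structure Ex (z : G) (Q : Subgroup G) : Prop where
  pG : IsPGroup 2 G
  z1 : z ≠ 1
  z2 : z ^ 2 = 1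
  zc : z ∈ center G
  zQ : z ∈ Q
  s2 : ∀ q ∈ Q, q ^ 2 ∈ zpowers z
  cen : 𝓒(Q) ≤ zpowers z
  cQ : ♯Q = 32

namespace Ex
variable {z : G} {Q W A : Subgroup G} (e : Ex z Q)
include e

theorem ZQ : zpowers z ≤ Q := zpowers_le_of_mem e.zQ

theorem pi (H : Subgroup G) : IsPi {2} H := isPi_of_isPGroup Nat.prime_two (e.pG.to_subgroup H)

theorem zcm {x : G} (hx : x ∈ zpowers z) (g : G) : x * g = g * x := by
  rcases H7SR.mem_zpowers_two e.z2 hx with rfl | rfl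
  · simp
  · exact (mem_center_iff.1 e.zc g).symm

theorem cmQ {x y : G} (hx : x ∈ Q) (hy : y ∈ Q) : ⁅x, y⁆ ∈ zpowers z := FusMw.cm e.s2 hx hy

theorem inner {x : G} (h : ∀ q ∈ Q, ⁅x, q⁆ ∈ zpowers z) : x ∈ Q := by
  haveI := H7SR.normal_zpowers e.zc
  have cz := card_z e.z1 e.z2
  have h2 := pair (S := kk ⊤ (zpowers z) Q) Nat.prime_two (W0 := ⊥) (W1 := zpowers z) (T0 := zpowers z)
    (norm_of_normal _ _) (by rw [relIndex_bot_left, cz]) (commutator_le.2 fun g _ x hx => by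
      rw [cel, ← e.zcm hx g]; simp) Q (e.pi Q) e.ZQ (norm_of_normal _ _) (comm_kk (norm_of_normal _ _))
  have h3 : kk (kk ⊤ (zpowers z) Q) ⊥ Q ≤ zpowers z :=
    (comm_eq_bot_iff.1 (eq_bot_iff.2 (comm_kk (norm_of_normal _ _)))).trans e.cen
  have h4 := card_mul_relIndex e.ZQ
  have h5 := card_mul_relIndex (kk_le : kk (kk ⊤ (zpowers z) Q) ⊥ Q ≤ _)
  have h6 := card_le_of_le' h3
  have h7 : Q ≤ kk ⊤ (zpowers z) Q := le_kk le_top (FusMw.cm' e.s2)
  rw [cz, e.cQ] at h4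
  rw [cz] at h6
  have h8 : Q = kk ⊤ (zpowers z) Q := eq_of_le_of_card_le h7 (by
    rw [← h5, e.cQ]
    exact le_trans (Nat.mul_le_mul h6 h2) (by omega))
  rw [h8]
  exact (mem_kk (norm_of_normal _ _)).2 ⟨mem_top _, h⟩

variable (c : Ch z W A)
include c

theorem cmAQ {a q : G} (ha : a ∈ A) (hq : q ∈ Q) : ⁅a, q⁆ ∈ zpowers z := by
  refine c.lemL (H := Q) (fun x hx => mem_cent.2 fun k _ => (e.zcm (e.s2 x hx) k).symm) (fun h => ?_) ha hq
  have := card_le_of_le' ((cent_symm h).trans e.cen)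
  rw [c.cW, c.cZ] at this
  omega

theorem AQ : A ≤ Q := fun _ ha => e.inner fun _ hq => e.cmAQ c ha hq

theorem CQ : 𝓒(A) ⊓ Q = A := by
  have h2 := pair (S := A) Nat.prime_two (W0 := ⊥) (W1 := zpowers z) (T0 := 𝓒(A) ⊓ Q)
    (norm_of_normal _ _) (by rw [relIndex_bot_left, c.cZ])
    (eq_bot_iff.1 (comm_eq_bot_iff.2 (cent_symm inf_le_left))) Q (e.pi Q) inf_le_right (norm_of_normal _ _)
    (commutator_le.2 fun a ha q hq => e.cmAQ c ha hq)
  have h3 : kk A ⊥ Q ≤ zpowers z :=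
    (comm_eq_bot_iff.1 (eq_bot_iff.2 (comm_kk (norm_of_normal _ _)))).trans e.cen
  have h4 := relIndex_le_of_le_left h3 (relIndex_ne_zero' (kk A ⊥ Q) A)
  rw [c.rZA] at h4
  have h5 := card_mul_relIndex (inf_le_right : 𝓒(A) ⊓ Q ≤ Q)
  rw [e.cQ] at h5
  refine (eq_of_le_of_card_le (le_inf c.AC (e.AQ c)) ?_).symm
  rw [c.cA]
  nlinarith

theorem memA {x : G} (h1 : x ∈ 𝓒(A)) (h2 : x ∈ Q) : x ∈ A := by
  rw [← e.CQ c]; exact ⟨h1, h2⟩

theorem cmB {d q : G} (h1 : d ∈ 𝓒(A)) (h2 : d ∈ 𝓝(Q)) (hq : q ∈ Q) : ⁅d, q⁆ ∈ A := by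
  haveI := c.nA
  refine e.memA c ?_ ?_
  · rw [cel, mul_assoc, mul_assoc, ← mul_assoc q]
    exact mul_mem h1 ((inferInstance : (𝓒(A)).Normal).conj_mem _ (inv_mem h1) q)
  · rw [cel]
    exact mul_mem (conj_mem_of_mem_norm h2 hq) (inv_mem hq)

omit c in
theorem sq_conj (d : G) {q : G} (hq : q ∈ Q) : ⁅d, q⁆ * q * ⁅d, q⁆ = q := by
  have h := e.zcm (e.s2 q hq) d
  apply mul_right_cancel (b := q)
  calc ⁅d, q⁆ * q * ⁅d, q⁆ * q = d * q ^ 2 * d⁻¹ := by rw [cel, pow_two]; group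
    _ = q * q := by rw [← h, pow_two]; group

theorem cmB' {d q : G} (h1 : d ∈ 𝓒(A)) (h2 : d ∈ 𝓝(Q)) (hq : q ∈ Q) : ⁅d, q⁆ * q = q * ⁅d, q⁆ := by
  have h := e.sq_conj d hq
  have hi := inv_eq_of_sq (c.s2 _ (e.cmB c h1 h2 hq))
  rw [← hi, mul_inv_eq_iff_eq_mul, hi] at h
  exact h

/-- (4a) -/
theorem key {d q : G} (h1 : d ∈ 𝓒(A)) (h2 : d ∈ 𝓝(Q)) (hq : q ∈ Q) (hq' : q ∉ A) (h : ⁅d, q⁆ ∈ zpowers z) :
    d ∈ A := by
  haveI := c.nZ
  refine e.memA c h1 (e.inner fun q' q1 => ?_)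
  by_contra q2
  let T : Subgroup G :=
    { carrier := {x | x ∈ Q ∧ ⁅d, x⁆ ∈ zpowers z}
      one_mem' := ⟨one_mem _, by simp⟩
      mul_mem' := fun {x y} hx hy => ⟨mul_mem hx.1 hy.1, by
        have : ⁅d, x * y⁆ = ⁅d, x⁆ * (x * ⁅d, y⁆ * x⁻¹) := by simp only [cel]; group
        rw [this]
        exact mul_mem hx.2 (c.nZ.conj_mem _ hy.2 x)⟩
      inv_mem' := fun {x} hx => ⟨inv_mem hx.1, by
        have : ⁅d, x⁻¹⁆ = x⁻¹ * ⁅d, x⁆⁻¹ * x⁻¹⁻¹ := by simp only [cel]; group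
        rw [this]
        exact c.nZ.conj_mem _ (inv_mem hx.2) x⁻¹⟩ }
  have TQ : T ≤ Q := fun x hx => hx.1
  have AT : A < T := lt_of_le_of_ne (fun a ha => ⟨e.AQ c ha, by
    rw [comm_of_cm (mem_cent.1 h1 a ha).symm]; exact one_mem _⟩) (fun h' => hq' (by rw [h']; exact ⟨hq, h⟩))
  haveI : Fact (Nat.Prime 2) := ⟨Nat.prime_two⟩
  have t1 := PGBasic.card_mul_le_of_lt (e.pG.to_subgroup T) AT
  have TQ' : T < Q := lt_of_le_of_ne TQ (fun h' => q2 (show q' ∈ T by rw [h']; exact q1).2)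
  have t2 := PGBasic.card_mul_le_of_lt (e.pG.to_subgroup Q) TQ'
  have t3 := card_mul_relIndex TQ
  rw [c.cA] at t1
  rw [e.cQ] at t2 t3
  have t4 : T.relIndex Q = 2 := by
    have : ♯T = 16 := by omega
    rw [this] at t3; omega
  have t5 := PGBasic.sup_zpowers_eq_of_relIndex_prime Nat.prime_two t4 TQ q1 (fun h' => q2 h'.2)
  apply q2
  apply e.cen
  rw [← t5, cent_sup, cent_zpowers]
  have w1 := e.cmB' c h1 h2 q1
  refine ⟨mem_cent.2 fun t ht => ?_, mem_cent1.2 w1⟩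
  have w2 := e.cmB' c h1 h2 (mul_mem ht.1 q1)
  have w3 : ⁅d, t * q'⁆ = ⁅d, t⁆ * ⁅t, ⁅d, q'⁆⁆ * ⁅d, q'⁆ := by simp only [cel]; group
  have w4 : ⁅d, t⁆ * ⁅t, ⁅d, q'⁆⁆ ∈ zpowers z := by
    refine mul_mem ht.2 ?_
    rw [← commutatorElement_inv]
    exact inv_mem (e.cmAQ c (e.cmB c h1 h2 q1) ht.1)
  rw [w3] at w2
  generalize ⁅d, t⁆ * ⁅t, ⁅d, q'⁆⁆ = u at w2 w4
  generalize ⁅d, q'⁆ = w at w1 w2
  have w5 : u * (w * t * q') = u * (t * w * q') := by
    calc u * (w * t * q') = u * w * (t * q') := by group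
      _ = t * q' * u * w := by rw [w2]; group
      _ = u * (t * (q' * w)) := by rw [← e.zcm w4]; group
      _ = _ := by rw [← w1]; group
  exact (mul_right_cancel (mul_left_cancel w5)).symm

theorem exists_q : ∃ q ∈ Q, q ∉ A := by
  refine SetLike.not_le_iff_exists.1 fun h => ?_
  have := card_le_of_le' h
  rw [c.cA, e.cQ] at this
  omega

theorem cardE {q : G} (hq : q ∈ Q) (hq' : q ∉ A) : ♯(A ⊓ 𝓒₁(q) : Subgroup G) ≤ 4 := by
  haveI : Fact (Nat.Prime 2) := ⟨Nat.prime_two⟩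
  have h : A ⊓ 𝓒₁(q) < A := lt_of_le_of_ne inf_le_left fun h =>
    hq' (e.memA c (le_cent1_iff.1 (inf_eq_left.1 h)) hq)
  have := PGBasic.card_mul_le_of_lt (e.pG.to_subgroup A) h
  rw [c.cA] at this
  omega

/-- (4c) -/
theorem CN : 𝓒(A) ≤ 𝓝(Q) := by
  haveI : Fact (Nat.Prime 2) := ⟨Nat.prime_two⟩
  haveI := c.nA
  by_contra h
  obtain ⟨d, d1, d2, d3⟩ := PGBasic.exists_layer (H := ⊤) (P := Q) (M := 𝓒(A)) (N := 𝓒(A) ⊓ 𝓝(Q))
    ((e.pi ⊤).isNilpotent Nat.prime_two) le_top le_top (norm_of_normal _ _) (fun h' => h (h'.trans inf_le_right))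
  refine d2 ⟨d1, mem_norm_of_cj_le fun x hx => ?_⟩
  obtain ⟨q, hq, rfl⟩ := mem_cj'.1 hx
  have e1 : d * q * d⁻¹ = ⁅d, q⁆ * q := by rw [cel]; group
  rw [e1]
  refine mul_mem (e.AQ c ?_) hq
  by_cases qA : q ∈ A
  · rw [comm_of_cm (mem_cent.1 d1 q qA).symm]; exact one_mem _
  obtain ⟨f1, f2⟩ := d3 q hq
  have h1 := e.sq_conj d hq
  generalize ⁅d, q⁆ = f at f1 f2 h1
  refine e.key c f1 f2 hq qA ?_
  have h2 : ⁅f, q⁆ = f ^ 2 := by
    rw [cel, pow_two]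
    calc f * q * f⁻¹ * q⁻¹ = f * (f * q * f) * f⁻¹ * q⁻¹ := by rw [h1]
      _ = _ := by group
  rw [h2]
  refine e.cen (mem_cent.2 fun y hy => ?_)
  have y1 := e.cmB c f1 f2 hy
  have y2 := mem_cent.1 f1 _ y1
  have y3 := c.s2 _ y1
  have y4 : f * y * f⁻¹ = ⁅f, y⁆ * y := by rw [cel]; group
  have : f ^ 2 * y * (f ^ 2)⁻¹ = y := by
    calc f ^ 2 * y * (f ^ 2)⁻¹ = f * (f * y * f⁻¹) * f⁻¹ := by rw [pow_two]; group
      _ = f * ⁅f, y⁆ * f⁻¹ * (f * y * f⁻¹) := by rw [y4]; group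
      _ = ⁅f, y⁆ ^ 2 * y := by rw [← y2, y4, pow_two]; group
      _ = y := by rw [y3, one_mul]
  exact (mul_inv_eq_iff_eq_mul.1 this).symm

theorem key' {d q : G} (h1 : d ∈ 𝓒(A)) (hq : q ∈ Q) (hq' : q ∉ A) (h : ⁅d, q⁆ ∈ zpowers z) : d ∈ A :=
  e.key c h1 (e.CN c h1) hq hq' h

/-- (4b) -/
theorem rAC : A.relIndex 𝓒(A) ≤ 2 := by
  haveI := c.nZ
  obtain ⟨q, q1, q2⟩ := e.exists_q c
  have h := relIndex_le_of_fun (S := 𝓒(A)) (K := A) (W0 := zpowers z) (W1 := A ⊓ 𝓒₁(q)) (fun s => ⁅q, s⁆)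
    (fun s hs => by
      rw [← commutatorElement_inv]
      exact inv_mem ⟨e.cmB c hs (e.CN c hs) q1, mem_cent1.2 (e.cmB' c hs (e.CN c hs) q1)⟩)
    (fun s hs s' hs' h => e.key' c (mul_mem (inv_mem hs) hs') q1 q2
      (comm_div_mem (norm_of_normal _ ⊤ (mem_top _)) h))
  have h1 := e.cardE c q1 q2
  have h2 := card_mul_relIndex (show zpowers z ≤ A ⊓ 𝓒₁(q) from
    le_inf c.ZA fun x hx => mem_cent1.2 (e.zcm hx q))
  rw [c.cZ] at h2
  omega

theorem cardC : ♯(𝓒(A)) ≤ 16 := by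
  have := card_mul_relIndex c.AC
  have h := e.rAC c
  rw [c.cA] at this
  omega

theorem abC {x y : G} (hx : x ∈ 𝓒(A)) (hy : y ∈ 𝓒(A)) : x * y = y * x := by
  by_cases xA : x ∈ A
  · exact mem_cent.1 hy x xA
  have h := e.rAC c
  have h0 := relIndex_ne_zero' A 𝓒(A)
  have h1 : A.relIndex 𝓒(A) ≠ 1 := fun h => xA (relIndex_eq_one.1 h hx)
  have h2 := PGBasic.sup_zpowers_eq_of_relIndex_prime Nat.prime_two (show A.relIndex 𝓒(A) = 2 by omega) c.AC hx xA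
  have h3 : x ∈ 𝓒(𝓒(A)) := by
    rw [← h2, cent_sup, cent_zpowers]
    exact ⟨hx, mem_cent1_self x⟩
  exact (mem_cent.1 h3 y hy).symm

theorem sr : H7SR.SR 4 G := by
  intro H N hNH hN
  haveI : Fact (Nat.Prime 2) := ⟨Nat.prime_two⟩
  haveI := c.nA
  have nN : H ≤ 𝓝(N) := norm_of_der_le (FusMw.cm' hN) hNH
  set K := H ⊓ 𝓒(A) with eK
  have k1 := card_inf_mul_relIndex N K
  have k2 : ♯K ≤ 16 := (card_le_of_le' inf_le_right).trans (e.cardC c)
  have k0 := card_pos' (N ⊓ K)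
  by_cases h : H ⊓ (Q ⊔ 𝓒(A)) ≤ 𝓒(A)
  · by_cases hC : H ≤ 𝓒(A)
    · have h1 := card_mul_relIndex hNH
      have h2 := (card_le_of_le' hC).trans (e.cardC c)
      have h3 := card_pos' N
      nlinarith
    have a1 := c.idx8 e.pG
    have a2 := relIndex_mul_relIndex 𝓒(A) (Q ⊔ 𝓒(A)) ⊤ le_sup_right le_top
    have a3 : (𝓒(A)).relIndex (Q ⊔ 𝓒(A)) = 4 := by
      rw [relIndex_sup_norm (norm_of_normal _ _)]
      have := card_inf_mul_relIndex 𝓒(A) Q
      rw [e.CQ c, c.cA, e.cQ] at this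
      omega
    have a4 : (Q ⊔ 𝓒(A)).relIndex H ≤ 2 :=
      (relIndex_le_of_le_right le_top (relIndex_ne_zero' _ _)).trans (by rw [a3] at a2; omega)
    have a5 : K.relIndex H ≤ 2 := by
      rw [← inf_relIndex_left] at a4
      exact (relIndex_le_of_le_left (le_inf inf_le_left h) (relIndex_ne_zero' _ _)).trans a4
    have a6 : N.relIndex K ≤ 8 := by
      by_cases AH : A ≤ H
      · obtain ⟨g, g1, g2⟩ := SetLike.not_le_iff_exists.1 hC
        rw [mem_cent] at g2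
        push_neg at g2
        obtain ⟨a, a1, a2⟩ := g2
        have b1 : ⁅a, g⁆ ∈ A := c.WA (c.cmA a a1 g)
        have b2 : N ⊓ K ≠ ⊥ := ne_bot_of_mem (x := ⁅a, g⁆) ⟨FusMw.cm hN (AH a1) g1, AH b1, c.AC b1⟩
          (fun h => a2 (cm_of_comm h))
        have := PGBasic.le_card_of_ne_bot (e.pG.to_subgroup _) b2
        nlinarith
      · have b1 : K < 𝓒(A) := lt_of_le_of_ne inf_le_right fun h => AH (c.AC.trans (inf_eq_right.1 h))
        have := PGBasic.card_mul_le_of_lt (e.pG.to_subgroup _) b1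
        have := e.cardC c
        nlinarith
    have a7 := relIndex_mul_relIndex (N ⊓ K) K H inf_le_right inf_le_left
    rw [inf_relIndex_right] at a7
    calc _ ≤ (N ⊓ K).relIndex H := relIndex_le_of_le_left inf_le_left (relIndex_ne_zero' _ _)
      _ = _ := a7.symm
      _ ≤ 8 * 2 := Nat.mul_le_mul a6 a5
  · obtain ⟨x, x0, x3⟩ := SetLike.not_le_iff_exists.1 h
    obtain ⟨x1, x2⟩ := mem_inf.1 x0
    obtain ⟨q, q1, d, d1, rfl⟩ := (mem_sup_norm (norm_of_normal _ _)).1 x2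
    have q2 : q ∉ A := fun h => x3 (mul_mem (c.AC h) d1)
    have a1 := linear (H := H) (A := A) (F := N) Nat.prime_two (e.pi H) c.ab (norm_of_normal _ _) (FusMw.cm' hN) hNH
      (a := 3) (by rw [c.cA]; norm_num)
    have a2 := relIndex_le_of_fun (S := K) (K := A ⊓ 𝓒₁(q)) (W0 := ⊥) (W1 := N ⊓ K) (fun s => ⁅q * d, s⁆)
      (fun s hs => by
        obtain ⟨s1, s2⟩ := mem_inf.1 hs
        exact mem_inf.2 ⟨FusMw.cm hN x1 s1, mem_inf.2 ⟨mul_mem (mul_mem (mul_mem x1 s1) (inv_mem x1)) (inv_mem s1),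
          mul_mem ((inferInstance : (𝓒(A)).Normal).conj_mem _ s2 _) (inv_mem s2)⟩⟩)
      (fun s hs s' hs' h => by
        have b1 := cm_of_comm (mem_bot.1 (comm_div_mem (norm_of_normal _ ⊤ (mem_top _)) h))
        have b2 : s⁻¹ * s' ∈ 𝓒(A) := mul_mem (inv_mem (mem_inf.1 hs).2) (mem_inf.1 hs').2
        generalize s⁻¹ * s' = y at b1 b2
        have b3 : y * q = q * y := by
          apply mul_right_cancel (b := d)
          rw [mul_assoc, b1, mul_assoc, mul_assoc, e.abC c b2 d1]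
        exact ⟨e.key' c b2 q1 q2 (by rw [comm_of_cm b3]; exact one_mem _), mem_cent1.2 b3⟩)
    rw [relIndex_bot_left] at a2
    have a3 := card_inf_mul_relIndex (A ⊓ 𝓒₁(q)) K
    have a4 : ♯(A ⊓ 𝓒₁(q) ⊓ K : Subgroup G) ≤ 4 := (card_le_of_le' inf_le_left).trans (e.cardE c q1 q2)
    have a5 : N.relIndex K ≤ 4 := by
      have : ♯(N ⊓ K : Subgroup G) * N.relIndex K ≤ ♯(N ⊓ K : Subgroup G) * 4 := by
        rw [k1, ← a3, mul_comm _ 4]; exact Nat.mul_le_mul a4 a2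
      exact Nat.le_of_mul_le_mul_left this k0
    have a6 := relIndex_mul_relIndex N (N ⊔ K) H le_sup_left (sup_le hNH inf_le_left)
    rw [sup_comm, relIndex_sup_norm (inf_le_left.trans nN), sup_comm] at a6
    calc _ = _ := a6.symm
      _ ≤ 4 * 4 := Nat.mul_le_mul a5 a1

omit c in
theorem main : H7SR.SR 4 G := by
  by_cases h : ∀ A : Subgroup G, A.Normal → IsMulCommutative A → (∀ a ∈ A, a ^ 2 = 1) → Nat.card A ≤ 4
  · exact FusMw.macWilliams e.pG h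
  push_neg at h
  obtain ⟨B, nB, b1, b2, b3⟩ := h
  obtain ⟨W, A, c⟩ := exists_ch e.pG e.z1 e.z2 e.zc ((center_le_centralizer _).trans e.cen) b1 b2 b3
  exact e.sr c

end Ex

theorem q8_sq : ∀ x : QuaternionGroup 2, x ^ 2 = 1 ∨ x ^ 2 = QuaternionGroup.a 2 := by decide

theorem q8_cen : ∀ x : QuaternionGroup 2, (∀ y, y * x = x * y) → x = 1 ∨ x = QuaternionGroup.a 2 := by decide

theorem q8_z : (QuaternionGroup.a 2 : QuaternionGroup 2) ≠ 1 ∧ (QuaternionGroup.a 2 : QuaternionGroup 2) ^ 2 = 1 ∧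
    ∀ y : QuaternionGroup 2, y * QuaternionGroup.a 2 = QuaternionGroup.a 2 * y := by decide

theorem q8_data {P : Subgroup G} (f : P ≃* QuaternionGroup 2) : ♯P = 8 ∧ ∃ z ∈ P, z ≠ 1 ∧ z ^ 2 = 1 ∧
    (∀ y ∈ P, y * z = z * y) ∧ (∀ x ∈ P, x ^ 2 ∈ zpowers z) ∧ ∀ x ∈ P, (∀ y ∈ P, y * x = x * y) → x ∈ zpowers z := by
  refine ⟨by rw [Nat.card_congr f.toEquiv, Nat.card_eq_fintype_card, QuaternionGroup.card], (f.symm (.a 2) : P),
    SetLike.coe_mem _, fun h => q8_z.1 ?_, ?_, fun y hy => ?_, fun x hx => ?_, fun x hx h => ?_⟩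
  · have : f.symm (.a 2) = 1 := Subtype.ext h
    rw [← f.apply_symm_apply (.a 2), this, map_one]
  · rw [← Subgroup.coe_pow, ← map_pow, q8_z.2.1, map_one, coe_one]
  · have := congrArg (fun t => (f.symm t : G)) (q8_z.2.2 (f ⟨y, hy⟩))
    simpa using this
  · rcases q8_sq (f ⟨x, hx⟩) with h | h
    · have := congrArg (fun t => (f.symm t : G)) h
      simp at this
      rw [this]; exact one_mem _
    · have := congrArg (fun t => (f.symm t : G)) h
      simp at this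
      rw [this]; exact mem_zpowers _
  · rcases q8_cen (f ⟨x, hx⟩) (fun y => by
      rw [← f.apply_symm_apply y, ← map_mul, ← map_mul]
      exact congrArg f (Subtype.ext (h _ (SetLike.coe_mem _)))) with h | h
    · have := congrArg (fun t => (f.symm t : G)) h
      simp at this
      rw [this]; exact one_mem _
    · have := congrArg (fun t => (f.symm t : G)) h
      simp at this
      rw [this]; exact mem_zpowers _

theorem qq (hG : IsPGroup 2 G) {Q P R : Subgroup G} (f : P ≃* QuaternionGroup 2) (g : R ≃* QuaternionGroup 2)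
    (hc : ∀ a ∈ P, ∀ b ∈ R, a * b = b * a) (hQ : P ⊔ R = Q) (h32 : ♯Q = 32) (hC : 𝓒(Q) ≤ Q) : H7SR.SR 4 G := by
  haveI : Fact (Nat.Prime 2) := ⟨Nat.prime_two⟩
  obtain ⟨p8, z, z0, z1, z2, z3, z4, z5⟩ := q8_data f
  obtain ⟨r8, w, w0, w1, w2, w3, w4, w5⟩ := q8_data g
  have hn : P ≤ 𝓝(R) := norm_of_cent fun a ha => mem_cent.2 fun b hb => (hc a ha b hb).symm
  have h1 := card_sup_mul_inf hn
  rw [hQ, h32, p8, r8] at h1
  obtain ⟨x, ⟨x1, x2⟩, x3⟩ := exists_ne_one (X := P ⊓ R) (fun h => by rw [h] at h1; simp at h1)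
  have e1 : x = z := (H7SR.mem_zpowers_two z2 (z5 x x1 fun y hy => hc y hy x x2)).resolve_left x3
  have e2 : x = w := (H7SR.mem_zpowers_two w2 (w5 x x2 fun y hy => (hc x x1 y hy).symm)).resolve_left x3
  subst e1
  subst e2
  have cen : 𝓒(Q) ≤ zpowers x := by
    intro y hy
    have h2 := hC hy
    rw [← hQ] at h2 hy
    obtain ⟨a, a1, b, b1, rfl⟩ := (mem_sup_norm hn).1 h2
    refine mul_mem (z5 a a1 fun t ht => ?_) (w5 b b1 fun t ht => ?_)
    · apply mul_right_cancel (b := b)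
      rw [mul_assoc, mem_cent.1 hy t (mem_sup_left ht), mul_assoc, mul_assoc, hc t ht b b1]
    · apply mul_left_cancel (a := a)
      rw [← mul_assoc, hc a a1 t ht, mul_assoc, mem_cent.1 hy t (mem_sup_right ht), mul_assoc]
  have hT : (⊤ : Subgroup G) ≠ ⊥ := ne_bot_of_mem (mem_top x) x3
  obtain ⟨u, -, u1, u2⟩ := PGBasic.exists_mem_center_orderOf hG hT
  have u3 : u = x := (H7SR.mem_zpowers_two z2 (cen (center_le_centralizer _ u1))).resolve_left fun h => by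
    rw [h, orderOf_one] at u2; omega
  subst u3
  refine Ex.main (z := u) (Q := Q) ⟨hG, x3, z2, u1, hQ ▸ mem_sup_left x1, fun q hq => ?_, cen, h32⟩
  rw [← hQ] at hq
  obtain ⟨a, a1, b, b1, rfl⟩ := (mem_sup_norm hn).1 hq
  rw [Commute.mul_pow (hc a a1 b b1)]
  exact mul_mem (z4 a a1) (w4 b b1)

end CA.H14Sr
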