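import Cfsg.Agent.Lib.Grp.H14Sr1

/-!
A finite `2`-group with a subgroup `Q` isomorphic to the wreath product of a four-group by `C₂` with
`C(Z(Q)) = Q` has sectional rank at most `4`.
-/

set_option autoImplicit false
set_option linter.unusedSectionVars false
set_option linter.style.haveILetI false

namespace CA.H14Sr

open Subgroup Cfsg CA.BG CA.FusPat
open scoped commutatorElement

variable {G : Type*} [Group G] [Finite G]

theorem div_mem_of_two {X Y : Subgroup G} (h : X.relIndex Y ≤ 2) {a b : G} (ha : a ∈ Y) (hb : b ∈ Y)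
    (ha' : a ∉ X) (hb' : b ∉ X) : a⁻¹ * b ∈ X := by
  have h0 := relIndex_ne_zero' X Y
  have h1 : X.relIndex Y ≠ 1 := fun h => ha' (relIndex_eq_one.1 h ha)
  have h2 : (X.subgroupOf Y).index = 2 := by
    have : X.relIndex Y = 2 := by omega
    exact this
  have := (mul_mem_iff_of_index_two h2 (a := ⟨a⁻¹, inv_mem ha⟩) (b := ⟨b, hb⟩)).2 (by
    simp only [mem_subgroupOf]
    exact iff_of_false (fun h => ha' (inv_mem_iff.1 h)) hb')
  exact mem_subgroupOf.1 this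

theorem sq_mem_of_two {M : Subgroup G} (h : M.index ≤ 2) (x : G) : x ^ 2 ∈ M := by
  by_cases hx : x ∈ M
  · exact pow_mem hx 2
  · have := div_mem_of_two (X := M) (Y := ⊤) (by rwa [relIndex_top_right]) (mem_top x⁻¹) (mem_top x)
      (fun h => hx (inv_mem_iff.1 h)) hx
    rwa [inv_inv, ← pow_two] at this

/-- an involution fixes at least the square root of the order of an elementary abelian `2`-group -/
theorem card_le_sq {X : Subgroup G} (ab : IsMulCommutative X) (s2 : ∀ x ∈ X, x ^ 2 = 1) {t : G} (h1 : t ∈ 𝓝(X))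
    (h2 : t ^ 2 ∈ 𝓒(X)) : ♯X ≤ ♯(X ⊓ 𝓒₁(t) : Subgroup G) * ♯(X ⊓ 𝓒₁(t) : Subgroup G) := by
  have cm := PGBasic.isMulCommutative_iff.1 ab
  have h := relIndex_le_of_fun (S := X) (K := X ⊓ 𝓒₁(t)) (W0 := ⊥) (W1 := X ⊓ 𝓒₁(t)) (fun x => ⁅t, x⁆)
    (fun x hx => by
      have x1 := conj_mem_of_mem_norm h1 hx
      refine mem_inf.2 ⟨mul_mem x1 (inv_mem hx), mem_cent1.2 (mul_inv_eq_iff_eq_mul.1 ?_).symm⟩
      have x2 := mem_cent.1 h2 x hx
      have x3 := inv_eq_of_sq (s2 x hx)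
      rw [cel, x3]
      calc t * (t * x * t⁻¹ * x) * t⁻¹ = (t ^ 2 * x) * (t ^ 2)⁻¹ * (t * x * t⁻¹) := by rw [pow_two]; group
        _ = x * (t * x * t⁻¹) := by rw [← x2]; group
        _ = _ := cm _ hx _ x1)
    (fun x hx y hy h => mem_inf.2 ⟨mul_mem (inv_mem hx) hy,
      mem_cent1.2 (cm_of_comm (mem_bot.1 (comm_div_mem (norm_of_normal _ ⊤ (mem_top _)) h)))⟩)
  rw [relIndex_bot_left] at h
  rw [← card_mul_relIndex (inf_le_left : X ⊓ 𝓒₁(t) ≤ X)]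
  exact Nat.mul_le_mul_left _ h

namespace Ch
variable {z : G} {W A : Subgroup G} (c : Ch z W A)
include c

theorem abC (h16 : ♯(𝓒(A)) ≤ 16) {x y : G} (hx : x ∈ 𝓒(A)) (hy : y ∈ 𝓒(A)) : x * y = y * x := by
  by_cases xA : x ∈ A
  · exact mem_cent.1 hy x xA
  by_cases yA : y ∈ A
  · exact (mem_cent.1 hx y yA).symm
  have h := card_mul_relIndex c.AC
  rw [c.cA] at h
  have h1 := mem_cent.1 hx _ (div_mem_of_two (X := A) (Y := 𝓒(A)) (by omega) hx hy xA yA)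
  rw [mul_inv_cancel_left] at h1
  calc x * y = x * (x⁻¹ * y * x) := by rw [h1]
    _ = _ := by group

theorem fin (hG : IsPGroup 2 G) (h16 : ♯(𝓒(A)) ≤ 16)
    (hM : ∀ M : Subgroup G, 𝓒(A) < M → M.index ≤ 2 → ∃ x ∈ M, ♯(𝓒(A) ⊓ 𝓒₁(x) : Subgroup G) ≤ 4) :
    H7SR.SR 4 G := by
  intro H N hNH hN
  haveI : Fact (Nat.Prime 2) := ⟨Nat.prime_two⟩
  haveI := c.nA
  have nN : H ≤ 𝓝(N) := norm_of_der_le (FusMw.cm' hN) hNH
  set K := H ⊓ 𝓒(A) with eK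
  have k1 := card_inf_mul_relIndex N K
  have k2 : ♯K ≤ 16 := (card_le_of_le' inf_le_right).trans h16
  have k0 := card_pos' (N ⊓ K)
  by_cases hC : H ≤ 𝓒(A)
  · have h1 := card_mul_relIndex hNH
    have h2 := (card_le_of_le' hC).trans h16
    have h3 := card_pos' N
    nlinarith
  by_cases h : (𝓒(A)).relIndex H ≤ 2
  · have a5 : K.relIndex H ≤ 2 := by rwa [eK, inf_relIndex_left]
    have a6 : N.relIndex K ≤ 8 := by
      by_cases AH : A ≤ H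
      · obtain ⟨g, g1, g2⟩ := SetLike.not_le_iff_exists.1 hC
        rw [mem_cent] at g2
        push_neg at g2
        obtain ⟨a, a1, a2⟩ := g2
        have b1 : ⁅a, g⁆ ∈ A := c.WA (c.cmA a a1 g)
        have b2 : N ⊓ K ≠ ⊥ := ne_bot_of_mem (x := ⁅a, g⁆) ⟨FusMw.cm hN (AH a1) g1, AH b1, c.AC b1⟩
          (fun h => a2 (cm_of_comm h))
        have := PGBasic.le_card_of_ne_bot (hG.to_subgroup _) b2
        nlinarith
      · have b1 : K < 𝓒(A) := lt_of_le_of_ne inf_le_right fun h => AH (c.AC.trans (inf_eq_right.1 h))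
        have := PGBasic.card_mul_le_of_lt (hG.to_subgroup _) b1
        nlinarith
    have a7 := relIndex_mul_relIndex (N ⊓ K) K H inf_le_right inf_le_left
    rw [inf_relIndex_right] at a7
    calc _ ≤ (N ⊓ K).relIndex H := relIndex_le_of_le_left inf_le_left (relIndex_ne_zero' _ _)
      _ = _ := a7.symm
      _ ≤ 8 * 2 := Nat.mul_le_mul a6 a5
  · have a0 := c.idx8 hG
    have a8 := relIndex_mul_relIndex 𝓒(A) (H ⊔ 𝓒(A)) ⊤ le_sup_right le_top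
    rw [relIndex_sup_norm (norm_of_normal _ _), relIndex_top_right] at a8
    obtain ⟨x, x1, x2⟩ := hM (H ⊔ 𝓒(A)) (lt_of_le_of_ne le_sup_right fun h => hC (sup_eq_right.1 h.symm))
      (by nlinarith)
    obtain ⟨q, q1, d, d1, rfl⟩ := (mem_sup_norm (norm_of_normal _ _)).1 x1
    have a1 := linear (H := H) (A := A) (F := N) Nat.prime_two (isPi_of_isPGroup Nat.prime_two (hG.to_subgroup H))
      c.ab (norm_of_normal _ _) (FusMw.cm' hN) hNH (a := 3) (by rw [c.cA]; norm_num)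
    have a2 := relIndex_le_of_fun (S := K) (K := 𝓒(A) ⊓ 𝓒₁(q * d)) (W0 := ⊥) (W1 := N ⊓ K) (fun s => ⁅q, s⁆)
      (fun s hs => by
        obtain ⟨s1, s2⟩ := mem_inf.1 hs
        exact mem_inf.2 ⟨FusMw.cm hN q1 s1, mem_inf.2 ⟨mul_mem (mul_mem (mul_mem q1 s1) (inv_mem q1)) (inv_mem s1),
          mul_mem ((inferInstance : (𝓒(A)).Normal).conj_mem _ s2 _) (inv_mem s2)⟩⟩)
      (fun s hs s' hs' h => by
        have b1 := cm_of_comm (mem_bot.1 (comm_div_mem (norm_of_normal _ ⊤ (mem_top _)) h))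
        have b2 : s⁻¹ * s' ∈ 𝓒(A) := mul_mem (inv_mem (mem_inf.1 hs).2) (mem_inf.1 hs').2
        generalize s⁻¹ * s' = y at b1 b2
        refine mem_inf.2 ⟨b2, mem_cent1.2 ?_⟩
        rw [← mul_assoc, b1, mul_assoc, mul_assoc, c.abC h16 b2 d1])
    rw [relIndex_bot_left] at a2
    have a3 := card_inf_mul_relIndex (𝓒(A) ⊓ 𝓒₁(q * d)) K
    have a4 : ♯(𝓒(A) ⊓ 𝓒₁(q * d) ⊓ K : Subgroup G) ≤ 4 := (card_le_of_le' inf_le_left).trans x2
    have a5 : N.relIndex K ≤ 4 := by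
      have : ♯(N ⊓ K : Subgroup G) * N.relIndex K ≤ ♯(N ⊓ K : Subgroup G) * 4 := by
        rw [k1, ← a3, mul_comm _ 4]; exact Nat.mul_le_mul a4 a2
      exact Nat.le_of_mul_le_mul_left this k0
    have a6 := relIndex_mul_relIndex N (N ⊔ K) H le_sup_left (sup_le hNH inf_le_left)
    rw [sup_comm, relIndex_sup_norm (inf_le_left.trans nN), sup_comm] at a6
    calc _ = _ := a6.symm
      _ ≤ 4 * 4 := Nat.mul_le_mul a5 a1

theorem card_fix (hG : IsPGroup 2 G) {t : G} (ht : t ∉ 𝓒(A)) : ♯(A ⊓ 𝓒₁(t) : Subgroup G) ≤ 4 := by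
  haveI : Fact (Nat.Prime 2) := ⟨Nat.prime_two⟩
  have h : A ⊓ 𝓒₁(t) < A := lt_of_le_of_ne inf_le_left fun h => ht (le_cent1_iff.1 (inf_eq_left.1 h))
  have := PGBasic.card_mul_le_of_lt (hG.to_subgroup A) h
  rw [c.cA] at this
  omega

end Ch

/-- the wreath product of a four-group by `C₂`, containing the centralizer of its centre -/
structure Wr (Q E : Subgroup G) (s : G) : Prop where
  pG : IsPGroup 2 G
  EQ : E ≤ Q
  ab : IsMulCommutative E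
  s2 : ∀ x ∈ E, x ^ 2 = 1
  cE : ♯E = 16
  cQ : ♯Q = 32
  sQ : s ∈ Q
  sE : s ∉ E
  ss : s ^ 2 = 1
  cY : ♯(E ⊓ 𝓒₁(s) : Subgroup G) = 4
  cen : 𝓒((E ⊓ 𝓒₁(s) : Subgroup G)) ≤ Q

namespace Wr
variable {Q E : Subgroup G} {s : G} (w : Wr Q E s)
include w

theorem rEQ : E.relIndex Q = 2 := by
  have := card_mul_relIndex w.EQ
  rw [w.cE, w.cQ] at this; omega

theorem nE : Q ≤ 𝓝(E) :=
  haveI : Fact (Nat.Prime 2) := ⟨Nat.prime_two⟩
  PGBasic.le_normalizer_of_relIndex (w.pG.to_subgroup Q) w.EQ w.rEQ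

theorem ecm {a b : G} (ha : a ∈ E) (hb : b ∈ E) : a * b = b * a :=
  PGBasic.isMulCommutative_iff.1 w.ab a ha b hb

theorem out {x : G} (h1 : x ∈ Q) (h2 : x ∉ E) : ∃ e ∈ E, x = s * e :=
  ⟨s⁻¹ * x, div_mem_of_two w.rEQ.le w.sQ h1 w.sE h2, by group⟩

theorem cm_out {x f : G} (h1 : x ∈ Q) (h2 : x ∉ E) (hf : f ∈ E) : ⁅f, x⁆ = ⁅f, s⁆ := by
  obtain ⟨e, he, rfl⟩ := w.out h1 h2
  calc ⁅f, s * e⁆ = f * s * (e * f⁻¹) * e⁻¹ * s⁻¹ := by rw [cel]; group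
    _ = _ := by rw [w.ecm he (inv_mem hf), cel]; group

theorem fix_out {x : G} (h1 : x ∈ Q) (h2 : x ∉ E) : E ⊓ 𝓒₁(x) = E ⊓ 𝓒₁(s) := by
  ext f
  simp only [mem_inf, mem_cent1, and_congr_right_iff]
  intro hf
  rw [← commutatorElement_eq_one_iff_mul_comm, ← commutatorElement_eq_one_iff_mul_comm, w.cm_out h1 h2 hf]

theorem QY : Q ≤ 𝓒((E ⊓ 𝓒₁(s) : Subgroup G)) := by
  intro x hx
  refine mem_cent.2 fun y hy => ?_
  by_cases h : x ∈ E
  · exact w.ecm hy.1 h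
  · rw [← w.fix_out hx h] at hy
    exact mem_cent1.1 (mem_inf.1 hy).2

theorem cenQ : 𝓒(Q) ≤ E ⊓ 𝓒₁(s) := by
  intro x hx
  have h1 : x ∈ Q := w.cen (cent_anti (inf_le_left.trans w.EQ) hx)
  refine mem_inf.2 ⟨?_, cent_le_cent1 w.sQ hx |> mem_cent1_symm.1 |> mem_cent1_symm.1⟩
  by_contra h
  have h2 := w.fix_out h1 h
  rw [inf_eq_left.2 (le_cent1_iff.2 (cent_anti w.EQ hx))] at h2
  have h3 := w.cY
  rw [← h2, w.cE] at h3
  omega

theorem img {y : G} (hy : y ∈ E ⊓ 𝓒₁(s)) : ∃ f ∈ E, y = ⁅f, s⁆ := by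
  have m : ∀ f ∈ E, ⁅f, s⁆ ∈ E := fun f hf => by
    rw [cel, mul_assoc, mul_assoc, ← mul_assoc s]
    exact mul_mem hf (conj_mem_of_mem_norm (w.nE w.sQ) (inv_mem hf))
  obtain ⟨I, hI⟩ := exists_img (R := E) (W := ⊥) (v := s) (fun r _ => norm_of_normal _ ⊤ (mem_top _))
    (fun r hr l hl => mem_bot.2 (comm_of_cm (w.ecm hl (m r hr))))
  have h1 : I ≤ E ⊓ 𝓒₁(s) := by
    intro x hx
    obtain ⟨r, r1, r2⟩ := (hI x).1 hx
    rw [mem_bot, mul_inv_eq_one] at r2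
    subst r2
    refine mem_inf.2 ⟨m r r1, mem_cent1.2 (mul_inv_eq_iff_eq_mul.1 ?_).symm⟩
    have e1 := inv_eq_of_sq w.ss
    have e2 : s * s = 1 := by rw [← pow_two, w.ss]
    rw [← inv_eq_of_sq (w.s2 _ (m r r1)), commutatorElement_inv, cel, e1]
    have e3 := inv_eq_of_sq (w.s2 _ r1)
    rw [e3]
    have e4 := w.ecm r1 (conj_mem_of_mem_norm (w.nE w.sQ) r1)
    rw [e1] at e4
    calc s * (s * r * s * r) * s = (s * s) * r * (s * r * s) := by group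
      _ = s * r * s * r := by rw [e2, one_mul, e4]
  have h2 := relIndex_le_of_fun (S := E) (K := E ⊓ 𝓒₁(s)) (W0 := ⊥) (W1 := I) (fun x => ⁅s, x⁆)
    (fun x hx => by
      rw [← commutatorElement_inv]
      exact inv_mem ((hI _).2 ⟨x, hx, by rw [mul_inv_cancel]; exact one_mem _⟩))
    (fun x hx y hy h => mem_inf.2 ⟨mul_mem (inv_mem hx) hy,
      mem_cent1.2 (cm_of_comm (mem_bot.1 (comm_div_mem (norm_of_normal _ ⊤ (mem_top _)) h)))⟩)
  have h3 := card_mul_relIndex (inf_le_left : E ⊓ 𝓒₁(s) ≤ E)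
  rw [relIndex_bot_left] at h2
  rw [w.cY, w.cE] at h3
  have h4 := eq_of_le_of_card_le h1 (by rw [w.cY]; omega)
  rw [← h4] at hy
  obtain ⟨r, r1, r2⟩ := (hI y).1 hy
  exact ⟨r, r1, mul_inv_eq_one.1 (mem_bot.1 r2)⟩

theorem Y_le {X : Subgroup G} (h1 : X ≤ E) (h2 : s ∈ 𝓝(X)) (h3 : 4 < ♯X) : E ⊓ 𝓒₁(s) ≤ X := by
  have h4 := card_le_sq (comm_of_le w.ab h1) (fun x hx => w.s2 x (h1 hx)) h2 (by rw [w.ss]; exact one_mem _)
  have h5 : X ⊓ 𝓒₁(s) ≤ E ⊓ 𝓒₁(s) := inf_le_inf_right _ h1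
  have h6 := card_dvd h5
  rw [w.cY] at h6
  have h7 : ♯(X ⊓ 𝓒₁(s) : Subgroup G) = 4 := by
    have := Nat.le_of_dvd (by norm_num) h6
    generalize ♯(X ⊓ 𝓒₁(s) : Subgroup G) = n at *
    interval_cases n <;> omega
  rw [← eq_of_le_of_card_eq h5 (by rw [h7, w.cY])]
  exact inf_le_left

theorem Y_le' {A : Subgroup G} [hA : A.Normal] {x : G} (h0 : x ∈ A) (h1 : x ∈ Q) (h2 : x ∉ E) :
    E ⊓ 𝓒₁(s) ≤ A := by
  intro y hy
  obtain ⟨f, f1, rfl⟩ := w.img hy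
  rw [← w.cm_out h1 h2 f1, cel]
  exact mul_mem (hA.conj_mem _ h0 f) (inv_mem h0)

theorem small (h : E ⊓ 𝓒₁(s) ≤ center G) : H7SR.SR 4 G := by
  intro H N hNH hN
  haveI : Fact (Nat.Prime 2) := ⟨Nat.prime_two⟩
  have hQ : Q = ⊤ := eq_top_iff.2 fun x _ => w.cen (mem_cent.2 fun y hy => (mem_center_iff.1 (h hy) x).symm)
  have h1 := card_mul_relIndex hNH
  have h2 : ♯H ≤ 32 := w.cQ ▸ card_le_of_le' (hQ ▸ le_top)
  by_cases hb : N = ⊥
  · subst hb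
    have h3 : H < Q := lt_of_le_of_ne (hQ ▸ le_top) fun e => by
      have : E ≤ 𝓒₁(s) := fun f hf => mem_cent1.2 (cm_of_comm (mem_bot.1
        (FusMw.cm hN (e ▸ w.EQ hf) (e ▸ w.sQ))))
      have h4 := w.cY
      rw [inf_eq_left.2 this, w.cE] at h4
      omega
    have := PGBasic.card_mul_le_of_lt (w.pG.to_subgroup Q) h3
    rw [w.cQ] at this
    rw [relIndex_bot_left]
    omega
  · have := PGBasic.le_card_of_ne_bot (w.pG.to_subgroup N) hb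
    nlinarith

variable {z u : G} {W A : Subgroup G} (c : Ch z W A) (hz : z ∈ E ⊓ 𝓒₁(s)) (hu : u ∈ E ⊓ 𝓒₁(s))
  (hu' : u ∉ zpowers z)
include c hz hu hu'

theorem rZY : (zpowers z).relIndex (E ⊓ 𝓒₁(s)) = 2 := by
  have := card_mul_relIndex (zpowers_le_of_mem hz)
  rw [c.cZ, w.cY] at this; omega

theorem Cu : 𝓒₁(u) = Q := by
  refine le_antisymm (fun x hx => w.cen ?_) (w.QY.trans (cent_le_cent1 hu))
  rw [← PGBasic.sup_zpowers_eq_of_relIndex_prime Nat.prime_two (w.rZY c hz hu hu') (zpowers_le_of_mem hz) hu hu',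
    cent_sup, cent_zpowers, cent_zpowers]
  exact ⟨mem_cent1.2 (mem_center_iff.1 c.zc x), hx⟩

theorem case1 (h : u ∈ 𝓒(A)) : H7SR.SR 4 G := by
  haveI : Fact (Nat.Prime 2) := ⟨Nat.prime_two⟩
  haveI := c.nA
  have AQ : A ≤ Q := w.Cu c hz hu hu' ▸ le_cent1_iff.2 h
  by_cases AE : A ≤ E
  · have YA := w.Y_le AE (norm_of_normal _ ⊤ (mem_top _)) (by rw [c.cA]; norm_num)
    have CQ : 𝓒(A) ≤ Q := (cent_anti YA).trans w.cen
    have CE : 𝓒(A) = E := by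
      refine le_antisymm (fun x hx => ?_) (cent_of_comm w.ab le_rfl AE)
      by_contra hx'
      have h1 : A ≤ E ⊓ 𝓒₁(x) := le_inf AE (le_cent1_iff.2 hx)
      rw [w.fix_out (CQ hx) hx'] at h1
      have := card_le_of_le' h1
      rw [c.cA, w.cY] at this
      omega
    have nE : E.Normal := CE ▸ inferInstance
    refine c.fin w.pG (by rw [CE, w.cE]) fun M m1 m2 => ?_
    rw [CE] at m1 ⊢
    have nM : M.Normal := ⟨fun x hx g => by
      have := FusMw.cm (H := ⊤) (fun x _ => sq_mem_of_two m2 x) (mem_top g) (mem_top x)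
      simpa using mul_mem this hx⟩
    haveI := w.pG.isNilpotent
    obtain ⟨t, t1, t2, t3⟩ := PGBasic.exists_layer_top (M := M) (N := E) (not_le_of_gt m1)
    refine ⟨t, t1, ?_⟩
    by_cases tQ : t ∈ Q
    · rw [w.fix_out tQ t2, w.cY]
    by_contra h5
    refine tQ (w.Cu c hz hu hu' ▸ mem_cent1_symm.1 (mem_inf.1 (w.Y_le (X := E ⊓ 𝓒₁(t)) inf_le_left ?_
      (not_le.1 h5) hu)).2)
    refine mem_norm_of_cj_le fun x hx => ?_
    obtain ⟨y, y0, rfl⟩ := mem_cj'.1 hx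
    obtain ⟨y1, y2⟩ := mem_inf.1 y0
    refine mem_inf.2 ⟨nE.conj_mem _ y1 s, mem_cent1.2 ?_⟩
    have e1 := w.ecm y1 (inv_mem (t3 s⁻¹))
    have e2 := mem_cent1.1 y2
    calc s * y * s⁻¹ * t = s * (y * ⁅t, s⁻¹⁆⁻¹) * t * s⁻¹ := by rw [cel]; group
      _ = s * ⁅t, s⁻¹⁆⁻¹ * (y * t) * s⁻¹ := by rw [e1]; group
      _ = _ := by rw [e2, cel]; group
  · obtain ⟨x, x1, x2⟩ := SetLike.not_le_iff_exists.1 AE
    have YA := w.Y_le' x1 (AQ x1) x2
    have CQ : 𝓒(A) ≤ Q := (cent_anti YA).trans w.cen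
    have h1 : 𝓒(A) ⊓ E ≤ E ⊓ 𝓒₁(s) := by
      rw [← w.fix_out (AQ x1) x2]
      exact le_inf inf_le_right (inf_le_left.trans (cent_le_cent1 x1))
    have h2 := card_le_of_le' h1
    have h3 := card_inf_mul_relIndex E 𝓒(A)
    have h4 : E.relIndex 𝓒(A) ≤ 2 := w.rEQ ▸ relIndex_le_of_le_right CQ (relIndex_ne_zero' _ _)
    rw [inf_comm] at h3
    rw [w.cY] at h2
    have h5 : ♯(𝓒(A)) ≤ 8 := by nlinarith
    have CA : A = 𝓒(A) := eq_of_le_of_card_le c.AC (by rwa [c.cA])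
    refine c.fin w.pG (by omega) fun M m1 _ => ?_
    obtain ⟨t, t1, t2⟩ := SetLike.exists_of_lt m1
    exact ⟨t, t1, by rw [← CA]; exact c.card_fix w.pG t2⟩

theorem case2 (h : u ∉ 𝓒(A)) : H7SR.SR 4 G := by
  haveI : Fact (Nat.Prime 2) := ⟨Nat.prime_two⟩
  haveI := c.nA
  have Cu := w.Cu c hz hu hu'
  have uA : u ∉ A := fun h' => h (c.AC h')
  have u2 := w.s2 u (mem_inf.1 hu).1
  have ui := inv_eq_of_sq u2
  have uQ : u ∈ Q := w.EQ (mem_inf.1 hu).1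
  have qu : ∀ q ∈ Q, q * u = u * q := fun q hq => mem_cent1.1 (Cu ▸ hq)
  have a1 := c.card_fix w.pG h
  have a2 := card_le_sq c.ab c.s2 (t := u) (norm_of_normal _ ⊤ (mem_top _)) (by rw [u2]; exact one_mem _)
  rw [Cu] at a1 a2
  rw [c.cA] at a2
  have a3 : ♯(A ⊓ Q : Subgroup G) = 4 := by
    have := card_dvd (inf_le_left : A ⊓ Q ≤ A)
    rw [c.cA] at this
    generalize ♯(A ⊓ Q : Subgroup G) = n at *
    interval_cases n <;> omega
  have YA : ∀ y ∈ E ⊓ 𝓒₁(s), y ∈ A → y ∈ zpowers z := fun y y1 y2 => by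
    by_contra y3
    have := div_mem_of_two (w.rZY c hz hu hu').le y1 hu y3 hu'
    exact uA (by simpa using mul_mem y2 (c.ZA this))
  have A0E : A ⊓ Q ≤ E := fun x hx => by
    by_contra hx'
    exact uA (w.Y_le' (mem_inf.1 hx).1 (mem_inf.1 hx).2 hx' hu)
  have CQ : 𝓒(A) ⊓ Q ≤ A := by
    have b1 : ¬ A ⊓ Q ≤ zpowers z := fun h => by
      have := card_le_of_le' h
      rw [a3, c.cZ] at this
      omega
    obtain ⟨e, e1, e2⟩ := SetLike.not_le_iff_exists.1 b1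
    have b2 : 𝓒(A) ⊓ Q ≤ E := fun x hx => by
      by_contra hx'
      refine e2 (YA e ?_ (mem_inf.1 e1).1)
      rw [← w.fix_out (mem_inf.1 hx).2 hx']
      exact mem_inf.2 ⟨A0E e1, mem_cent1.2 (mem_cent.1 (mem_inf.1 hx).1 e (mem_inf.1 e1).1)⟩
    have b3 : ♯(𝓒(A) ⊓ Q : Subgroup G) ≤ 4 := by
      by_contra b
      exact h (mem_inf.1 (w.Y_le b2 (norm_inf (norm_of_normal _ Q) (le_norm_self Q) w.sQ) (not_le.1 b) hu)).1
    rw [← eq_of_le_of_card_le (inf_le_inf_right Q c.AC) (by rwa [a3])]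
    exact inf_le_left
  have inv : ∀ x, u * ⁅x, u⁆ * u⁻¹ = ⁅x, u⁆⁻¹ := fun x => by
    have e2 : u * u = 1 := by rw [← pow_two, u2]
    rw [commutatorElement_inv, cel, cel, ui]
    calc u * (x * u * x⁻¹ * u) * u = u * x * u * x⁻¹ * (u * u) := by group
      _ = _ := by rw [e2, mul_one]
  have inQ : ∀ x, ⁅x, u⁆ ∈ A → ⁅x, u⁆ ∈ Q := fun x hx => by
    have := inv x
    rw [inv_eq_of_sq (c.s2 _ hx)] at this
    exact Cu ▸ mem_cent1.2 (mul_inv_eq_iff_eq_mul.1 this).symm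
  have cj : ∀ q ∈ Q, ∀ x, q * ⁅x, u⁆ * q⁻¹ = ⁅q * x * q⁻¹, u⁆ := fun q hq x => by
    have := qu q hq
    calc q * ⁅x, u⁆ * q⁻¹ = q * x * q⁻¹ * (q * u) * x⁻¹ * (q * u)⁻¹ := by rw [cel]; group
      _ = _ := by rw [this, cel]; group
  have rA : (A ⊓ Q).relIndex A = 2 := by
    have := card_mul_relIndex (inf_le_left : A ⊓ Q ≤ A)
    rw [a3, c.cA] at this; omega
  have Au : ∀ a ∈ A, ⁅a, u⁆ ∈ zpowers z := fun a ha => by
    have b1 : ⁅a, u⁆ ∈ A := c.WA (c.cmA a ha u)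
    refine YA _ (w.cenQ (mem_cent.2 fun q hq => mul_inv_eq_iff_eq_mul.1 ?_)) b1
    rw [cj q hq]
    have b2 : ⁅q, a⁆ ∈ A ⊓ Q := by
      by_cases aQ : a ∈ Q
      · exact mem_inf.2 ⟨mul_mem (c.nA.conj_mem _ ha q) (inv_mem ha),
          mul_mem (mul_mem (mul_mem hq aQ) (inv_mem hq)) (inv_mem aQ)⟩
      · have := div_mem_of_two rA.le (inv_mem (c.nA.conj_mem _ ha q)) (inv_mem ha)
          (fun h => aQ (by simpa [mul_assoc] using mul_mem (mul_mem (inv_mem hq) (inv_mem (mem_inf.1 h).2)) hq))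
          (fun h => aQ (inv_mem_iff.1 (mem_inf.1 h).2))
        rwa [inv_inv] at this
    have b3 := qu _ (mem_inf.1 b2).2
    have b4 := c.acm (mem_inf.1 b2).1 b1
    calc ⁅q * a * q⁻¹, u⁆ = ⁅q, a⁆ * ⁅a, u⁆ * (u * ⁅q, a⁆⁻¹ * u⁻¹) := by simp only [cel]; group
      _ = ⁅a, u⁆ := by
        rw [b4, show u * ⁅q, a⁆⁻¹ * u⁻¹ = u * (u * ⁅q, a⁆)⁻¹ by group, ← b3]; group
  set B := BG4.cmod 𝓒(A) A (norm_of_normal _ _) u with eB
  have mB : ∀ x, x ∈ B ↔ x ∈ 𝓒(A) ∧ ⁅x, u⁆ ∈ A := fun x => BG4.mem_cmod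
  have AB : A ≤ B := fun a ha => (mB a).2 ⟨c.AC ha, c.ZA (Au a ha)⟩
  have cB : ♯B ≤ 16 := by
    have b1 := relIndex_le_of_fun (S := B) (K := A ⊓ Q) (W0 := ⊥) (W1 := A ⊓ Q) (fun x => ⁅u, x⁆)
      (fun x hx => by
        rw [← commutatorElement_inv]
        exact inv_mem (mem_inf.2 ⟨((mB x).1 hx).2, inQ x ((mB x).1 hx).2⟩))
      (fun x hx y hy h => by
        have b2 : x⁻¹ * y ∈ Q :=
          Cu ▸ mem_cent1.2 (cm_of_comm (mem_bot.1 (comm_div_mem (norm_of_normal _ ⊤ (mem_top _)) h)))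
        exact mem_inf.2 ⟨CQ (mem_inf.2 ⟨mul_mem (inv_mem ((mB x).1 hx).1) ((mB y).1 hy).1, b2⟩), b2⟩)
    have b2 := card_mul_relIndex (inf_le_left.trans AB : A ⊓ Q ≤ B)
    rw [relIndex_bot_left, a3] at b1
    rw [a3] at b2
    omega
  have rB : A.relIndex B ≤ 2 := by
    have := card_mul_relIndex AB
    rw [c.cA] at this; omega
  have CB : 𝓒(A) ≤ B := by
    by_contra hn
    obtain ⟨d, d1, d2, d3⟩ := PGBasic.exists_layer (H := ⊤) (P := Q) (M := 𝓒(A)) (N := B)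
      ((isPi_of_isPGroup Nat.prime_two (w.pG.to_subgroup ⊤)).isNilpotent Nat.prime_two) le_top le_top
      (norm_of_normal _ _) hn
    have x1 := d3 u uQ
    have x2 : ⁅d, u⁆ ∉ A := fun h => d2 ((mB d).2 ⟨d1, h⟩)
    have x3 := inv d
    generalize ⁅d, u⁆ = x at x1 x2 x3
    obtain ⟨x4, x5⟩ := (mB x).1 x1
    have x6 : ⁅x, u⁆ = x ^ 2 := by
      calc ⁅x, u⁆ = x * (u * x * u⁻¹)⁻¹ := by rw [cel]; group
        _ = _ := by rw [x3, inv_inv, pow_two]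
    have x7 : ⁅x, u⁆ ∈ zpowers z := by
      refine YA _ (w.cenQ (mem_cent.2 fun q hq => mul_inv_eq_iff_eq_mul.1 ?_)) x5
      have y1 : q * x * q⁻¹ ∈ B := (mB _).2 ⟨(inferInstance : (𝓒(A)).Normal).conj_mem _ x4 q, by
        rw [← cj q hq]; exact c.nA.conj_mem _ x5 q⟩
      have y2 := div_mem_of_two rB x1 y1 x2 (fun h => x2 (by simpa [mul_assoc] using c.nA.conj_mem _ h q⁻¹))
      have y3 := mem_cent.1 x4 _ y2
      have y4 := c.s2 _ y2
      rw [x6]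
      calc q * x ^ 2 * q⁻¹ = x * (x⁻¹ * (q * x * q⁻¹) * x) * (x⁻¹ * (q * x * q⁻¹)) := by rw [pow_two]; group
        _ = x ^ 2 * (x⁻¹ * (q * x * q⁻¹)) ^ 2 := by rw [y3, pow_two, pow_two]; group
        _ = _ := by rw [y4, mul_one]
    rcases c.zcases x7 with y | y
    · exact x2 (CQ (mem_inf.2 ⟨x4, Cu ▸ mem_cent1.2 (cm_of_comm y)⟩))
    · obtain ⟨a, b1, b2⟩ := SetLike.not_le_iff_exists.1 (fun h' => h (le_cent1_iff.1 h') : ¬ A ≤ 𝓒₁(u))
      have b3 : ⁅a, u⁆ = z := (c.zcases (Au a b1)).resolve_left fun h => b2 (mem_cent1.2 (cm_of_comm h))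
      have b4 : ⁅a⁻¹ * x, u⁆ = 1 := mem_bot.1 (comm_div_mem (norm_of_normal _ ⊤ (mem_top _)) (by
        rw [← commutatorElement_inv a u, ← commutatorElement_inv x u, b3, y]; simp))
      have b5 := CQ (mem_inf.2 ⟨mul_mem (inv_mem (c.AC b1)) x4, Cu ▸ mem_cent1.2 (cm_of_comm b4)⟩)
      exact x2 (by simpa using mul_mem b1 b5)
  refine c.fin w.pG ((card_le_of_le' CB).trans cB) fun M _ m2 => ⟨u, ?_, ?_⟩
  · obtain ⟨f, -, e⟩ := w.img hu
    rw [e]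
    exact FusMw.cm (H := ⊤) (fun x _ => sq_mem_of_two m2 x) (mem_top f) (mem_top s)
  · rw [Cu, ← a3]
    exact card_le_of_le' (le_inf CQ inf_le_right)

omit c hz hu hu' in
theorem main : H7SR.SR 4 G := by
  haveI : Fact (Nat.Prime 2) := ⟨Nat.prime_two⟩
  by_cases h0 : E ⊓ 𝓒₁(s) ≤ center G
  · exact w.small h0
  by_cases h : ∀ A : Subgroup G, A.Normal → IsMulCommutative A → (∀ a ∈ A, a ^ 2 = 1) → Nat.card A ≤ 4
  · exact FusMw.macWilliams w.pG h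
  push_neg at h
  obtain ⟨B, nB, b1, b2, b3⟩ := h
  have hT : (⊤ : Subgroup G) ≠ ⊥ := ne_bot_of_mem (mem_top s) fun e => w.sE (e ▸ one_mem _)
  obtain ⟨z, -, z1, z2⟩ := PGBasic.exists_mem_center_orderOf w.pG hT
  have z3 : z ≠ 1 := fun e => by rw [e, orderOf_one] at z2; omega
  have z4 : z ^ 2 = 1 := z2 ▸ pow_orderOf_eq_one z
  have ZY : center G ≤ E ⊓ 𝓒₁(s) := (center_le_centralizer _).trans w.cenQ
  have h1 := PGBasic.card_mul_le_of_lt (w.pG.to_subgroup _) (lt_of_le_of_ne ZY fun e => h0 e.ge)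
  rw [w.cY] at h1
  have h2 : zpowers z = center G := eq_of_le_of_card_le (zpowers_le_of_mem z1) (by rw [card_z z3 z4]; omega)
  obtain ⟨W, A, c⟩ := exists_ch w.pG z3 z4 z1 h2.ge b1 b2 b3
  obtain ⟨u, u1, u2⟩ := SetLike.not_le_iff_exists.1 h0
  rw [← h2] at u2
  by_cases h3 : u ∈ 𝓒(A)
  · exact w.case1 c (ZY z1) u1 u2 h3
  · exact w.case2 c (ZY z1) u1 u2 h3

end Wr

theorem wr (hG : IsPGroup 2 G) {Q E : Subgroup G} (hEQ : E ≤ Q) (hE : IsElementaryAbelian 2 E) (h16 : ♯E = 16)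
    (h32 : ♯Q = 32) {s : G} (sQ : s ∈ Q) (sE : s ∉ E) (hs : orderOf s = 2) (hY : ♯(E ⊓ 𝓒₁(s) : Subgroup G) = 4)
    (hC : 𝓒((center Q).map Q.subtype) = Q) : H7SR.SR 4 G := by
  have h2 : E.relIndex Q = 2 := by
    have := card_mul_relIndex hEQ
    rw [h16, h32] at this; omega
  have h3 : (center Q).map Q.subtype ≤ E ⊓ 𝓒₁(s) := by
    rintro _ ⟨x, hx, rfl⟩
    have h4 : ∀ y ∈ Q, y * x = x * y := fun y hy => congrArg Subtype.val (mem_center_iff.1 hx ⟨y, hy⟩)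
    refine mem_inf.2 ⟨?_, mem_cent1.2 (h4 s sQ).symm⟩
    by_contra h
    have h5 := div_mem_of_two h2.le x.2 sQ h sE
    have h6 : E ≤ 𝓒₁(s) := fun f hf => mem_cent1.2 (by
      have h7 := PGBasic.isMulCommutative_iff.1 hE.1 f hf _ h5
      calc f * s = x * ((x : G)⁻¹ * (f * x) * (x : G)⁻¹ * s) := by group
        _ = x * (f * ((x : G)⁻¹ * s)) := by rw [h4 f (hEQ hf)]; group
        _ = _ := by rw [h7]; group)
    rw [inf_eq_left.2 h6, h16] at hY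
    omega
  exact Wr.main ⟨hG, hEQ, hE.1, hE.2, h16, h32, sQ, sE, hs ▸ pow_orderOf_eq_one s, hY, (cent_anti h3).trans hC.le⟩

end CA.H14Sr
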