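import Mathlib

/-! `-1` is a sum of three squares in any field of characteristic `0` containing `√5` and a primitive `p`-th root
of unity, `p ≥ 7` prime (Dirichlet + Gauss' identity `4Φ_ℓ = A² + ℓB²`). -/

set_option autoImplicit false
open Finset Polynomial

namespace CA.H19Div

variable {K : Type*} [Field K] [CharZero K]

theorem two_sq {s : K} (hs : s ^ 2 = 5) (n : ℕ) (hn : 0 < n) (h : ∃ x : ℤ, (n : ℤ) ∣ x ^ 2 + 5) :
    ∃ a b : K, a ^ 2 + b ^ 2 = n := by
  induction n using Nat.strong_induction_on with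
  | _ n ih =>
    by_cases h3 : n < 3
    · obtain rfl | rfl : n = 1 ∨ n = 2 := by omega
      · exact ⟨1, 0, by norm_num⟩
      · exact ⟨1, 1, by norm_num⟩
    obtain ⟨x, hx⟩ := h
    obtain ⟨y, h1, h2, hy⟩ : ∃ y : ℤ, -(n : ℤ) ≤ 2 * y ∧ 2 * y ≤ n ∧ (n : ℤ) ∣ y ^ 2 + 5 := by
      refine ⟨Int.bmod x n, ?_, ?_, ?_⟩
      · have := Int.le_bmod (x := x) hn; omega
      · have := Int.bmod_lt (x := x) hn; omega
      · have e : (n : ℤ) ∣ x - Int.bmod x n := Int.dvd_self_sub_bmod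
        have : (Int.bmod x n) ^ 2 + 5 = x ^ 2 + 5 - (x - Int.bmod x n) * (x + Int.bmod x n) := by ring
        rw [this]
        exact dvd_sub hx (e.mul_right _)
    obtain ⟨m, hm⟩ := hy
    have hn' : (3 : ℤ) ≤ n := by omega
    have hm0 : 0 < m := by nlinarith [sq_nonneg y]
    have hmn : m < n := by nlinarith
    lift m to ℕ using hm0.le
    obtain ⟨c, d, e⟩ := ih m (by exact_mod_cast hmn) (by exact_mod_cast hm0) ⟨y, hm ▸ dvd_mul_left _ _⟩
    have hmK : (m : K) ≠ 0 := by exact_mod_cast hm0.ne'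
    have hK : (y : K) ^ 2 + 5 = n * m := by exact_mod_cast congrArg (Int.cast : ℤ → K) hm
    refine ⟨(y * c - s * d) / m, (y * d + s * c) / m, ?_⟩
    field_simp
    linear_combination ((y : K) ^ 2 + s ^ 2) * e + m * hK + m * hs

theorem gauss' (l : ℕ) [Fact l.Prime] (hl : l % 4 = 3) (z : K) {E : Type*} [Field E] [Algebra K E]
    [IsGalois K E] [FiniteDimensional K E] {η : E} (hη : IsPrimitiveRoot η l) :
    ∃ A B : K, (z - 1) * (A ^ 2 + l * B ^ 2) = 4 * (z ^ l - 1) := by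
  classical
  have hp : l.Prime := Fact.out
  haveI : CharZero E := charZero_of_injective_algebraMap (algebraMap K E).injective
  let ψ := AddChar.zmodChar l ((IsPrimitiveRoot.iff_def η l).mp hη).left
  have hψ : ψ.IsPrimitive := AddChar.zmodChar_primitive_of_primitive_root l hη
  have h2 : ringChar (ZMod l) ≠ 2 := by rw [ZMod.ringChar_zmod_n]; omega
  let χ0 := quadraticChar (ZMod l)
  let χ := χ0.ringHomComp (Int.castRingHom E)
  let g := gaussSum χ ψ
  have hg : g ^ 2 = -l := by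
    rw [gaussSum_sq ((MulChar.ringHomComp_ne_one_iff Int.cast_injective).2 (quadraticChar_ne_one h2))
      ((quadraticChar_isQuadratic _).comp _) hψ, MulChar.ringHomComp_apply, quadraticChar_neg_one h2,
      ZMod.card, ZMod.χ₄_nat_three_mod_four hl]
    simp
  have hg0 : g ≠ 0 := fun h => by
    rw [h] at hg
    exact hp.ne_zero (by exact_mod_cast (show (l : E) = 0 by linear_combination hg))
  let Z := algebraMap K E z
  let U : ℤ → E := fun ε => ∏ a ∈ univ.filter (fun a => χ0 a = ε), (Z - ψ a)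
  have hσ : ∀ σ : Gal(E/K), ∃ ε : ℤ, (ε = 1 ∨ ε = -1) ∧ σ g = ε * g ∧ ∀ δ, σ (U δ) = U (ε * δ) := fun σ => by
    obtain ⟨i, -, hi⟩ := hη.eq_pow_of_pow_eq_one (ξ := σ η) (by rw [← map_pow, hη.pow_eq_one, map_one])
    have e : ∀ a, σ (ψ a) = ψ ((i : ZMod l) * a) := fun a => by
      rw [AddChar.zmodChar_apply, map_pow, ← hi, ← AddChar.zmodChar_apply' hη.pow_eq_one,
        ← AddChar.map_nsmul_eq_pow, nsmul_eq_mul, ZMod.natCast_zmod_val, mul_comm]
    have hi0 : (i : ZMod l) ≠ 0 := fun h => by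
      have := e 1
      rw [h, zero_mul, AddChar.map_zero_eq_one, map_eq_one_iff _ σ.injective,
        hψ.zmod_char_eq_one_iff] at this
      exact one_ne_zero this
    have hd := quadraticChar_dichotomy hi0
    have hsq : χ0 i * χ0 i = 1 := by rcases hd with h | h <;> simp [χ0, h]
    refine ⟨χ0 i, hd, ?_, fun δ => ?_⟩
    · have h1 := gaussSum_mulShift χ ψ (Units.mk0 _ hi0)
      have h3 : σ g = gaussSum χ (ψ.mulShift (i : ZMod l)) := by
        simp [g, gaussSum, map_sum, χ, e]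
      have h4 : ((χ0 i : ℤ) : E) * (χ0 i : ℤ) = 1 := by exact_mod_cast congrArg (Int.cast : ℤ → E) hsq
      rw [h3, show g = _ from h1.symm, ← mul_assoc]
      simp [χ, h4]
    · simp only [U, map_prod, map_sub, e, Z, AlgEquiv.commutes]
      refine prod_bij (fun a _ => (i : ZMod l) * a) (fun a ha => ?_) (fun a _ b _ h => mul_left_cancel₀ hi0 h)
        (fun b hb => ⟨(i : ZMod l)⁻¹ * b, ?_, mul_inv_cancel_left₀ hi0 b⟩) (fun _ _ => rfl)
      · simp only [mem_filter, mem_univ, true_and] at ha ⊢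
        rw [map_mul, ha]
      · simp only [mem_filter, mem_univ, true_and] at hb ⊢
        have : χ0 i * χ0 ((i : ZMod l)⁻¹ * b) = χ0 b := by rw [← map_mul, mul_inv_cancel_left₀ hi0]
        linear_combination χ0 i * this + χ0 i * hb - (χ0 ((i : ZMod l)⁻¹ * b) - δ) * hsq
  obtain ⟨A, hA⟩ := (IsGalois.mem_range_algebraMap_iff_fixed (F := K) (U 1 + U (-1))).2 fun σ => by
    obtain ⟨ε, rfl | rfl, -, h⟩ := hσ σ <;> simp [h, add_comm]
  obtain ⟨B, hB⟩ := (IsGalois.mem_range_algebraMap_iff_fixed (F := K) ((U 1 - U (-1)) / g)).2 fun σ => by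
    obtain ⟨ε, rfl | rfl, h1, h⟩ := hσ σ
    · simp [h, h1]
    · rw [map_div₀, map_sub, h, h, h1]
      simp [div_neg, ← neg_div]
  have hprod : (Z - 1) * (U 1 * U (-1)) = Z ^ l - 1 := by
    have e1 := congrArg (eval Z) (X_pow_sub_C_eq_prod hη hp.pos (one_pow l))
    simp only [eval_sub, eval_pow, eval_X, eval_C, eval_prod, mul_one] at e1
    have e2 : ∏ i ∈ range l, (Z - η ^ i) = ∏ a : ZMod l, (Z - ψ a) :=
      prod_bij (fun i _ => (i : ZMod l)) (fun _ _ => mem_univ _)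
        (fun a ha b hb h => by
          rwa [ZMod.natCast_eq_natCast_iff', Nat.mod_eq_of_lt (mem_range.1 ha),
            Nat.mod_eq_of_lt (mem_range.1 hb)] at h)
        (fun b _ => ⟨b.val, mem_range.2 (ZMod.val_lt b), ZMod.natCast_zmod_val b⟩)
        (fun i _ => by rw [AddChar.zmodChar_apply'])
    rw [e1, e2, ← mul_prod_erase _ _ (mem_univ 0), AddChar.map_zero_eq_one,
      ← prod_filter_mul_prod_filter_not (univ.erase 0) (fun a => χ0 a = 1)]
    congr 2 <;> refine prod_congr ?_ fun _ _ => rfl <;> ext a <;> by_cases ha : a = 0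
    · simp [ha, MulChar.map_zero]
    · simp [ha]
    · simp [ha, MulChar.map_zero]
    · have : χ0 a = 1 ∨ χ0 a = -1 := quadraticChar_dichotomy ha
      rcases this with h | h <;> simp [ha, h]
  refine ⟨A, B, (algebraMap K E).injective ?_⟩
  simp only [map_mul, map_sub, map_add, map_pow, map_one, map_natCast, map_ofNat, hA, hB]
  rw [div_pow, hg, ← hprod]
  have : (l : E) ≠ 0 := by exact_mod_cast hp.ne_zero
  field_simp
  ring

theorem gauss (l : ℕ) [Fact l.Prime] (hl : l % 4 = 3) (z : K) :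
    ∃ A B : K, (z - 1) * (A ^ 2 + l * B ^ 2) = 4 * (z ^ l - 1) :=
  haveI := IsCyclotomicExtension.isGalois {l} K (CyclotomicField l K)
  haveI := IsCyclotomicExtension.finiteDimensional {l} K (CyclotomicField l K)
  gauss' l hl z (IsCyclotomicExtension.zeta_spec l K (CyclotomicField l K))

theorem nsq : ¬ IsSquare ((3 : ℕ) : ZMod 5) := by decide

theorem three_sq {s z : K} (hs : s ^ 2 = 5) {p : ℕ} (hp : p.Prime) (h30 : p.Coprime 30) (hz : z ^ p = 1)
    (hz1 : z ≠ 1) : ∃ a b c : K, 1 + a ^ 2 + b ^ 2 + c ^ 2 = 0 := by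
  have h20 : Nat.Coprime 20 p :=
    (Nat.Coprime.coprime_dvd_right (show 20 ∣ 30 ^ 2 by norm_num) (h30.pow_right 2)).symm
  obtain ⟨a, ha1, ha2⟩ := Nat.chineseRemainder h20 3 (p - 1)
  obtain ⟨l, -, hl, hla⟩ := Nat.forall_exists_prime_gt_and_modEq 0 (q := 20 * p) (a := a)
    (mul_ne_zero (by norm_num) hp.ne_zero) (Nat.Coprime.mul_right
      (by rw [Nat.Coprime, ha1.gcd_eq]; norm_num) (by
        rw [Nat.Coprime, ha2.gcd_eq]; exact (Nat.coprime_self_sub_left hp.pos).2 (by simp)))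
  have h1 : l % 20 = 3 := (hla.of_mul_right p).trans ha1
  have h2 : z ^ l = z ^ (p - 1) := pow_eq_pow_of_modEq ((hla.of_mul_left 20).trans ha2) hz
  haveI := Fact.mk hl
  haveI : Fact (Nat.Prime 5) := ⟨by norm_num⟩
  obtain ⟨e, f, hef⟩ := two_sq hs l hl.pos (by
    have c2 : ringChar (ZMod l) ≠ 2 := by rw [ZMod.ringChar_zmod_n]; omega
    have q5 : quadraticChar (ZMod l) ((5 : ℕ) : ZMod l) = -1 := by
      rw [quadraticChar_neg_one_iff_not_isSquare,
        ← ZMod.exists_sq_eq_prime_iff_of_mod_four_eq_one (p := 5) rfl (by omega),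
        ← ZMod.natCast_mod, show l % 5 = 3 by omega]
      exact nsq
    have n5 : ((5 : ℕ) : ZMod l) ≠ 0 := fun h => by rw [h] at q5; simp at q5
    obtain ⟨x, hx⟩ := (quadraticChar_one_iff_isSquare (a := -1 * ((5 : ℕ) : ZMod l)) (by simpa using n5)).1 (by
      rw [map_mul, q5, quadraticChar_neg_one c2, ZMod.card, ZMod.χ₄_nat_three_mod_four (by omega)]; rfl)
    refine ⟨x.val, (ZMod.intCast_zmod_eq_zero_iff_dvd _ _).1 ?_⟩
    push_cast at hx ⊢
    rw [ZMod.natCast_zmod_val]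
    linear_combination -hx)
  obtain ⟨A, B, hAB⟩ := gauss l (by omega) z
  obtain ⟨k, rfl⟩ := hp.odd_of_ne_two (by rintro rfl; norm_num at h30)
  have hz0 : z ≠ 0 := by rintro rfl; simp at hz
  rw [h2, Nat.add_sub_cancel] at hAB
  have h3 : A ^ 2 + l * B ^ 2 + 4 * (z ^ k) ^ 2 = 0 := by
    refine mul_left_cancel₀ (sub_ne_zero.2 hz1) ?_
    linear_combination hAB + 4 * hz
  refine ⟨A / (2 * z ^ k), e * B / (2 * z ^ k), f * B / (2 * z ^ k), ?_⟩
  field_simp
  linear_combination h3 + B ^ 2 * hef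

end CA.H19Div
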