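import Mathlib

/-! Computations in `SL₂(5)`. -/

set_option autoImplicit false
open Matrix MatrixGroups

namespace CA.H19Div

abbrev G5 := SL(2, ZMod 5)
def g : G5 := ⟨!![1, 1; 0, 1], by decide⟩
def i : G5 := ⟨!![0, 1; 4, 0], by decide⟩
def k : G5 := ⟨!![2, 0; 0, 3], by decide⟩
theorem F0 : i * i = -1 ∧ k * k = -1 ∧ k * i = -(i * k) ∧ g ^ 5 = 1 ∧ g ≠ 1 ∧ k * g = g ^ 4 * k ∧
    k * g ^ 4 = g * k ∧ (g * i) ^ 3 = 1 ∧ g * i ≠ 1 ∧ g * i * (g * i) = -(i * g ^ 4) ∧ (-(g ^ 4 * i)) ^ 3 = 1 ∧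
    -(g ^ 4 * i) ≠ 1 ∧ -(g ^ 4 * i) * -(g ^ 4 * i) = i * g ∧ (-1 : G5) * -1 = 1 ∧ (-1 : G5) ≠ 1 := by
  decide +kernel
theorem F1 : ∀ x : G5, x ^ 5 = 1 → x ≠ 1 → ∃ y, y * x = g * y ∨ y * x = g * g * y := by decide +kernel
theorem F2 : ∀ x : G5, x * x = -1 → (g * x) ^ 3 = 1 → ∃ e : Fin 5, x * g ^ e.1 = g ^ e.1 * i := by
  decide +kernel
theorem F3 : ∀ x : G5, x * g = g * x → x * i = i * x → x = 1 ∨ x = -1 := by decide +kernel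
theorem F4 : ∀ m : G5, m * g = g ^ 4 * m → ∃ e : Fin 5, ∃ n, n * g ^ e.1 = g ^ e.1 * i ∧ m * n = -(n * m) ∧
    ∀ x, x * m = -(m * x) → x = n ∨ x = -n ∨ x * m * n = 1 ∨ x * m * n = -1 := by decide +kernel

end CA.H19Div
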