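import Cfsg.Agent.Lib.Grp.H19Div
import Cfsg.Agent.Lib.Grp.H19Div2

/-! `SL₂(5) × C_p` (`p ≥ 7`) and `SL₂(5).2` do not embed in the unit group of a division ring. -/

set_option autoImplicit false
open Matrix MatrixGroups

namespace CA.H19Div

variable {D : Type*} [DivisionRing D]

theorem no_three {K : Type*} [CommRing K] (φ : K →+* D) {I J : D} (h2 : (2 : D) ≠ 0) (hI : I * I = -1)
    (hJ : J * J = -1) (hIJ : J * I = -(I * J)) (cI : ∀ a, I * φ a = φ a * I) (cJ : ∀ a, J * φ a = φ a * J)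
    {a b c : K} (h : 1 + a ^ 2 + b ^ 2 + c ^ 2 = 0) : False := by
  have l1 : ∀ a x, I * (φ a * x) = φ a * (I * x) := fun a x => by rw [← mul_assoc, cI, mul_assoc]
  have l2 : ∀ a x, J * (φ a * x) = φ a * (J * x) := fun a x => by rw [← mul_assoc, cJ, mul_assoc]
  have l3 : ∀ x, I * (I * x) = -x := fun x => by rw [← mul_assoc, hI, neg_one_mul]
  have l4 : ∀ x, J * (J * x) = -x := fun x => by rw [← mul_assoc, hJ, neg_one_mul]
  have l5 : ∀ x, J * (I * x) = -(I * (J * x)) := fun x => by rw [← mul_assoc, hIJ, neg_mul, mul_assoc]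
  have l6 : ∀ a b x, φ a * (φ b * x) = φ (a * b) * x := fun a b x => by rw [map_mul, mul_assoc]
  obtain ⟨y, hy⟩ : ∃ y, y = φ a * I + φ b * J + φ c * (I * J) := ⟨_, rfl⟩
  have e1 : y * y = 1 := by
    have : y * y = -(φ (a * a) + φ (b * b) + φ (c * c)) := by
      simp only [hy, mul_add, add_mul, mul_assoc, l1, l2, l3, l4, l5, l6, hI, hJ, hIJ, cI, cJ, ← map_mul, mul_neg, neg_mul, neg_neg, mul_one,
        mul_comm b a, mul_comm c a, mul_comm c b]
      abel
    rw [this, ← map_add, ← map_add, ← map_neg, show -(a * a + b * b + c * c) = 1 by linear_combination -h,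
      map_one]
  have e2 : y - I * y * I - J * y * J - I * J * y * (I * J) = 0 := by
    simp only [hy, mul_add, add_mul, mul_assoc, l1, l2, l3, l4, l5, l6, hI, hJ, hIJ, cI, cJ, mul_neg, neg_mul, neg_neg,
      mul_one]
    abel
  have h4 : (2 * 2 : D) ≠ 0 := mul_ne_zero h2 h2
  rcases mul_self_eq_one_iff.1 e1 with e | e <;>
    simp only [e, mul_assoc, l3, l4, l5, hI, hJ, mul_neg, neg_mul, neg_neg, mul_one, one_mul] at e2
  · exact h4 (by rw [← e2]; norm_num)
  · exact h4 (neg_eq_zero.1 (by rw [← e2]; norm_num))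

variable {F : G5 →* D}

theorem F_neg1 (hF : Function.Injective F) : F (-1) = -1 :=
  (mul_self_eq_one_iff.1 (by rw [← map_mul, F0.2.2.2.2.2.2.2.2.2.2.2.2.2.1, map_one])).resolve_left
    fun h => F0.2.2.2.2.2.2.2.2.2.2.2.2.2.2 (hF (h.trans (map_one F).symm))

theorem F_neg (hF : Function.Injective F) (x : G5) : F (-x) = -F x := by
  rw [← neg_one_mul x, map_mul, F_neg1 hF, neg_one_mul]

theorem F_ne (x : G5) : F x ≠ 0 := ((Group.isUnit x).map F).ne_zero

theorem two_ne (hF : Function.Injective F) : (2 : D) ≠ 0 := fun h =>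
  F0.2.2.2.2.2.2.2.2.2.2.2.2.2.2 (hF (by
    rw [F_neg1 hF, map_one, neg_eq_iff_add_eq_zero, one_add_one_eq_two, h]))

theorem no_three' (hF : Function.Injective F) {K : Type*} [CommRing K] (φ : K →+* D)
    (cI : ∀ a, F i * φ a = φ a * F i) (cJ : ∀ a, F k * φ a = φ a * F k)
    {a b c : K} (h : 1 + a ^ 2 + b ^ 2 + c ^ 2 = 0) : False :=
  no_three φ (two_ne hF) (by rw [← map_mul, F0.1, F_neg1 hF]) (by rw [← map_mul, F0.2.1, F_neg1 hF])
    (by rw [← map_mul, F0.2.2.1, F_neg hF, map_mul]) cI cJ h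

theorem char0 (hF : Function.Injective F) : CharZero D := by
  rcases CharP.char_is_prime_or_zero D (ringChar D) with h | h
  · haveI := Fact.mk h
    obtain ⟨a, b, e⟩ := ZMod.sq_add_sq (ringChar D) (-1)
    have c : ∀ (x : D) a, x * ZMod.castHom (dvd_refl (ringChar D)) D a = ZMod.castHom (dvd_refl _) D a * x :=
      fun x a => by rw [← ZMod.natCast_zmod_val a, map_natCast, Nat.cast_comm]
    exact (no_three' hF _ (c _) (c _) (a := a) (b := b) (c := 0) (by linear_combination e)).elim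
  · haveI : CharP D 0 := h ▸ ringChar.charP D
    exact CharP.charP_to_charZero D

theorem cube (hF : Function.Injective F) {x : G5} (h : x ^ 3 = 1) (h1 : x ≠ 1) : F (x * x) + F x + 1 = 0 := by
  have : F x - 1 ≠ 0 := sub_ne_zero.2 fun e => h1 (hF (e.trans (map_one F).symm))
  refine mul_left_cancel₀ this ?_
  have e : F x ^ 3 = 1 := by rw [← map_pow, h, map_one]
  rw [map_mul, mul_zero, ← sub_eq_zero.2 e]
  noncomm_ring

theorem five (hF : Function.Injective F) : 1 + F g + F g ^ 2 + F g ^ 3 + F g ^ 4 = 0 := by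
  have : F g - 1 ≠ 0 := sub_ne_zero.2 fun e => F0.2.2.2.2.1 (hF (e.trans (map_one F).symm))
  refine mul_left_cancel₀ this ?_
  have e : F g ^ 5 = 1 := by rw [← map_pow, F0.2.2.2.1, map_one]
  rw [mul_zero, ← sub_eq_zero.2 e]
  noncomm_ring

variable (F) in
def s5 : D := F g + F g ^ 4 - F g ^ 2 - F g ^ 3

theorem s5_eq (hF : Function.Injective F) : s5 F = (F g + F g ^ 4) + (F g + F g ^ 4) + 1 := by
  rw [s5, ← sub_eq_zero, ← neg_eq_zero, ← five hF]; abel

theorem s5_sq (hF : Function.Injective F) : s5 F * s5 F = 5 := by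
  have e : F g ^ 5 = 1 := by rw [← map_pow, F0.2.2.2.1, map_one]
  have : s5 F * s5 F = 1 + 1 + 1 + 1 + 1 + (F g ^ 3 - F g ^ 2 - F g ^ 2 - F g + 1 + 1 + 1 + 1) * (F g ^ 5 - 1) -
      (1 + F g + F g ^ 2 + F g ^ 3 + F g ^ 4) := by
    rw [s5]; noncomm_ring
  rw [this, five hF, e]; norm_num

theorem s5_g : Commute (s5 F) (F g) := by rw [Commute, SemiconjBy, s5]; noncomm_ring

theorem s5_k (hF : Function.Injective F) : F k * s5 F = s5 F * F k := by
  have e1 := congrArg F F0.2.2.2.2.2.1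
  have e2 := congrArg F F0.2.2.2.2.2.2.1
  simp only [map_mul, map_pow] at e1 e2
  simp only [s5_eq hF, mul_add, add_mul, e1, e2, mul_one, one_mul]
  abel

theorem s5_i (hF : Function.Injective F) : F i * s5 F = s5 F * F i := by
  obtain ⟨-, -, -, -, -, -, -, a1, a2, a3, a4, a5, a6, -⟩ := F0
  have e1 := cube hF a1 a2
  have e2 := cube hF a4 a5
  rw [a3] at e1
  rw [a6] at e2
  simp only [F_neg hF, map_mul, map_pow] at e1 e2
  have : F i * (F g + F g ^ 4) = (F g + F g ^ 4) * F i := by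
    rw [mul_add, add_mul, ← sub_eq_zero, ← sub_zero (0 : D)]
    nth_rw 1 [← e2, ← e1]
    abel
  rw [s5_eq hF, mul_add, mul_add, this, add_mul _ 1, add_mul (F g + F g ^ 4), mul_one, one_mul]

theorem stepA (hF : Function.Injective F) {z : D} {p : ℕ} (hp : p.Prime) (h30 : p.Coprime 30) (hz : z ^ p = 1)
    (hz1 : z ≠ 1) (hc : ∀ x, F x * z = z * F x) : False := by
  haveI := char0 hF
  have hs : s5 F * z = z * s5 F := by
    have : Commute (F g) z := hc g
    exact (((this.add_left (this.pow_left 4)).sub_left (this.pow_left 2)).sub_left (this.pow_left 3)).eq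
  let C : Subfield D := { Subring.centralizer ({s5 F, z, F i, F k} : Set D) with
    inv_mem' := fun x hx => Set.inv_mem_centralizer₀ hx }
  have hC : ∀ x, x ∈ C ↔ s5 F * x = x * s5 F ∧ z * x = x * z ∧ F i * x = x * F i ∧ F k * x = x * F k :=
    fun x => by
      show x ∈ Subring.centralizer _ ↔ _
      simp [Subring.mem_centralizer_iff]
  let φ : Subring.center C →+* D := C.subtype.comp (Subring.center C).subtype
  have hφ : Function.Injective φ := Subtype.val_injective.comp Subtype.val_injective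
  haveI : CharZero (Subring.center C) := RingHom.charZero φ
  let S : Subring.center C := ⟨⟨s5 F, (hC _).2 ⟨rfl, hs.symm, s5_i hF, s5_k hF⟩⟩,
    Subring.mem_center_iff.2 fun x => Subtype.ext ((hC _).1 x.2).1.symm⟩
  let Z : Subring.center C := ⟨⟨z, (hC _).2 ⟨hs, rfl, hc _, hc _⟩⟩,
    Subring.mem_center_iff.2 fun x => Subtype.ext ((hC _).1 x.2).2.1.symm⟩
  obtain ⟨a, b, c, h⟩ := three_sq (s := S) (z := Z) (hφ (by rw [map_pow, map_ofNat, sq]; exact s5_sq hF)) hp h30
    (hφ (by rw [map_pow, map_one]; exact hz)) (fun h => hz1 (congrArg φ h))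
  exact no_three' hF φ (fun a => ((hC _).1 a.1.2).2.2.1) (fun a => ((hC _).1 a.1.2).2.2.2) h

variable {Γ : Type*} [Group Γ] {f : Γ →* D} {ψ : G5 →* Γ}

theorem stepB (hf : Function.Injective f) (hψ : Function.Injective ψ) (h2 : ψ.range.index = 2) : False := by
  have hF : Function.Injective (f.comp ψ) := hf.comp hψ
  set F := f.comp ψ with hFd
  haveI := char0 hF
  have hN := Subgroup.normal_of_index_eq_two h2
  have key : ∀ t, t ∉ ψ.range → f t ≠ 0 ∧ (∀ x, f t ≠ F x) ∧ (∃ m, f t * f t = F m) ∧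
      ∃ α : G5 →* G5, (∀ x, F (α x) * f t = f t * F x) ∧ ∀ x, α (-x) = -α x := fun t ht => by
    have h0 : f t ≠ 0 := ((Group.isUnit t).map f).ne_zero
    obtain ⟨m, hm⟩ := Subgroup.mul_self_mem_of_index_two h2 t
    let α : G5 →* G5 := (MonoidHom.ofInjective hψ).symm.toMonoidHom.comp
      (((MulAut.conj t).toMonoidHom.comp ψ).codRestrict ψ.range fun x => hN.conj_mem _ ⟨x, rfl⟩ t)
    have hα : ∀ x, F (α x) * f t = f t * F x := fun x => by
      have : ψ (α x) = t * ψ x * t⁻¹ := MonoidHom.apply_ofInjective_symm hψ _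
      show f (ψ (α x)) * f t = f t * f (ψ x)
      rw [this, ← map_mul, ← map_mul, inv_mul_cancel_right]
    refine ⟨h0, fun x e => ht ⟨x, (hf e).symm⟩, ⟨m, by rw [← map_mul, ← hm]; rfl⟩, α, hα, fun x =>
      hF (mul_right_cancel₀ h0 ?_)⟩
    rw [hα, F_neg hF, F_neg hF, neg_mul, hα, mul_neg]
  have mod : ∀ t, t ∉ ψ.range → ∀ y, ψ y * t ∉ ψ.range := fun t ht y h =>
    ht ((ψ.range.mul_mem_cancel_left ⟨y, rfl⟩).1 h)
  obtain ⟨t0, ht0⟩ : ∃ t, t ∉ ψ.range := by
    by_contra! h
    rw [(Subgroup.eq_top_iff' _).2 h, Subgroup.index_top] at h2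
    omega
  obtain ⟨h00, -, -, α0, hα0, -⟩ := key t0 ht0
  obtain ⟨y, hy⟩ := F1 (α0 g) (by rw [← map_pow, F0.2.2.2.1, map_one]) fun h => F0.2.2.2.2.1 (hF
    (mul_left_cancel₀ h00 (by rw [← hα0, h, map_one, one_mul, mul_one])))
  have ht := mod t0 ht0 y
  have hT : ∀ u, y * α0 g = u * y → f (ψ y * t0) * F g = F u * f (ψ y * t0) := fun u hu => by
    rw [map_mul, mul_assoc, ← hα0, ← mul_assoc, ← mul_assoc]
    exact congrArg (· * f t0) (show F y * F (α0 g) = F u * F y by rw [← map_mul, hu, map_mul])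
  generalize ψ y * t0 = t at ht hT
  obtain ⟨h0, -, ⟨m, hm⟩, α, hα, hn⟩ := key t ht
  rcases hy with hy | hy
  · have hg : α g = g := hF (mul_right_cancel₀ h0 (by rw [hα, hT _ hy]))
    obtain ⟨e, he⟩ := F2 (α i) (by rw [← map_mul, F0.1, hn, map_one])
      (by rw [← hg, ← map_mul, ← map_pow, F0.2.2.2.2.2.2.2.1, map_one])
    obtain ⟨-, h1, ⟨m, hm⟩, -⟩ := key _ (mod t ht (g ^ e.1)⁻¹)
    have hC : F (g ^ e.1) * f (ψ (g ^ e.1)⁻¹ * t) = f t := by
      rw [hFd, MonoidHom.comp_apply, ← map_mul, ← mul_assoc, ← map_mul, mul_inv_cancel, map_one, one_mul]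
    generalize f (ψ (g ^ e.1)⁻¹ * t) = C at h1 hm hC
    have cI : Commute C (F i) := mul_left_cancel₀ (F_ne (F := F) (g ^ e.1)) (by
      rw [← mul_assoc, hC, ← hα, ← mul_assoc, ← map_mul, ← he, map_mul, mul_assoc, hC])
    have cG : Commute C (F g) := mul_left_cancel₀ (F_ne (F := F) (g ^ e.1)) (by
      rw [← mul_assoc, hC, ← hα, hg, ← mul_assoc, ← map_mul, ← pow_succ, pow_succ', map_mul, mul_assoc, hC])
    rcases F3 m (hF (by rw [map_mul, map_mul, ← hm]; exact (cG.mul_left cG).eq))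
      (hF (by rw [map_mul, map_mul, ← hm]; exact (cI.mul_left cI).eq)) with rfl | rfl
    · rcases mul_self_eq_one_iff.1 (hm.trans (map_one F)) with h | h
      · exact h1 1 (h.trans (map_one F).symm)
      · exact h1 (-1) (h.trans (F_neg1 hF).symm)
    · rcases cI.mul_self_eq_mul_self_iff.1 (by rw [hm, ← map_mul, F0.1]) with h | h
      · exact h1 _ h
      · exact h1 (-i) (h.trans (F_neg hF i).symm)
  · have hg : α g = g * g := hF (mul_right_cancel₀ h0 (by rw [hα, hT _ hy]))
    have hαm : α m = m := hF (mul_right_cancel₀ h0 (by rw [hα, ← hm, mul_assoc]))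
    obtain ⟨e, n, h1, h3, h4⟩ := F4 m (hF (by
      rw [map_mul, map_mul, ← hm, mul_assoc, ← hα, ← mul_assoc, ← hα, hg, map_mul α, hg, mul_assoc,
        show g * g * (g * g) = g ^ 4 by decide +kernel]))
    have nc : F m * F n ≠ F n * F m := fun h => by
      have h5 := congrArg F h3
      rw [F_neg hF, map_mul, map_mul, h, eq_neg_iff_add_eq_zero, ← two_mul] at h5
      exact mul_ne_zero (two_ne hF) (mul_ne_zero (F_ne _) (F_ne _)) h5
    have e5 : F g ^ 5 = 1 := by rw [← map_pow, F0.2.2.2.1, map_one]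
    have hTs : f t * s5 F = -(s5 F * f t) := by
      have : ∀ j : ℕ, f t * F g ^ j = F g ^ (2 * j) * f t := fun j => by
        rw [← map_pow, ← hα, map_pow, hg, ← sq, ← pow_mul, map_pow]
      have a1 := this 1
      rw [pow_one] at a1
      simp only [s5, mul_add, mul_sub, add_mul, sub_mul, this, a1]
      rw [show F g ^ (2 * 4) = F g ^ 3 * F g ^ 5 by rw [← pow_add], show F g ^ (2 * 3) = F g * F g ^ 5 by
        rw [← pow_succ'], e5]
      simp only [mul_one]
      abel
    have hns : F n * s5 F = s5 F * F n := mul_right_cancel₀ (F_ne (F := F) (g ^ e.1)) (by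
      have c := (s5_g (F := F)).pow_right e.1
      rw [← map_pow] at c
      rw [mul_assoc, c.eq, ← mul_assoc, ← map_mul, h1, map_mul, mul_assoc, s5_i hF, mul_assoc, ← map_mul F n, h1,
        map_mul, ← mul_assoc, ← mul_assoc, c.eq])
    have hU : f t * F n * s5 F = -(s5 F * (f t * F n)) := by
      rw [mul_assoc, hns, ← mul_assoc, hTs, neg_mul, mul_assoc]
    have hUU : f t * F n * (f t * F n) = F (α n * m * n) := by
      rw [← hα, map_mul, map_mul, ← hm, hα]; simp only [mul_assoc, ← hα n]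
    have hU0 : f t * F n ≠ 0 := mul_ne_zero h0 (F_ne _)
    generalize f t * F n = U at hU hUU hU0
    have fin : U * s5 F ≠ s5 F * U := fun h => by
      rw [h, eq_neg_iff_add_eq_zero, ← two_mul] at hU
      have hs0 : s5 F ≠ 0 := fun h0 => by
        have := s5_sq hF
        rw [h0, zero_mul] at this
        norm_num at this
      exact mul_ne_zero (two_ne hF) (mul_ne_zero hs0 hU0) hU
    rcases h4 (α n) (by
      have := congrArg α h3
      rw [hn, map_mul, map_mul, hαm] at this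
      rw [this, neg_neg]) with h | h | h | h
    · exact nc (by rw [← hm, mul_assoc, ← hα, h, ← mul_assoc, ← hα, h, mul_assoc])
    · exact nc (by rw [← hm, mul_assoc, ← hα, h, F_neg hF, neg_mul, mul_neg, ← mul_assoc, ← hα, h, F_neg hF,
        neg_mul, neg_mul, neg_neg, mul_assoc])
    · rcases mul_self_eq_one_iff.1 (hUU.trans (by rw [h, map_one])) with h | h <;> exact fin (by simp [h])
    · rw [h, F_neg1 hF] at hUU
      have : (s5 F + (U + U)) * (s5 F + (U + U)) = 1 := by
        simp only [mul_add, add_mul, hU, hUU, s5_sq hF]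
        rw [show (5 : D) = 1 + 1 + 1 + 1 + 1 by norm_num]
        abel
      have c : U * (s5 F + (U + U)) = (s5 F + (U + U)) * U := by
        rcases mul_self_eq_one_iff.1 this with h | h <;> simp [h]
      rw [mul_add, add_mul, mul_add, add_mul] at c
      exact fin (add_right_cancel c)

end CA.H19Div
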