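import Cfsg.Agent.Lib.Grp.H1Nil
import Cfsg.Prelude.Def_SolvableStructure
import Mathlib.Algebra.BigOperators.Associated

/-! Complement systems, Sylow systems, system normalisers and Carter subgroups. -/

set_option autoImplicit false
set_option linter.unusedSectionVars false
open Pointwise Cfsg

namespace CA.H1Carter
open CA.H1Basic CA.H1SZ CA.H1Hall CA.H1Prod CA.H1Nil

universe u
variable {G : Type u} [Group G]

/-! ### complement systems -/

theorem mem_sysNorm {K : Nat.Primes → Subgroup G} {g : G} :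
    g ∈ systemNormalizer K ↔ ∀ p, g ∈ Subgroup.normalizer (K p : Set G) := Subgroup.mem_iInf

theorem sysNorm_le (K : Nat.Primes → Subgroup G) (p : Nat.Primes) :
    systemNormalizer K ≤ Subgroup.normalizer (K p : Set G) := fun _ h => mem_sysNorm.mp h p

theorem exists_system [Finite G] [Group.IsSolvable G] :
    ∃ K : Nat.Primes → Subgroup G, IsComplementSystem K := by
  choose K hK using fun p : Nat.Primes => exists_complement (G := G) p.2
  exact ⟨K, hK⟩

section
variable [Finite G] {K : Nat.Primes → Subgroup G} (hK : IsComplementSystem K)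
include hK

theorem sys_index (p : Nat.Primes) : (K p).index = (p : ℕ) ^ (Nat.card G).factorization p := hK p

theorem sys_not_dvd (p : Nat.Primes) : ¬ (p : ℕ) ∣ Nat.card (K p) :=
  not_dvd_card_of_index_eq p.2 (hK p)

theorem sys_coprime (p : Nat.Primes) : (Nat.card (K p)).Coprime (K p).index :=
  coprime_of_index_eq p.2 (hK p)

theorem sys_eq_top {p : Nat.Primes} (h : ¬ (p : ℕ) ∣ Nat.card G) : K p = ⊤ := by
  rw [← Subgroup.index_eq_one, hK p, Nat.factorization_eq_zero_of_not_dvd h, pow_zero]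

theorem sys_map (N : Subgroup G) [N.Normal] :
    IsComplementSystem (fun p => (K p).map (QuotientGroup.mk' N)) := fun p =>
  index_eq_pow_factorization p.2
    (hK p ▸ (K p).index_map_dvd (QuotientGroup.mk'_surjective N))
    (fun h => sys_not_dvd hK p (h.trans (Subgroup.card_map_dvd _ _)))

theorem sys_conj (g : G) : IsComplementSystem (fun p => MulAut.conj g • K p) := fun p => by
  rw [index_smul]; exact hK p

/-- a normal subgroup of order prime to `p` lies in the `p`-complement -/
theorem normal_le_sys {p : Nat.Primes} {A : Subgroup G} [A.Normal] (h : ¬ (p : ℕ) ∣ Nat.card A) :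
    A ≤ K p :=
  normal_le_of_coprime_index (by
    rw [hK p]; exact Nat.Coprime.pow_right _ ((Nat.Prime.coprime_iff_not_dvd p.2).mpr h).symm)

theorem sys_relIndex_normal (p : Nat.Primes) (N : Subgroup G) [N.Normal] :
    ∃ j, (K p).relIndex N = (p : ℕ) ^ j := by
  obtain ⟨j, -, hj⟩ := (Nat.dvd_prime_pow p.2).mp (hK p ▸ relIndex_normal_dvd_index (K p) N)
  exact ⟨j, hj⟩

end

/-- the primes dividing `|G|`, as a finset of `Nat.Primes` -/
noncomputable def primesOf (G : Type u) [Group G] : Finset Nat.Primes :=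
  (Nat.card G).primeFactors.subtype Nat.Prime

theorem mem_primesOf [Finite G] {p : Nat.Primes} : p ∈ primesOf G ↔ (p : ℕ) ∣ Nat.card G := by
  refine (Finset.mem_subtype (p := Nat.Prime) (a := p)).trans ?_
  rw [Nat.mem_primeFactors]
  exact ⟨fun h => h.2.1, fun h => ⟨p.2, h, Nat.card_pos.ne'⟩⟩

theorem primes_coprime_pow {p q : Nat.Primes} (h : p ≠ q) (a b : ℕ) :
    ((p : ℕ) ^ a).Coprime ((q : ℕ) ^ b) :=
  Nat.coprime_pow_primes a b p.2 q.2 fun e => h (Subtype.ext e)

/-- simultaneous conjugation of a complement system by an element of a normal subgroup -/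
theorem sys_simul_conj [Finite G] {K L : Nat.Primes → Subgroup G} (hK : IsComplementSystem K)
    (N : Subgroup G) [N.Normal] (h : ∀ p, ∃ n ∈ N, MulAut.conj n • K p = L p) :
    ∃ n ∈ N, ∀ p, MulAut.conj n • K p = L p := by
  obtain ⟨n, hn, hn'⟩ := exists_simul_conj N K (primesOf G) (fun p _ q _ hpq => by
    obtain ⟨a, ha⟩ := sys_relIndex_normal hK p N
    obtain ⟨b, hb⟩ := sys_relIndex_normal hK q N
    exact ((primes_coprime_pow hpq a b).coprime_dvd_left
      (ha ▸ Subgroup.relIndex_dvd_of_le_left N Subgroup.le_normalizer)).coprime_dvd_right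
      (hb ▸ Subgroup.relIndex_dvd_of_le_left N Subgroup.le_normalizer)) L (fun p _ => h p)
  refine ⟨n, hn, fun p => ?_⟩
  by_cases hp : p ∈ primesOf G
  · exact hn' p hp
  · obtain ⟨m, -, hm⟩ := h p
    rw [← hm, sys_eq_top hK (mt mem_primesOf.mpr hp), Subgroup.Normal.conj_smul_eq_self,
      Subgroup.Normal.conj_smul_eq_self]

theorem sys_conj_eq [Finite G] [Group.IsSolvable G] {K L : Nat.Primes → Subgroup G}
    (hK : IsComplementSystem K) (hL : IsComplementSystem L) :
    ∃ g : G, ∀ p, MulAut.conj g • K p = L p := by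
  obtain ⟨g, -, hg⟩ := sys_simul_conj (L := L) hK ⊤ fun p => by
    obtain ⟨g, hg⟩ := conj_eq_hall (K p) (L p) (sys_coprime hK p)
      (card_eq_of_index_eq ((hK p).trans (hL p).symm))
    exact ⟨g, trivial, hg⟩
  exact ⟨g, hg⟩

theorem sysNorm_conj (K : Nat.Primes → Subgroup G) (g : G) :
    systemNormalizer (fun p => MulAut.conj g • K p) = MulAut.conj g • systemNormalizer K := by
  ext x
  rw [mem_conj_smul, mem_sysNorm, mem_sysNorm]
  refine forall_congr' fun p => ?_
  rw [normalizer_conj_smul, mem_conj_smul]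

theorem mem_normalizer_map_mk {N X : Subgroup G} [N.Normal] {g : G} :
    (g : G ⧸ N) ∈ Subgroup.normalizer ((X.map (QuotientGroup.mk' N) : Subgroup (G ⧸ N)) : Set _) ↔
      g ∈ Subgroup.normalizer ((X ⊔ N : Subgroup G) : Set G) := by
  have h1 := Subgroup.comap_normalizer_eq_of_surjective (X.map (QuotientGroup.mk' N))
    (QuotientGroup.mk'_surjective N)
  rw [Subgroup.comap_map_eq, QuotientGroup.ker_mk'] at h1
  rw [← h1]; rfl

theorem sysNorm_map [Finite G] [Group.IsSolvable G] {K : Nat.Primes → Subgroup G}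
    (hK : IsComplementSystem K) (N : Subgroup G) [N.Normal] :
    systemNormalizer (fun p => (K p).map (QuotientGroup.mk' N)) =
      (systemNormalizer K).map (QuotientGroup.mk' N) := by
  apply le_antisymm
  · intro x hx
    obtain ⟨g, rfl⟩ := QuotientGroup.mk_surjective x
    obtain ⟨n, hn, hn'⟩ := sys_simul_conj (L := fun p => MulAut.conj g • K p) hK N fun p => by
      have h1 := mem_normalizer_map_mk.mp (mem_sysNorm.mp hx p)
      rw [← conj_smul_eq_iff_mem_normalizer] at h1
      obtain ⟨y, hy, h⟩ := conj_eq_hall_in (K p ⊔ N) (H := K p) (K := MulAut.conj g • K p)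
        le_sup_left (h1 ▸ Subgroup.pointwise_smul_le_pointwise_smul_iff.mpr le_sup_left)
        ((sys_coprime hK p).coprime_dvd_right (Subgroup.relIndex_dvd_index_of_le le_sup_left))
        (card_smul _ _).symm
      rw [sup_comm] at hy
      obtain ⟨a, ha, b, hb, rfl⟩ := Subgroup.mem_sup_of_normal_left.mp hy
      exact ⟨a, ha, by rw [← h, conj_mul_smul, Subgroup.conj_smul_eq_self_of_mem hb]⟩
    refine ⟨n⁻¹ * g, mem_sysNorm.mpr fun p => ?_, ?_⟩
    · rw [← conj_smul_eq_iff_mem_normalizer, conj_mul_smul, ← hn' p, conj_inv_smul_smul]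
    · rw [map_mul, map_inv, QuotientGroup.mk'_apply, (QuotientGroup.eq_one_iff n).mpr hn]
      simp
  · rintro _ ⟨g, hg, rfl⟩
    exact mem_sysNorm.mpr fun p => Subgroup.le_normalizer_map _ ⟨g, mem_sysNorm.mp hg p, rfl⟩

/-! ### Sylow systems -/

/-- the intersection of the `q`-complements for `q ∉ T` -/
noncomputable def hallOf (K : Nat.Primes → Subgroup G) (T : Set ℕ) : Subgroup G :=
  ⨅ q : Nat.Primes, ⨅ _ : (q : ℕ) ∉ T, K q

theorem mem_hallOf {K : Nat.Primes → Subgroup G} {T : Set ℕ} {g : G} :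
    g ∈ hallOf K T ↔ ∀ q : Nat.Primes, (q : ℕ) ∉ T → g ∈ K q := by
  change g ∈ ⨅ q : Nat.Primes, ⨅ _ : (q : ℕ) ∉ T, K q ↔ _
  simp only [Subgroup.mem_iInf]

theorem hallOf_le (K : Nat.Primes → Subgroup G) {T : Set ℕ} {q : Nat.Primes} (h : (q : ℕ) ∉ T) :
    hallOf K T ≤ K q := fun _ hg => mem_hallOf.mp hg q h

theorem hallOf_mono (K : Nat.Primes → Subgroup G) {S T : Set ℕ} (h : S ⊆ T) :
    hallOf K S ≤ hallOf K T := fun _ hg => mem_hallOf.mpr fun q hq =>
  mem_hallOf.mp hg q fun h' => hq (h h')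

theorem sysNorm_le_normalizer_hallOf (K : Nat.Primes → Subgroup G) (T : Set ℕ) :
    systemNormalizer K ≤ Subgroup.normalizer (hallOf K T : Set G) := by
  intro g hg
  rw [Subgroup.mem_normalizer_iff]
  intro x
  rw [mem_hallOf, mem_hallOf]
  exact forall₂_congr fun q _ => Subgroup.mem_normalizer_iff.mp (mem_sysNorm.mp hg q) x

theorem hallOf_hall [Finite G] {K : Nat.Primes → Subgroup G} (hK : IsComplementSystem K)
    (T : Set ℕ) : (∀ p : ℕ, p.Prime → p ∣ Nat.card (hallOf K T) → p ∈ T) ∧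
      ∀ p : ℕ, p.Prime → p ∈ T → ¬ p ∣ (hallOf K T).index := by
  classical
  constructor
  · intro p hp hd
    by_contra hT
    exact sys_not_dvd hK ⟨p, hp⟩ (hd.trans (Subgroup.card_dvd_of_le (hallOf_le K hT)))
  · intro p hp hT hd
    have h1 : hallOf K T = ⨅ q ∈ (primesOf G).filter (fun q : Nat.Primes => (q : ℕ) ∉ T), K q := by
      ext g
      rw [mem_hallOf]
      simp only [Subgroup.mem_iInf, Finset.mem_filter]
      refine ⟨fun h q hq => h q hq.2, fun h q hq => ?_⟩
      by_cases hq' : q ∈ primesOf G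
      · exact h q ⟨hq', hq⟩
      · rw [sys_eq_top hK (mt mem_primesOf.mpr hq')]; trivial
    rw [h1, index_biInf_of_coprime _ _ (fun a _ b _ hab => by
      rw [hK a, hK b]; exact primes_coprime_pow hab _ _)] at hd
    obtain ⟨q, hq, hd⟩ := (Prime.dvd_finsetProd_iff hp.prime _).mp hd
    rw [hK q] at hd
    have := (Nat.prime_dvd_prime_iff_eq hp q.2).mp (hp.dvd_of_dvd_pow hd)
    exact (Finset.mem_filter.mp hq).2 (this ▸ hT)

theorem isPGroup_hallOf [Finite G] {K : Nat.Primes → Subgroup G} (hK : IsComplementSystem K)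
    (p : ℕ) : IsPGroup p (hallOf K {p}) := by
  obtain ⟨j, hj⟩ := dvd_pow_of_prime_factors (p := p) Nat.card_pos.ne' (hallOf_hall hK {p}).1
  exact IsPGroup.of_card hj

theorem pm_hallOf [Finite G] {K : Nat.Primes → Subgroup G} (hK : IsComplementSystem K)
    (S T : Set ℕ) : Pm (hallOf K S) (hallOf K T) ∧ hallOf K S ⊔ hallOf K T = hallOf K (S ∪ T) := by
  have hS : hallOf K S ≤ hallOf K (S ∪ T) := hallOf_mono K Set.subset_union_left
  have hT : hallOf K T ≤ hallOf K (S ∪ T) := hallOf_mono K Set.subset_union_right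
  set L := hallOf K (S ∪ T)
  have hf : Fac ((hallOf K S).subgroupOf L) ((hallOf K T).subgroupOf L) := by
    apply fac_of_coprime_index
    refine Nat.coprime_of_dvd fun p hp h1 h2 => ?_
    rcases (hallOf_hall hK (S ∪ T)).1 p hp (h1.trans (Subgroup.index_dvd_card _)) with h | h
    · exact (hallOf_hall hK S).2 p hp h (h1.trans (Subgroup.relIndex_dvd_index_of_le hS))
    · exact (hallOf_hall hK T).2 p hp h (h2.trans (Subgroup.relIndex_dvd_index_of_le hT))
  refine ⟨(pm_subgroupOf_iff hS hT).mp hf.pm, ?_⟩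
  have := hf.sup_eq_top
  rw [← Subgroup.subgroupOf_sup hS hT, Subgroup.subgroupOf_eq_top] at this
  exact le_antisymm (sup_le hS hT) this

theorem nilp_sysNorm [Finite G] {K : Nat.Primes → Subgroup G} (hK : IsComplementSystem K) :
    Group.IsNilpotent (systemNormalizer K) := by
  refine (Group.isNilpotent_of_finite_tfae.out 3 0).mp ?_
  have hn' := fun p : ℕ => sysNorm_le_normalizer_hallOf K {p}
  generalize systemNormalizer K = D at hn' ⊢
  intro p hp P
  have hn := hn' p
  have := Subgroup.normal_subgroupOf_of_le_normalizer hn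
  have h1 : IsPGroup p ((hallOf K {p}).subgroupOf D) := (isPGroup_hallOf hK p).comap_subtype
  have h2 : (P : Subgroup D).map D.subtype ≤ hallOf K {p} := by
    let S := (isPGroup_hallOf hK p).toSylow ((hallOf_hall hK {p}).2 p hp.out rfl)
    have h3 := (P.2.map D.subtype).inf_normalizer_sylow S
    exact (le_inf le_rfl ((Subgroup.map_subtype_le _).trans hn)).trans (h3.le.trans inf_le_right)
  have h4 : (P : Subgroup D) = (hallOf K {p}).subgroupOf D :=
    (P.3 h1 (Subgroup.map_le_iff_le_comap.mp h2)).symm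
  rw [h4]; infer_instance

/-! ### Carter subgroups -/

theorem carter_conj {C : Subgroup G} (hC : IsCarterSubgroup C) (g : G) :
    IsCarterSubgroup (MulAut.conj g • C) :=
  ⟨have := hC.1; nilp_conj g C, by rw [normalizer_conj_smul, hC.2]⟩

theorem carter_subgroupOf {C L : Subgroup G} (hC : IsCarterSubgroup C) (h : C ≤ L) :
    IsCarterSubgroup (C.subgroupOf L) :=
  ⟨have := hC.1; nilp_subgroupOf C L, by rw [← Subgroup.subgroupOf_normalizer_eq h, hC.2]⟩

theorem carter_eq_of_le_nilp {C L : Subgroup G} (hC : IsCarterSubgroup C) (h : C ≤ L)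
    [Group.IsNilpotent L] : C = L :=
  le_antisymm h (le_of_normalizer_inf_le h (by rw [hC.2]; exact inf_le_left))

theorem carter_map_aux {C N : Subgroup G} [N.Normal] (hC : IsCarterSubgroup C)
    (h : ∀ g ∈ Subgroup.normalizer ((C ⊔ N : Subgroup G) : Set G), g ∈ C ⊔ N ∨
      ∃ x ∈ C ⊔ N, MulAut.conj x • C = MulAut.conj g • C) :
    IsCarterSubgroup (C.map (QuotientGroup.mk' N)) := by
  refine ⟨have := hC.1; nilp_map _ C, le_antisymm ?_ Subgroup.le_normalizer⟩
  intro y hy
  obtain ⟨g, rfl⟩ := QuotientGroup.mk_surjective y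
  have h1 : g ∈ C ⊔ N := by
    rcases h g (mem_normalizer_map_mk.mp hy) with h2 | ⟨x, hx, h2⟩
    · exact h2
    · have h3 : x⁻¹ * g ∈ C := by
        rw [← hC.2, ← conj_smul_eq_iff_mem_normalizer, conj_mul_smul, ← h2, conj_inv_smul_smul]
      simpa using (C ⊔ N).mul_mem hx (Subgroup.mem_sup_left h3)
  have h2 : g ∈ (C.map (QuotientGroup.mk' N)).comap (QuotientGroup.mk' N) := by
    rwa [Subgroup.comap_map_eq, QuotientGroup.ker_mk']
  exact h2

/-- If `N ≤ L` is a normal `p`-subgroup, `L/N` is nilpotent and `Q` is a Hall `p'`-subgroup of `L`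
then `N_L(Q)` is nilpotent. -/
theorem nilp_normalizer_inf [Finite G] {N L Q : Subgroup G} [N.Normal] {p j : ℕ} (hp : p.Prime)
    (hN : IsPGroup p N) (hL : ∃ n, L.lowerCentralSeries n ≤ N) (hQ : ¬ p ∣ Nat.card Q)
    (hQL : Q ≤ L) (hj : Q.relIndex L ∣ p ^ j) :
    Group.IsNilpotent (Subgroup.normalizer (Q : Set G) ⊓ L : Subgroup G) := by
  obtain ⟨n, hn⟩ := hL
  have h0 : Q ≤ Subgroup.normalizer (Q : Set G) ⊓ L := le_inf Subgroup.le_normalizer hQL
  refine nilp_of_lcs_le (A := N) (B := Q)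
    ⟨n, (Subgroup.lowerCentralSeries_mono n inf_le_right).trans hn⟩
    (lcs_le_of_relIndex_pow hp inf_le_left
      ((Dvd.intro _ (Subgroup.relIndex_mul_relIndex _ _ _ h0 inf_le_right)).trans hj))
    (Subgroup.disjoint_of_coprime_natCard (coprime_card_of_isPGroup hp hN hQ)).eq_bot

theorem coprime_of_not_dvd_of_dvd_pow {a b p j : ℕ} (hp : p.Prime) (ha : ¬ p ∣ a)
    (hb : b ∣ p ^ j) : a.Coprime b :=
  (Nat.Coprime.pow_right j ((Nat.Prime.coprime_iff_not_dvd hp).mpr ha).symm).coprime_dvd_right hb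

/-- Carter subgroups of a finite solvable group are conjugate. -/
theorem carter_conj_eq [Finite G] [Group.IsSolvable G] {C D : Subgroup G}
    (hC : IsCarterSubgroup C) (hD : IsCarterSubgroup D) : ∃ g : G, MulAut.conj g • C = D := by
  induction hn : Nat.card G using Nat.strong_induction_on generalizing G with
  | _ n ih =>
  rcases subsingleton_or_nontrivial G with hG | hG
  · exact ⟨1, Subsingleton.elim _ _⟩
  obtain ⟨p, N, hp, hNn, hN, -, hNp⟩ := exists_normal_pgroup_of_nontrivial (G := G)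
  have hin : ∀ {X Y L : Subgroup G}, IsCarterSubgroup X → IsCarterSubgroup Y → X ≤ L → Y ≤ L →
      L ≠ ⊤ → ∃ x ∈ L, MulAut.conj x • X = Y := by
    intro X Y L hX hY hXL hYL hL
    obtain ⟨x, hx⟩ := ih _ (hn ▸ card_lt_of_ne_top hL) (carter_subgroupOf hX hXL)
      (carter_subgroupOf hY hYL) rfl
    exact ⟨x, x.2, conj_eq_of_subgroupOf hXL hYL x hx⟩
  have hmap : ∀ {X : Subgroup G}, IsCarterSubgroup X →
      IsCarterSubgroup (X.map (QuotientGroup.mk' N)) := by
    intro X hX
    refine carter_map_aux hX fun g hg => ?_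
    by_cases ht : X ⊔ N = ⊤
    · exact Or.inl (ht ▸ Subgroup.mem_top g)
    · rw [← conj_smul_eq_iff_mem_normalizer] at hg
      exact Or.inr (hin hX (carter_conj hX g) le_sup_left
        (hg ▸ Subgroup.pointwise_smul_le_pointwise_smul_iff.mpr le_sup_left) ht)
  obtain ⟨g, hg⟩ := ih _ (hn ▸ card_quotient_lt hN) (hmap hC) (hmap hD) rfl
  obtain ⟨g, rfl⟩ := QuotientGroup.mk_surjective g
  have hC' := carter_conj hC g
  set C' := MulAut.conj g • C with hC'def
  suffices h : ∃ x : G, MulAut.conj x • C' = D by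
    obtain ⟨x, hx⟩ := h
    exact ⟨x * g, by rw [conj_mul_smul, hx]⟩
  have hsup : C' ⊔ N = D ⊔ N := by
    have h1 : C'.map (QuotientGroup.mk' N) = D.map (QuotientGroup.mk' N) := by
      rw [hC'def, map_conj_smul]; exact hg
    have h2 := congrArg (Subgroup.comap (QuotientGroup.mk' N)) h1
    rwa [Subgroup.comap_map_eq, Subgroup.comap_map_eq, QuotientGroup.ker_mk'] at h2
  by_cases ht : D ⊔ N = ⊤
  · obtain ⟨k, hk⟩ : ∃ k, Nat.card N = p ^ k := by
      have : Fact p.Prime := ⟨hp⟩
      exact IsPGroup.iff_card.mp hNp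
    have hlcs : ∃ n, (⊤ : Subgroup G).lowerCentralSeries n ≤ N := by
      rw [← nilp_map_mk_iff, ← ht, Subgroup.map_sup, QuotientGroup.map_mk'_self, sup_bot_eq]
      exact (hmap hD).1
    have key : ∀ X : Subgroup G, IsCarterSubgroup X → X ⊔ N = ⊤ → ∃ Q : Subgroup G,
        Q.index = p ^ (Nat.card G).factorization p ∧ X = Subgroup.normalizer (Q : Set G) := by
      intro X hX hXN
      have := hX.1
      obtain ⟨Q₀, hQ₀⟩ := exists_complement (G := X) hp
      have h1 : ¬ p ∣ Nat.card (Q₀.map X.subtype) := by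
        rw [card_map_subtype]; exact not_dvd_card_of_index_eq hp hQ₀
      have h2 : (Q₀.map X.subtype).index ∣ p ^ ((Nat.card X).factorization p + k) := by
        rw [Subgroup.index_map_subtype, hQ₀, pow_add, ← hk]
        exact Nat.mul_dvd_mul_left _ (fac_of_normal hXN).index_dvd_card
      refine ⟨_, index_eq_pow_factorization hp h2 h1, ?_⟩
      have h3 := nilp_normalizer_inf hp hNp hlcs h1 le_top (by rwa [Subgroup.relIndex_top_right])
      rw [inf_top_eq] at h3
      exact carter_eq_of_le_nilp hX (le_normalizer_of_hall (Subgroup.map_subtype_le _)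
        ((coprime_of_not_dvd_of_dvd_pow hp h1 h2).coprime_dvd_right
          (Subgroup.relIndex_dvd_index_of_le (Subgroup.map_subtype_le _))))
    obtain ⟨Q, hQ, e⟩ := key C' hC' (hsup.trans ht)
    obtain ⟨R, hR, e'⟩ := key D hD ht
    obtain ⟨x, hx⟩ := conj_eq_hall Q R (coprime_of_index_eq hp hQ)
      (card_eq_of_index_eq (hQ.trans hR.symm))
    exact ⟨x, by rw [e, e', ← hx, normalizer_conj_smul]⟩
  · obtain ⟨x, -, hx⟩ := hin hC' hD (hsup ▸ le_sup_left) le_sup_left ht
    exact ⟨x, hx⟩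

theorem carter_conj_in [Finite G] {X Y L : Subgroup G} [Group.IsSolvable L]
    (hX : IsCarterSubgroup X) (hY : IsCarterSubgroup Y) (hXL : X ≤ L) (hYL : Y ≤ L) :
    ∃ x ∈ L, MulAut.conj x • X = Y := by
  obtain ⟨x, hx⟩ := carter_conj_eq (carter_subgroupOf hX hXL) (carter_subgroupOf hY hYL)
  exact ⟨x, x.2, conj_eq_of_subgroupOf hXL hYL x hx⟩

/-- the image of a Carter subgroup of a solvable group in a quotient is a Carter subgroup -/
theorem carter_map [Finite G] [Group.IsSolvable G] {C : Subgroup G} (hC : IsCarterSubgroup C)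
    (N : Subgroup G) [N.Normal] : IsCarterSubgroup (C.map (QuotientGroup.mk' N)) := by
  refine carter_map_aux hC fun g hg => ?_
  rw [← conj_smul_eq_iff_mem_normalizer] at hg
  exact Or.inr (carter_conj_in hC (carter_conj hC g) le_sup_left
    (hg ▸ Subgroup.pointwise_smul_le_pointwise_smul_iff.mpr le_sup_left))

/-- a Carter subgroup covers every nilpotent quotient -/
theorem carter_sup_eq_top [Finite G] [Group.IsSolvable G] {C : Subgroup G}
    (hC : IsCarterSubgroup C) (N : Subgroup G) [N.Normal] [Group.IsNilpotent (G ⧸ N)] :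
    C ⊔ N = ⊤ := by
  have h := carter_eq_of_le_nilp (carter_map hC N) (le_top (a := C.map (QuotientGroup.mk' N)))
  have h2 := congrArg (Subgroup.comap (QuotientGroup.mk' N)) h
  rwa [Subgroup.comap_map_eq, QuotientGroup.ker_mk', Subgroup.comap_top] at h2

/-- every system normaliser lies in a Carter subgroup into which the system reduces -/
theorem exists_carter_ge [Finite G] [Group.IsSolvable G] {K : Nat.Primes → Subgroup G}
    (hK : IsComplementSystem K) : ∃ C : Subgroup G, IsCarterSubgroup C ∧ systemNormalizer K ≤ C ∧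
      ∀ q : Nat.Primes, ∃ j, (K q).relIndex C ∣ (q : ℕ) ^ j := by
  induction hn : Nat.card G using Nat.strong_induction_on generalizing G with
  | _ n ih =>
  rcases subsingleton_or_nontrivial G with hG | hG
  · exact ⟨⊤, ⟨inferInstance, Subsingleton.elim _ _⟩, le_top, fun q =>
      ⟨0, by rw [Subsingleton.elim (K q) ⊤, Subgroup.relIndex_top_left, pow_zero]⟩⟩
  obtain ⟨p, N, hp, hNn, hN, -, hNp⟩ := exists_normal_pgroup_of_nontrivial (G := G)
  obtain ⟨Lb, hLb, hDL, hred⟩ := ih _ (hn ▸ card_quotient_lt hN) (sys_map hK N) rfl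
  obtain ⟨k, hk⟩ : ∃ k, Nat.card N = p ^ k := by
    have : Fact p.Prime := ⟨hp⟩
    exact IsPGroup.iff_card.mp hNp
  set L := Lb.comap (QuotientGroup.mk' N) with hL
  have hNL : N ≤ L := QuotientGroup.le_comap_mk' N Lb
  have hLm : L.map (QuotientGroup.mk' N) = Lb :=
    Subgroup.map_comap_eq_self_of_surjective (QuotientGroup.mk'_surjective N) Lb
  have hD : systemNormalizer K ≤ L := by
    rw [hL, ← Subgroup.map_le_iff_le_comap, ← sysNorm_map hK N]; exact hDL
  have hrel : ∀ q, (K q ⊔ N).relIndex L = ((K q).map (QuotientGroup.mk' N)).relIndex Lb := by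
    intro q
    rw [← relIndex_comap_mk, Subgroup.comap_map_eq, QuotientGroup.ker_mk']
  have hLbn := hLb.1
  have hnorm : ∀ q, L ≤ Subgroup.normalizer (((K q ⊔ N) ⊓ L : Subgroup G) : Set G) := by
    intro q
    obtain ⟨j, hj⟩ := hred q
    have h1 := le_normalizer_of_hall (H := (K q).map (QuotientGroup.mk' N) ⊓ Lb) (L := Lb)
      inf_le_right (coprime_of_not_dvd_of_dvd_pow q.2 (fun h => sys_not_dvd (sys_map hK N) q
        (h.trans (Subgroup.card_dvd_of_le inf_le_left))) (by rwa [Subgroup.inf_relIndex_right]))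
    have h2 := Subgroup.comap_mono (f := QuotientGroup.mk' N) h1
    rwa [Subgroup.comap_normalizer_eq_of_surjective _ (QuotientGroup.mk'_surjective N),
      Subgroup.comap_inf, Subgroup.comap_map_eq, QuotientGroup.ker_mk'] at h2
  let p' : Nat.Primes := ⟨p, hp⟩
  set Q := K p' ⊓ L with hQ
  have hQp : ¬ p ∣ Nat.card Q := fun h =>
    sys_not_dvd hK p' (h.trans (Subgroup.card_dvd_of_le inf_le_left))
  obtain ⟨j, hj⟩ : ∃ j, Q.relIndex L ∣ p ^ j := by
    obtain ⟨j, hj⟩ := hred p'
    refine ⟨k + j, ?_⟩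
    rw [hQ, Subgroup.inf_relIndex_right, relIndex_dvd_mul _ hNL, hrel, pow_add, ← hk]
    exact Nat.mul_dvd_mul (Subgroup.relIndex_dvd_card _ _) hj
  have hlcs : ∃ n, L.lowerCentralSeries n ≤ N := by rw [← nilp_map_mk_iff, hLm]; exact hLbn
  have hnil := nilp_normalizer_inf hp hNp hlcs hQp inf_le_right hj
  set C := Subgroup.normalizer (Q : Set G) ⊓ L with hC
  have hQC : Q ≤ C := le_inf Subgroup.le_normalizer inf_le_right
  have hQrel : Q.relIndex C ∣ p ^ j :=
    (Dvd.intro _ (Subgroup.relIndex_mul_relIndex _ _ _ hQC inf_le_right)).trans hj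
  have hCN : C ⊔ N = L := by
    apply le_antisymm (sup_le inf_le_right hNL)
    intro g hg
    have h1 := hnorm p' hg
    rw [← inf_sup_normal _ hNL, ← conj_smul_eq_iff_mem_normalizer] at h1
    obtain ⟨a, ha, h⟩ := conj_of_le_sup (K := Q) (H := MulAut.conj g • Q)
      (coprime_card_of_isPGroup hp hNp hQp).symm (Or.inl inferInstance)
      (h1 ▸ Subgroup.pointwise_smul_le_pointwise_smul_iff.mpr le_sup_left) (card_smul _ _)
    rw [← conj_mul_smul, conj_smul_eq_iff_mem_normalizer] at h
    have h2 : a * g ∈ C := ⟨h, L.mul_mem (hNL ha) hg⟩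
    simpa using (C ⊔ N).mul_mem (Subgroup.mem_sup_right (N.inv_mem ha)) (Subgroup.mem_sup_left h2)
  refine ⟨C, ⟨hnil, le_antisymm ?_ Subgroup.le_normalizer⟩, le_inf ?_ hD, fun q => ?_⟩
  · intro g hg
    refine ⟨normalizer_le_normalizer_of_hall hQC inf_le_left
      (coprime_of_not_dvd_of_dvd_pow hp hQp hQrel) hg, ?_⟩
    have h1 := Subgroup.normalizer_le_normalizer_sup_normal (K := N) hg
    rw [hCN, ← sup_eq_left.mpr hNL, ← mem_normalizer_map_mk, hLm, hLb.2] at h1
    exact h1
  · exact (le_inf (sysNorm_le K p') (hD.trans Subgroup.le_normalizer)).trans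
      Subgroup.inf_normalizer_le_normalizer_inf
  · by_cases hq : q = p'
    · subst hq
      exact ⟨j, (Subgroup.relIndex_dvd_of_le_left C inf_le_left).trans hQrel⟩
    · have hNK : N ≤ K q := normal_le_sys hK fun h =>
        hq (Subtype.ext (eq_of_prime_dvd_card_of_isPGroup hp q.2 hNp h))
      obtain ⟨i, hi⟩ := hred q
      have h1 := relIndex_dvd_of_normal (hnorm q) (inf_le_right : C ≤ L)
      rw [Subgroup.inf_relIndex_right, hrel, sup_eq_left.mpr hNK] at h1
      refine ⟨i, ?_⟩
      exact (Subgroup.relIndex_dvd_of_le_left C inf_le_left).trans (h1.trans hi)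

theorem exists_carter [Finite G] [Group.IsSolvable G] : ∃ C : Subgroup G, IsCarterSubgroup C := by
  obtain ⟨K, hK⟩ := exists_system (G := G)
  obtain ⟨C, hC, -⟩ := exists_carter_ge hK
  exact ⟨C, hC⟩

end CA.H1Carter
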