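import Cfsg.Agent.Lib.Odd.BG4x3

/-! The abelian group structure of Baer on a group of class two and odd order. -/

namespace CA.H2Baer
open Subgroup
open scoped commutatorElement

/-- Data for Baer's construction. -/
structure Dat (H : Type*) [Group H] where
  m : ℕ
  cen : ∀ a b c : H, Commute ⁅a, b⁆ c
  half : ∀ x : H, x ^ m * x ^ m = x

variable {H : Type*} [Group H] (D : Dat H)

include D in
theorem cl (a b c : H) : ⁅a * b, c⁆ = ⁅a, c⁆ * ⁅b, c⁆ := by
  have : ⁅a * b, c⁆ = a * ⁅b, c⁆ * a⁻¹ * ⁅a, c⁆ := by simp only [commutatorElement_def]; group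
  rw [this, ← (D.cen b c a).eq, mul_inv_cancel_right, (D.cen b c _).eq]

include D in
theorem cr (a b c : H) : ⁅a, b * c⁆ = ⁅a, b⁆ * ⁅a, c⁆ := by
  have : ⁅a, b * c⁆ = ⁅a, b⁆ * (b * ⁅a, c⁆ * b⁻¹) := by simp only [commutatorElement_def]; group
  rw [this, ← (D.cen a c b).eq, mul_inv_cancel_right]

/-- The underlying type. -/
def Ab (_ : Dat H) : Type _ := H

/-- The identity map to the abelian group. -/
def mk (x : H) : Ab D := x
/-- The identity map from the abelian group. -/
def out (x : Ab D) : H := x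

theorem op_comm (x y : H) : x * y * ⁅y, x⁆ ^ D.m = y * x * ⁅x, y⁆ ^ D.m := by
  have h1 : y * x = x * y * ⁅y, x⁆ := by
    rw [← (D.cen y x _).eq, commutatorElement_def]; group
  have h2 : ⁅x, y⁆ = ⁅y, x⁆⁻¹ := (commutatorElement_inv y x).symm
  rw [h1, h2, inv_pow, mul_assoc (x * y)]
  congr 1
  rw [eq_mul_inv_iff_mul_eq, D.half]

theorem op_assoc (x y z : H) :
    x * y * ⁅y, x⁆ ^ D.m * z * ⁅z, x * y * ⁅y, x⁆ ^ D.m⁆ ^ D.m =
      x * (y * z * ⁅z, y⁆ ^ D.m) * ⁅y * z * ⁅z, y⁆ ^ D.m, x⁆ ^ D.m := by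
  have h1 : ⁅z, ⁅y, x⁆ ^ D.m⁆ = 1 :=
    commutatorElement_eq_one_iff_commute.2 ((D.cen y x z).pow_left _).symm
  have h2 : ⁅⁅z, y⁆ ^ D.m, x⁆ = 1 :=
    commutatorElement_eq_one_iff_commute.2 ((D.cen z y x).pow_left _)
  rw [cr D, cr D, cl D, cl D, h1, h2, mul_one, mul_one, (D.cen z x _).mul_pow,
    (D.cen y x _).mul_pow, mul_assoc (x * y), ((D.cen y x z).pow_left _).eq]
  have c1 : Commute (⁅z, y⁆ ^ D.m) (⁅y, x⁆ ^ D.m * ⁅z, x⁆ ^ D.m) := (D.cen z y _).pow_left _
  simp only [mul_assoc]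
  rw [c1.eq, mul_assoc]

instance : CommGroup (Ab D) where
  mul x y := mk D (out D x * out D y * ⁅out D y, out D x⁆ ^ D.m)
  one := mk D 1
  inv x := mk D (out D x)⁻¹
  mul_assoc x y z := op_assoc D _ _ _
  one_mul x := by
    change (1 : H) * out D x * ⁅out D x, (1 : H)⁆ ^ D.m = out D x
    simp
  mul_one x := by
    change out D x * (1 : H) * ⁅(1 : H), out D x⁆ ^ D.m = out D x
    simp
  inv_mul_cancel x := by
    change (out D x)⁻¹ * out D x * ⁅out D x, (out D x)⁻¹⁆ ^ D.m = (1 : H)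
    simp [commutatorElement_def]
  mul_comm x y := op_comm D _ _

theorem out_mul (x y : Ab D) : out D (x * y) = out D x * out D y * ⁅out D y, out D x⁆ ^ D.m := rfl

theorem out_pow (x : Ab D) (n : ℕ) : out D (x ^ n) = out D x ^ n := by
  induction n with
  | zero => rw [pow_zero, pow_zero]; rfl
  | succ n ih =>
    rw [pow_succ, out_mul, ih, commutatorElement_eq_one_iff_commute.2 (Commute.self_pow _ _),
      one_pow, mul_one, pow_succ]

/-- automorphisms of the group are automorphisms of the abelian group -/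
def act (f : MulAut H) : Ab D →* Ab D :=
  MonoidHom.mk' (fun x => mk D (f (out D x))) fun x y => by
    change f (out D x * out D y * ⁅out D y, out D x⁆ ^ D.m) =
      f (out D x) * f (out D y) * ⁅f (out D y), f (out D x)⁆ ^ D.m
    rw [map_mul, map_mul, map_pow, map_commutatorElement]

theorem act_mul (f g : MulAut H) (x : Ab D) : act D (f * g) x = act D f (act D g x) := rfl

/-- The `P Q` lemma in class two. -/
theorem pq_class2 [Finite H] {p : ℕ} [hp : Fact p.Prime] (hH : IsPGroup p H) {Γ : Type*} [Group Γ]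
    [Finite Γ] (φ : Γ →* MulAut H) {P Q : Subgroup Γ} (hP : IsPGroup p P)
    (hQ : (Nat.card Q).Coprime p) (hPQ : P ≤ normalizer (Q : Set Γ))
    (hC : ∀ x, (∀ u ∈ P, φ u x = x) → ∀ q ∈ Q, φ q x = x) (D : Dat H) :
    ∀ q ∈ Q, ∀ x, φ q x = x := by
  classical
  haveI : Finite (Ab D) := ‹Finite H›
  haveI : Fintype Q := Fintype.ofFinite _
  let N : Ab D →* Ab D := ∏ q : Q, act D (φ q)
  have hN : ∀ x, N x = ∏ q : Q, act D (φ q) x := fun x => MonoidHom.finsetProd_apply _ _ _
  have hpg : IsPGroup p (Ab D) := fun x => by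
    obtain ⟨k, hk⟩ := hH (out D x)
    exact ⟨k, (out_pow D x _).trans hk⟩
  have hu : ∀ u ∈ P, ∀ x, N (act D (φ u) x) = act D (φ u) (N x) := by
    intro u hu x
    rw [hN, hN, map_prod]
    refine (Fintype.prod_equiv (Q.normalizerMonoidHom ⟨u, hPQ hu⟩).toEquiv _ _ fun q => ?_).symm
    rw [← act_mul, ← act_mul, ← map_mul, ← map_mul]
    congr 3
    change u * q = u * q * u⁻¹ * u
    group
  have hker : N.ker = ⊥ := by
    by_contra hne
    letI : MulAction P N.ker :=
      { smul := fun u x => ⟨act D (φ u) x, by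
          rw [MonoidHom.mem_ker, hu u u.2, x.2, map_one]⟩
        one_smul := fun x => Subtype.ext (by
          change act D (φ ((1 : P) : Γ)) x = x
          rw [OneMemClass.coe_one, map_one]; rfl)
        mul_smul := fun u v x => Subtype.ext (by
          change act D (φ ((u * v : P) : Γ)) x = act D (φ u) (act D (φ v) x)
          rw [Subgroup.coe_mul, map_mul]; rfl) }
    have hd : p ∣ Nat.card N.ker := by
      rcases (hpg.to_subgroup N.ker).card_eq_or_dvd with h | h
      · exact absurd (Subgroup.card_eq_one.1 h) hne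
      · exact h
    obtain ⟨y, hy, hy1⟩ := hP.exists_fixed_point_of_prime_dvd_card_of_fixed_point N.ker hd
      (a := 1) (fun u => Subtype.ext (map_one (act D (φ u))))
    have h1 : ∀ q ∈ Q, φ q (out D y) = out D y :=
      hC _ fun u hu => congrArg Subtype.val (hy ⟨u, hu⟩)
    have h2 : N y = y ^ Nat.card Q := by
      have h5 : ∀ q : Q, act D (φ q) y = y := fun q => h1 q q.2
      rw [hN, Finset.prod_congr rfl fun q _ => h5 q, Finset.prod_const,
        Finset.card_univ, Nat.card_eq_fintype_card]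
    obtain ⟨k, hk⟩ := hpg y
    have h3 : (y : Ab D) ^ Nat.card Q = 1 := h2 ▸ y.2
    apply hy1
    refine Subtype.ext (Eq.symm ?_)
    have := pow_gcd_eq_one.2 ⟨h3, hk⟩
    rwa [(hQ.pow_right k).gcd_eq_one, pow_one] at this
  intro q hq x
  have h4 : N (act D (φ q) (mk D x)) = N (mk D x) := by
    rw [hN, hN]
    refine Fintype.prod_equiv (Equiv.mulRight (⟨q, hq⟩ : Q)) _ _ fun r => ?_
    rw [← act_mul, ← map_mul]
    rfl
  exact (MonoidHom.ker_eq_bot_iff N).1 hker h4

end CA.H2Baer
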