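import Cfsg.Agent.Lib.Odd.BG4x2

/-! Breadth and the order of the derived subgroup of a `p`-group (Vaughan-Lee; Skutin's proof). -/

set_option autoImplicit false

namespace CA.H2Wie
open Subgroup CA.BG CA.BG4
open scoped commutatorElement

variable {G : Type*} [Group G]

/-- `C` is a normal subgroup of index `p` of `H` -/
structure Mx (p : ℕ) (C H : Subgroup G) : Prop where
  le : C ≤ H
  idx : C.relIndex H = p
  nrm : H ≤ 𝓝(C)

theorem cover2 {H A B : Subgroup G} (h1 : ¬ H ≤ A) (h2 : ¬ H ≤ B) : ∃ x ∈ H, x ∉ A ∧ x ∉ B := by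
  obtain ⟨a, ha, a1⟩ := SetLike.not_le_iff_exists.1 h1
  obtain ⟨b, hb, b1⟩ := SetLike.not_le_iff_exists.1 h2
  by_cases e1 : a ∈ B
  · by_cases e2 : b ∈ A
    · exact ⟨a * b, mul_mem ha hb, by rwa [mul_mem_cancel_right e2], by rwa [mul_mem_cancel_left e1]⟩
    · exact ⟨b, hb, e2, b1⟩
  · exact ⟨a, ha, a1, e1⟩

theorem cover3 {H A B C : Subgroup G} (h1 : ¬ H ≤ A) (h2 : ¬ H ≤ C) (h3 : 3 ≤ B.relIndex H) :
    ∃ x ∈ H, x ∉ A ∧ x ∉ B ∧ x ∉ C := by
  by_contra! h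
  obtain ⟨x, hx, xA, xC⟩ := cover2 h1 h2
  have xB : x ∈ B := by_contra fun e => xC (h x hx xA e)
  have k : ∀ g ∈ H, g ∉ B → (g ∈ A ∧ x * g ∈ C) ∨ (g ∈ C ∧ x * g ∈ A) := fun g hg gB => by
    have e : x * g ∉ B := by rwa [mul_mem_cancel_left xB]
    by_cases gA : g ∈ A
    · exact .inl ⟨gA, h _ (mul_mem hx hg) (by rwa [mul_mem_cancel_right gA]) e⟩
    · have gC := h g hg gA gB
      exact .inr ⟨gC, by_contra fun e1 => xC ((mul_mem_cancel_right gC).1 (h _ (mul_mem hx hg) e1 e))⟩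
  have k1 : ∀ g ∈ H, g ∈ A → g ∈ C → g ∈ B := fun g hg gA gC => by_contra fun gB =>
    (k g hg gB).elim (fun e => xC ((mul_mem_cancel_right gC).1 e.2)) fun e => xA ((mul_mem_cancel_right gA).1 e.2)
  obtain ⟨a, ha, aB⟩ := SetLike.not_le_iff_exists.1 (fun e => by rw [relIndex_eq_one.2 e] at h3; omega : ¬ H ≤ B)
  have : B.relIndex H = 2 := relIndex_eq_two_iff_exists_notMem_and.2 ⟨a, ha, aB, fun b hb => or_iff_not_imp_right.2 fun bB => by
    have e : b * a = (x * b⁻¹)⁻¹ * (x * a) := by group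
    have nA : ∀ {A C : Subgroup G}, x ∉ C → a ∈ A → x * a ∈ C → b⁻¹ ∈ C → b * a ∉ C :=
      fun xC _ h2 h3 h4 => xC ((mul_mem_cancel_right ((mul_mem_cancel_left (inv_mem_iff.1 h3)).1 h4)).1 h2)
    have nB : ∀ {A C : Subgroup G}, x ∉ A → a ∈ A → x * b⁻¹ ∈ A → b * a ∉ A :=
      fun xA h2 h3 h4 => xA ((mul_mem_cancel_right (inv_mem ((mul_mem_cancel_right h2).1 h4))).1 h3)
    rcases k a ha aB with ⟨a1, a2⟩ | ⟨a1, a2⟩ <;> rcases k b⁻¹ (inv_mem hb) (by simpa using bB) with ⟨b1, b2⟩ | ⟨b1, b2⟩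
    · exact k1 _ (mul_mem hb ha) (mul_mem (inv_mem_iff.1 b1) a1) (e ▸ mul_mem (inv_mem b2) a2)
    · exact by_contra fun e1 => nA xC a1 a2 b1 (h _ (mul_mem hb ha) (nB (C := C) xA a1 b2) e1)
    · exact by_contra fun e1 => nB (C := C) xC a1 b2 (h _ (mul_mem hb ha) (nA xA a1 a2 b1) e1)
    · exact k1 _ (mul_mem hb ha) (e ▸ mul_mem (inv_mem b2) a2) (mul_mem (inv_mem_iff.1 b1) a1)⟩
  omega

variable [Finite G] {p : ℕ}

omit [Finite G] in
theorem Mx.not_le {C H : Subgroup G} (h : Mx p C H) (hp : p.Prime) : ¬ H ≤ C := fun e =>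
  hp.one_lt.ne' (h.idx ▸ relIndex_eq_one.2 e)

theorem Mx.sup {C H : Subgroup G} (h : Mx p C H) (hp : p.Prime) {x : G} (hx : x ∈ H) (xC : x ∉ C) :
    C ⊔ zpowers x = H :=
  sup_eq_of_relIndex hp h.le h.idx (zpowers_le_of_mem hx) (by rwa [zpowers_le])

theorem below (hp : p.Prime) {H : Subgroup G} (hH : IsPi {p} H) {A : Subgroup G} (h : ¬ H ≤ A) :
    ∃ C, Mx p C H ∧ ∀ x ∈ H, x ∈ A → x ∈ C := by
  obtain ⟨C, h1, h2, h3, h4⟩ := exists_below hp hH (H := A ⊓ H) (lt_of_le_of_ne inf_le_right fun e => h (e.ge.trans inf_le_left))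
  exact ⟨C, ⟨h2, h3, h4⟩, fun x hx e => h1 ⟨e, hx⟩⟩

theorem third (hp : p.Prime) {H A M : Subgroup G} (hH : IsPi {p} H) (hA : Mx p A H) (hM : Mx p M H) (h : ¬ M ≤ A) :
    ∃ C, Mx p C H ∧ ¬ C ≤ A ∧ ∀ x ∈ C, x ∈ M → x ∈ A := by
  obtain ⟨u, uM, uA⟩ := SetLike.not_le_iff_exists.1 h
  obtain ⟨v, vA, vM⟩ := SetLike.not_le_iff_exists.1 (fun e => hM.not_le hp
    ((hA.sup hp (hM.le uM) uA).ge.trans (sup_le e (zpowers_le_of_mem uM))) : ¬ A ≤ M)
  have wH := mul_mem (hM.le uM) (hA.le vA)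
  obtain ⟨C, hC, h1⟩ := below hp hH (A := (M ⊓ A) ⊔ zpowers (u * v)) fun e => by
    obtain ⟨n, hn, _, ⟨k, rfl⟩, e1⟩ := (mem_sup_norm' ((zpowers_le_of_mem wH).trans (norm_inf hM.nrm hA.nrm))).1
      (e (hM.le uM))
    obtain ⟨k, e2⟩ := mem_powers_iff_mem_zpowers.2 (zpow_mem_zpowers (u * v) k)
    simp only [← e2] at e1
    have h2 : (u * v) ^ k ∈ M := (M.mul_mem_cancel_left hn.1).1 (by rwa [e1])
    by_cases hk : p ∣ k
    · obtain ⟨j, rfl⟩ := hk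
      haveI := normal_subgroupOf_of_le_normalizer hA.nrm
      have h3 : (u * v) ^ p ∈ A := hA.idx ▸ (A.subgroupOf H).pow_index_mem ⟨_, wH⟩
      exact uA (e1 ▸ mul_mem hn.2 (pow_mul (u * v) p j ▸ pow_mem h3 j))
    · obtain ⟨j, hj⟩ := hH.exists_card hp
      have h3 : u * v ∈ zpowers ((u * v) ^ k) := mem_zpowers_pow_iff.2 (Nat.Coprime.coprime_dvd_right
        (hj ▸ orderOf_dvd_natCard H wH) (((Nat.Prime.coprime_iff_not_dvd hp).2 hk).symm.pow_right j))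
      exact vM ((mul_mem_cancel_left uM).1 (zpowers_le_of_mem h2 h3))
  have wC := h1 _ wH (mem_sup_right (mem_zpowers _))
  refine ⟨C, hC, fun e => uA ((mul_mem_cancel_right vA).1 (e wC)), fun x xC xM => by_contra fun xA => ?_⟩
  have h2 : M ≤ C := fun m hm => by
    obtain ⟨a, ha, z, hz, rfl⟩ := (mem_sup_norm' ((zpowers_le_of_mem (hM.le xM)).trans hA.nrm)).1
      ((hA.sup hp (hM.le xM) xA).ge (hM.le hm))
    exact mul_mem (h1 a (hA.le ha) (mem_sup_left ⟨(mul_mem_cancel_right (zpowers_le_of_mem xM hz)).1 hm, ha⟩))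
      (zpowers_le_of_mem xC hz)
  exact hC.not_le hp ((hM.sup hp (hA.le vA) vM).ge.trans (sup_le h2
    (zpowers_le_of_mem ((mul_mem_cancel_left (h2 uM)).1 wC))))

theorem key (hp : p.Prime) {C H : Subgroup G} (h : Mx p C H) {a : G} (ha : a ∈ H) (aC : a ∉ C) :
    ∃ W ≤ C, ♯⁅H, H⁆ ≤ ♯⁅C, C⁆ * W.relIndex C ∧ W.relIndex C ≤ 𝓒₁(a).relIndex H ∧
      ∀ y ∈ C, y ∉ W → p * 𝓒₁(y).relIndex C ≤ 𝓒₁(y).relIndex H := by
  let σ : C →* C := (C.normalizerMonoidHom ⟨a, h.nrm ha⟩).toMonoidHom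
  have hσ : ∀ c : C, (σ c : G) = a * c * a⁻¹ := fun _ => rfl
  let f : C →* Abelianization C := Abelianization.of / Abelianization.of.comp σ
  have hf : ∀ c : C, f c = Abelianization.of (c * (σ c)⁻¹) := fun c => by simp [f, div_eq_mul_inv]
  have hd : ∀ c : C, Abelianization.of c = 1 ↔ (c : G) ∈ ⁅C, C⁆ := fun c => by
    rw [← MonoidHom.mem_ker, Abelianization.ker_of, ← map_subtype_commutator]
    exact (mem_map_iff_mem C.subtype_injective).symm
  have hW : (f.ker.map C.subtype).relIndex C = f.ker.index := by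
    rw [relIndex, subgroupOf, comap_map_eq_self_of_injective C.subtype_injective]
  have mW : ∀ y ∈ C, ⁅y, a⁆ ∈ ⁅C, C⁆ → y ∈ f.ker.map C.subtype := fun y hy e =>
    ⟨⟨y, hy⟩, by rw [SetLike.mem_coe, MonoidHom.mem_ker, hf, hd]; simpa [hσ, commutatorElement_def, mul_assoc] using e, rfl⟩
  refine ⟨f.ker.map C.subtype, map_subtype_le _, ?_, ?_, fun y hy yW => ?_⟩
  · set L := (f.range.comap Abelianization.of).map C.subtype with hL
    have l1 : ⁅C, C⁆ ≤ L := fun x hx => ⟨⟨x, der_le C hx⟩, ⟨1, by rw [map_one, eq_comm, hd]; exact hx⟩, rfl⟩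
    have l2 : ∀ g ∈ C, ⁅g, a⁆ ∈ L := fun g hg => ⟨⟨g, hg⟩ * (σ ⟨g, hg⟩)⁻¹, ⟨_, hf _⟩, by
      simp [hσ, commutatorElement_def, mul_assoc]⟩
    have l3 : a ∈ 𝓝(L) := mem_norm_of_cj_le fun x hx => by
      obtain ⟨l, hl, rfl⟩ := mem_cj'.1 hx
      simpa [commutatorElement_def, mul_assoc] using mul_mem hl (l2 _ (inv_mem (map_subtype_le _ hl)))
    have l4 : ⁅H, H⁆ ≤ L := by
      rw [← h.sup hp ha aC]
      refine der_sup_le_of_norm (norm_of_der_le l1 (map_subtype_le _)) (zpowers_le_of_mem l3) l1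
        (comm_zpowers_le l3 (by rintro _ ⟨k, rfl⟩; simp [commutatorElement_def, ← zpow_one_add, ← zpow_sub_one, ← zpow_neg, ← zpow_add])) ?_
      rw [commutator_comm]
      exact comm_zpowers_le l3 fun g hg => by rw [← commutatorElement_inv]; exact inv_mem (l2 g hg)
    refine (card_le_of_le' l4).trans ?_
    rw [hL, card_map_of_injective C.subtype_injective, hW, index_ker, ← map_subtype_commutator,
      card_map_of_injective C.subtype_injective, ← card_mul_relIndex (ker_le_comap _ f.range), relIndex_ker,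
      Abelianization.ker_of]
    exact Nat.mul_le_mul_left _ (card_le_of_le (map_comap_le _ _))
  · refine le_trans ?_ (relIndex_le_of_le_right h.le index_ne_zero_of_finite)
    rw [← inf_relIndex_right 𝓒₁(a)]
    exact relIndex_le_of_le_left (fun y hy => mW y hy.2 (by
      rw [commutatorElement_eq_one_iff_mul_comm.2 (mem_cent1.1 hy.1)]; exact one_mem _)) index_ne_zero_of_finite
  · by_cases e : 𝓒₁(y) ⊓ H ≤ C
    · rw [← inf_relIndex_right _ H, ← relIndex_mul_relIndex _ _ _ e h.le, h.idx, mul_comm]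
      exact Nat.mul_le_mul_right _ (relIndex_le_of_le_left inf_le_left index_ne_zero_of_finite)
    · obtain ⟨c, hc, z, hz, rfl⟩ := (mem_sup_norm' (inf_le_right.trans h.nrm)).1
        ((sup_eq_of_relIndex hp h.le h.idx inf_le_right e).ge ha)
      refine absurd (mW y hy ?_) yW
      rw [show ⁅y, c * z⁆ = ⁅y, c⁆ by
        rw [commutatorElement_def, commutatorElement_def, mul_inv_rev, ← mul_assoc, mul_assoc y, mul_assoc c,
          show z * y⁻¹ = y⁻¹ * z from (Commute.inv_right (mem_cent1.1 hz.1)).eq]; group]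
      exact commutator_mem_commutator hy hc

theorem red (hp : p.Prime) {H A B : Subgroup G} (hH : IsPi {p} H) (h1 : ¬ H ≤ A) (h2 : B ≤ A ∨ 3 ≤ B.relIndex H) :
    ⁅H, H⁆ = ⊥ ∨ ∃ C D a, Mx p C H ∧ Mx p D C ∧ a ∈ H ∧ a ∉ C ∧ a ∉ A ∧ a ∉ B ∧ ∀ y ∈ C, y ∉ D → y ∉ A ∧ y ∉ B := by
  obtain ⟨A', hA, a1⟩ := below hp hH h1
  by_cases e : ∀ x ∈ H, x ∈ B → x ∈ A'
  · obtain ⟨x, hx, xA⟩ := SetLike.not_le_iff_exists.1 (hA.not_le hp)
    refine or_iff_not_imp_left.2 fun h3 => ?_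
    obtain ⟨C, hC, c1⟩ := below hp hH (A := zpowers x) fun e => h3 (commutator_eq_bot_iff_le_centralizer.2
      (le_cent_mono (comm_iff_le_cent.1 inferInstance) e e))
    obtain ⟨D, hD, d1⟩ := below hp (hH.of_le hC.le) (A := A') fun e => xA (e (c1 x hx (mem_zpowers x)))
    obtain ⟨a, ha, a2, a3⟩ := cover2 (hA.not_le hp) (hC.not_le hp)
    exact ⟨C, D, a, hC, hD, ha, a3, fun e => a2 (a1 a ha e), fun e1 => a2 (e a ha e1), fun y hy yD =>
      ⟨fun e => yD (d1 y hy (a1 y (hC.le hy) e)), fun e1 => yD (d1 y hy (e y (hC.le hy) e1))⟩⟩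
  have h3 := h2.resolve_left fun e1 => e fun x hx hB => a1 x hx (e1 hB)
  obtain ⟨M, hM, m1⟩ := below hp hH (A := B) fun e => by rw [relIndex_eq_one.2 e] at h3; omega
  obtain ⟨C, hC, c1, c2⟩ := third hp hH hA hM fun e1 => e fun x hx hB => e1 (m1 x hx hB)
  obtain ⟨D, hD, d1⟩ := below hp (hH.of_le hC.le) c1
  obtain ⟨a, ha, a2, a3, a4⟩ := cover3 (hA.not_le hp) (hC.not_le hp) h3
  exact .inr ⟨C, D, a, hC, hD, ha, a4, fun e => a2 (a1 a ha e), a3, fun y hy yD =>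
    ⟨fun e => yD (d1 y hy (a1 y (hC.le hy) e)), fun e1 => yD (d1 y hy (c2 y hy (m1 y (hC.le hy) e1)))⟩⟩

theorem main (hp : p.Prime) (H : Subgroup G) (hH : IsPi {p} H) (n : ℕ) (A B : Subgroup G) (h1 : ¬ H ≤ A)
    (h2 : B ≤ A ∨ 3 ≤ B.relIndex H) (h3 : ∀ x ∈ H, x ∉ A → x ∉ B → p * 𝓒₁(x).relIndex H ≤ p ^ n) :
    ♯⁅H, H⁆ ≤ p ^ n.choose 2 := by
  induction hn : ♯H using Nat.strong_induction_on generalizing H n A B with
  | _ N ih =>
  subst hn
  have p0 := hp.pos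
  have pos : ∀ K L : Subgroup G, 0 < K.relIndex L := fun K L => Nat.pos_of_ne_zero index_ne_zero_of_finite
  have mono : ∀ {K L : Subgroup G} (x : G), K ≤ L → 𝓒₁(x).relIndex K ≤ 𝓒₁(x).relIndex L := fun x h =>
    relIndex_le_of_le_right h index_ne_zero_of_finite
  have ch : ∀ m : ℕ, p ^ (m + 1).choose 2 = p ^ m.choose 2 * p ^ m := fun m => by
    rw [Nat.choose_succ_succ, Nat.choose_one_right, pow_add, mul_comm]
  rcases red hp hH h1 h2 with e | ⟨C, D, a, hC, hD, ha, a1, a2, a3, hy⟩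
  · rw [e, card_bot]; exact Nat.one_le_pow _ _ p0
  have lt := card_lt_of_lt (lt_of_le_not_ge hC.le (hC.not_le hp))
  have pC := hH.of_le hC.le
  obtain ⟨W, WC, w1, w2, w3⟩ := key hp hC ha a1
  have ba := h3 a ha a2 a3
  obtain _ | m := n
  · have := pos 𝓒₁(a) H
    have := hp.two_le
    simp at ba; nlinarith
  replace hy : ∀ y ∈ C, y ∉ D → 𝓒₁(y).relIndex H ≤ p ^ m := fun y h4 h5 => Nat.le_of_mul_le_mul_left
    (pow_succ' p m ▸ h3 y (hC.le h4) (hy y h4 h5).1 (hy y h4 h5).2) p0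
  replace w2 := w2.trans (Nat.le_of_mul_le_mul_left (pow_succ' p m ▸ ba) p0)
  by_cases e1 : W.relIndex C = 1
  · rw [e1, mul_one] at w1
    exact w1.trans (ih _ lt C pC _ D D (hD.not_le hp) (.inl le_rfl) (fun y h4 h5 _ =>
      pow_succ' p m ▸ Nat.mul_le_mul_left _ ((mono y hC.le).trans (hy y h4 h5))) rfl)
  rw [ch]
  by_cases e2 : W ≤ D ∨ 3 ≤ W.relIndex C
  · exact w1.trans (Nat.mul_le_mul (ih _ lt C pC _ D W (hD.not_le hp) e2 (fun y h4 h5 h6 =>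
      (w3 y h4 h6).trans (hy y h4 h5)) rfl) w2)
  push Not at e2
  have e3 : W.relIndex C = 2 := by have := pos W C; omega
  obtain rfl : 2 = p := by simpa using pC.relIndex W 2 Nat.prime_two e3.symm.dvd
  obtain ⟨E, hE, f1, f2⟩ := third hp pC hD ⟨WC, e3, norm_of_relIndex hp pC WC e3⟩ e2.1
  obtain ⟨x, xW, xD⟩ := SetLike.not_le_iff_exists.1 e2.1
  obtain ⟨V, -, v1, v2, v3⟩ := key hp hE (WC xW) fun e => xD (f2 x e xW)
  replace v2 := v2.trans ((mono x hC.le).trans (hy x (WC xW) xD))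
  have lt2 := (card_lt_of_lt (lt_of_le_not_ge hE.le (hE.not_le hp))).trans lt
  have hz : ∀ y ∈ E, y ∉ D → 2 * 𝓒₁(y).relIndex C ≤ 2 ^ m := fun y h4 h5 =>
    (w3 y (hE.le h4) fun e => h5 (f2 y h4 e)).trans (hy y (hE.le h4) h5)
  have i1 := ih _ lt2 E (pC.of_le hE.le) m D D f1 (.inl le_rfl) (fun y h4 h5 _ =>
    (Nat.mul_le_mul_left _ (mono y hE.le)).trans (hz y h4 h5)) rfl
  rw [e3] at w1 w2
  refine (w1.trans (Nat.mul_le_mul_right _ v1)).trans ?_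
  by_cases g1 : V.relIndex E = 1
  · rw [g1, mul_one]; exact Nat.mul_le_mul i1 w2
  obtain ⟨y, y1, y2, y3⟩ := cover2 f1 fun e => g1 (relIndex_eq_one.2 e)
  have g2 : 4 ≤ 2 ^ m := by
    have := v3 y y1 y3
    have := hz y y1 y2
    have := pos 𝓒₁(y) E
    omega
  by_cases g3 : 3 ≤ V.relIndex E
  · obtain _ | l := m
    · omega
    have i2 := ih _ lt2 E (pC.of_le hE.le) l D V f1 (.inr g3) (fun y h4 h5 h6 => by
      have := v3 y h4 h6
      have := hz y h4 h5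
      omega) rfl
    rw [ch, mul_right_comm]
    exact Nat.mul_le_mul (Nat.mul_le_mul i2 (by omega)) v2
  · rw [mul_assoc]; exact Nat.mul_le_mul i1 (by omega)

end CA.H2Wie
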