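import Cfsg.Agent.Lib.Grp.H7Ext

/-!
The model group of a bilinear form; 2-groups with Frattini subgroup of order two.
-/

set_option autoImplicit false

namespace CA.H7Ext

open Subgroup Cfsg CA.CForm Module Function
open scoped commutatorElement

variable {p : ℕ} [hp : Fact p.Prime] {V : Type*} [AddCommGroup V]

/-- The extension with cocycle `β`. -/
@[ext] structure Mdl (β : V →+ V →+ ZMod p) where
  v : V
  a : ZMod p

namespace Mdl

variable {β : V →+ V →+ ZMod p}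

instance : Mul (Mdl β) := ⟨fun x y => ⟨x.v + y.v, x.a + y.a + β x.v y.v⟩⟩
instance : One (Mdl β) := ⟨⟨0, 0⟩⟩
instance : Inv (Mdl β) := ⟨fun x => ⟨-x.v, -x.a + β x.v x.v⟩⟩

theorem mul_v (x y : Mdl β) : (x * y).v = x.v + y.v := rfl
theorem mul_a (x y : Mdl β) : (x * y).a = x.a + y.a + β x.v y.v := rfl
theorem one_v : (1 : Mdl β).v = 0 := rfl
theorem one_a : (1 : Mdl β).a = 0 := rfl
theorem inv_v (x : Mdl β) : x⁻¹.v = -x.v := rfl
theorem inv_a (x : Mdl β) : x⁻¹.a = -x.a + β x.v x.v := rfl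

instance : Group (Mdl β) := Group.ofLeftAxioms
  (fun x y z => by ext <;> simp only [mul_v, mul_a, map_add, AddMonoidHom.add_apply] <;> abel)
  (fun x => by ext <;> simp [mul_v, mul_a, one_v, one_a])
  (fun x => by ext <;> simp [mul_v, mul_a, one_v, one_a, inv_v, inv_a])

variable (β) in
/-- The model as a central extension. -/
def cov : Cov p (Mdl β) V where
  π x := x.v
  ζ a := ⟨0, a⟩
  π_mul := mul_v
  ζ_add a b := by ext <;> simp [mul_v, mul_a]
  surj v := ⟨⟨v, 0⟩, rfl⟩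
  inj a b h := congrArg Mdl.a h
  ker x := ⟨fun h => ⟨x.a, Mdl.ext h.symm rfl⟩, fun ⟨a, h⟩ => h ▸ rfl⟩
  cent a x := by ext <;> simp [mul_v, mul_a, add_comm]

instance [Finite V] : Finite (Mdl β) :=
  Nat.finite_of_card_ne_zero (by rw [(cov β).card_eq]; exact mul_ne_zero Nat.card_pos.ne' hp.out.ne_zero)

theorem cov_b (u v : V) : (cov β).b u v = β u v - β v u := by
  apply (cov β).inj
  refine ((cov β).ζ_b ⟨u, 0⟩ ⟨v, 0⟩).trans ?_
  ext <;> simp [commutatorElement_def, mul_v, mul_a, inv_v, inv_a, cov, sub_eq_add_neg]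

theorem cov_q [Module (ZMod 2) V] (β : V →+ V →+ ZMod 2) (v : V) : (cov β).q v = β v v := by
  apply (cov β).inj
  refine ((cov β).ζ_q ⟨v, 0⟩).trans ?_
  have : v + v = 0 := by rw [← two_smul (ZMod 2), show (2 : ZMod 2) = 0 from rfl, zero_smul]
  ext <;> simp [pow_two, mul_v, mul_a, cov, this]

theorem cov_equiv [Module (ZMod 2) V] (β : V →+ V →+ ZMod 2) (f : Form (Kind.orth (ZMod 2)) V)
    (h : ∀ v, f.Q v = β v v) : f.Equivalent (cov β).orth := by
  have hq : ∀ v, (cov β).orth.Q v = f.Q v := fun v => (cov_q β v).trans (h v).symm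
  exact ⟨LinearEquiv.refl _ _, fun x y => by
    rw [Form.orth_B_eq, Form.orth_B_eq]; simp only [LinearEquiv.refl_apply, hq], hq⟩

end Mdl

theorem exists_model {V : Type} [AddCommGroup V] [Module (ZMod 2) V] [Finite V] [Nontrivial V]
    (β : V →+ V →+ ZMod 2) (f : Form (Kind.orth (ZMod 2)) V) (h : ∀ v, f.Q v = β v v)
    (hf : f.Nondeg) {m : ℕ} (hm : f.IsIndex m) :
    IsExtraspecial 2 (Mdl β) ∧ Nat.card (Mdl β) = 2 ^ (finrank (ZMod 2) V + 1) ∧
      sSup {k : ℕ | ∃ A : Subgroup (Mdl β), IsElementaryAbelian 2 A ∧ Nat.card A = 2 ^ k} = m + 1 := by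
  have e := Mdl.cov_equiv β f h
  obtain ⟨h1, h2⟩ := (Mdl.cov β).rank (e.isIndex hm)
  refine ⟨(Mdl.cov β).extra ((Mdl.cov β).nondeg_iff.1 (e.nondeg hf)) ‹_›, (Mdl.cov β).card_eq',
    IsGreatest.csSup_eq ⟨h1, ?_⟩⟩
  rintro k ⟨A, h3, h4⟩
  have := h2 A h3.2
  rwa [h4, Nat.pow_le_pow_iff_right one_lt_two] at this

/-- Singular vectors of a possibly degenerate form over the field of two elements. -/
theorem card_sing [Module (ZMod 2) V] [Finite V] (f : Form (Kind.orth (ZMod 2)) V) :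
    Nat.card {v // f.Q v = 0} * 2 = 2 ^ finrank (ZMod 2) V ∨ (∀ v, f.Q v = 0) ∨
      ∃ r, 1 ≤ r ∧ finrank (ZMod 2) V = 2 * r + finrank (ZMod 2) (f.perp ⊤) ∧
        (Nat.card {v // f.Q v = 0} * 2 = 2 ^ finrank (ZMod 2) V + 2 ^ (finrank (ZMod 2) V - r) ∨
        Nat.card {v // f.Q v = 0} * 2 + 2 ^ (finrank (ZMod 2) V - r) = 2 ^ finrank (ZMod 2) V) := by
  classical
  by_cases h : ∃ u ∈ f.perp ⊤, f.Q u ≠ 0
  · obtain ⟨u, h1, h2⟩ := h
    have h3 : ∀ v, f.Q (v + u) = f.Q v + 1 := fun v => by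
      rw [f.Q_add_of_B (f.mem_perp.1 h1 v trivial), (Cov.zmod_two _).resolve_left h2]
    have h4 : Nat.card {v // f.Q v = 0} = Nat.card {v // ¬ f.Q v = 0} :=
      Nat.card_congr ((Equiv.addRight u).subtypeEquiv fun v => by
        rw [Equiv.coe_addRight, h3]; generalize f.Q v = a; revert a; decide)
    left
    rw [mul_two]
    nth_rw 2 [h4]
    rw [← Nat.card_sum, Nat.card_congr (Equiv.sumCompl _),
      Module.natCard_eq_pow_finrank (K := ZMod 2), Nat.card_zmod]
  push Not at h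
  obtain ⟨W, hW⟩ := (f.perp ⊤).exists_isCompl
  have hn : (f.restrict W).Nondeg := (f.nondeg_restrict_iff W).2 (by
    rw [Submodule.disjoint_def]
    intro x h1 h2
    refine (Submodule.disjoint_def.1 hW.disjoint) x (f.mem_perp.2 fun y _ => ?_) h1
    obtain ⟨a, ha, b, hb, rfl⟩ := Submodule.mem_sup.1 (hW.sup_eq_top ▸ Submodule.mem_top (x := y))
    rw [f.B_add_left, f.mem_perp.1 h2 b hb, f.mem_perp'.1 ha x trivial, add_zero])
  have hd := Submodule.finrank_add_eq_of_isCompl hW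
  have hc : Nat.card {v // f.Q v = 0} =
      2 ^ finrank (ZMod 2) (f.perp ⊤) * Nat.card {w // (f.restrict W).Q w = 0} := by
    have := Module.natCard_eq_pow_finrank (K := ZMod 2) (V := f.perp ⊤)
    rw [Nat.card_zmod] at this
    rw [← this, ← Nat.card_prod]
    have h1 : ∀ (a : f.perp ⊤) (b : W), f.Q (a + b) = f.Q b := fun a b => by
      rw [f.Q_add_of_B (f.mem_perp'.1 a.2 b trivial), h a a.2, zero_add]
    refine (Nat.card_congr (Equiv.ofBijective (fun a => ⟨a.1 + a.2.1, (h1 _ _).trans a.2.2⟩)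
      ⟨fun a b e => ?_, fun v => ?_⟩)).symm
    · have e : (a.1 : V) + a.2.1 = b.1 + b.2.1 := congrArg Subtype.val e
      have := (Submodule.prodEquivOfIsCompl _ _ hW).injective (a₁ := (a.1, a.2.1))
        (a₂ := (b.1, b.2.1)) e
      exact Prod.ext (Prod.ext_iff.1 this).1 (Subtype.ext (Prod.ext_iff.1 this).2)
    · obtain ⟨⟨a, b⟩, e⟩ := (Submodule.prodEquivOfIsCompl _ _ hW).surjective v.1
      have e : (a : V) + b = v := e
      exact ⟨(a, ⟨b, (h1 a b).symm.trans (e ▸ v.2)⟩), Subtype.ext e⟩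
  obtain ⟨r, hr⟩ := hn.even_of_two_eq_zero rfl
  rcases r with _ | r
  · refine Or.inr (Or.inl fun v => h v ?_)
    rw [Submodule.finrank_eq_zero.1 hr] at hW
    rw [eq_top_of_isCompl_bot hW]; trivial
  refine Or.inr (Or.inr ⟨r + 1, by omega, by omega, ?_⟩)
  rw [hc, show finrank (ZMod 2) V - (r + 1) = finrank (ZMod 2) (f.perp ⊤) + (r + 1) by omega, ← hd,
    pow_add, pow_add, mul_assoc, ← mul_add, ← mul_add]
  rcases hn.isIndex_even (m := r) (by omega) with h5 | h5
  · have := Form.IsIndex.card_singular _ 0 h5 hn (by omega)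
    rw [Nat.card_zmod, add_zero, add_zero, pow_succ 2 (r + 1), two_mul (r + 1), ← hr] at this
    left; congr 1; omega
  · have := Form.IsIndex.card_singular _ 2 h5 hn (by omega)
    rw [Nat.card_zmod, pow_succ 2 (r + 1), show 2 * r + 2 = r + 1 + (r + 1) by ring, ← hr] at this
    right; congr 1; omega

end CA.H7Ext
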