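import Cfsg.Agent.Lib.Grp.H7Lge
import Cfsg.Agent.Lib.Odd.BGMisc

/-!
Groups with a large extraspecial 2-subgroup: normal structure and passage to quotients.
-/

set_option autoImplicit false
set_option linter.unusedSectionVars false
set_option linter.unusedVariables false

namespace CA.H7Lge

open Subgroup Cfsg CA.BG CA.BG4 CA.Comp
open scoped commutatorElement

variable {G : Type*} [Group G] [Finite G] {Q K L : Subgroup G} {z x y g t : G}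

theorem LX.mem_normal (h : LX Q z) (hc : 𝓩(Q) ≤ zpowers z)
    (hL : ∀ K : Subgroup G, Odd ♯K → Q ≤ 𝓝(K) → K = ⊥) (N : Subgroup G) [N.Normal] (h0 : N ≠ ⊥) :
    z ∈ N := by
  obtain ⟨T, hT, hQ⟩ := syl_superset Nat.prime_two h.isPi le_top
  have h1 := (hT.inf_normal le_top (top_le_norm N T)).ne_bot Nat.prime_two rfl
    (even_iff_two_dvd.1 (Nat.not_odd_iff_even.1 fun e => h0 (hL N e (top_le_norm _ _))))
  obtain ⟨a, ha, a1⟩ := exists_ne_one (hT.pi.meet_cent (hT.pi.inf_left N)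
    (norm_inf (le_norm_self T) (top_le_norm _ _)) h1)
  have := (h.mem_iff.1 ((h.center_eq hc hT.pi hQ).le ⟨ha.1.1, ha.2⟩)).resolve_left a1
  exact this ▸ ha.1.2

theorem LX.simple (h : LX Q z) (hc : 𝓩(Q) ≤ zpowers z)
    (hL : ∀ K : Subgroup G, Odd ♯K → Q ≤ 𝓝(K) → K = ⊥) (hM : 𝓒₁(z) ≤ normalClosure {z}) :
    IsSimpleGroup G := by
  haveI : Nontrivial G := ⟨z, 1, h.ne⟩
  refine ⟨fun N hN => or_iff_not_imp_left.2 fun h0 => ?_⟩
  have h1 : 𝓒₁(z) ≤ N :=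
    hM.trans (normalClosure_le_normal (Set.singleton_subset_iff.2 (h.mem_normal hc hL N h0)))
  obtain ⟨T, hT, hQ⟩ := syl_superset Nat.prime_two h.isPi (h.cent.trans h1)
  have h2 := hT.syl_frattini_sup Nat.prime_two le_top (top_le_norm N ⊤)
  rw [← h2]
  refine (sup_eq_left.2 (inf_le_right.trans ((norm_center T).trans ?_))).symm
  rw [h.center_eq hc hT.pi hQ]
  exact (norm_zpowers_le h.sq h.ne).trans h1

theorem small_false (hL : ⁅L, L⁆ = L) (hz : z ∈ L) (h1 : z ≠ 1) (h2 : z * z = 1)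
    (h : L ⊓ 𝓒₁(z) ≤ zpowers z) : False := by
  have o : orderOf z = 2 := orderOf_eq_prime (by rw [pow_two, h2]) h1
  have hp : IsPi {2} (zpowers z) := isPi_of_card_eq Nat.prime_two (by rw [Nat.card_zpowers, o])
  obtain ⟨S, hS, h3⟩ := syl_superset Nat.prime_two hp (zpowers_le.2 hz)
  obtain ⟨a, ha, a1⟩ := exists_ne_one (hS.pi.center_ne_bot (ne_bot_of_mem (h3 (mem_zpowers z)) h1))
  have h4 := ((mem_two h2).1 (h ⟨hS.le ha.1, cent_le_cent1 (h3 (mem_zpowers z)) ha.2⟩)).resolve_left a1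
  have h5 : S = zpowers z := le_antisymm ((le_inf hS.le (le_cent1_iff.2 (h4 ▸ ha.2))).trans h) h3
  subst h5
  exact (burnside_hasPC Nat.prime_two hS (inf_le_right.trans ((norm_zpowers_le h2 h1).trans
    (cent_zpowers z).ge))).not_le_der hS (ne_bot_of_mem (mem_zpowers z) h1) (hL.symm ▸ hS.le)

theorem uniq (h0 : 𝓩(L) = ⊥) {a a' d d' : G} (ha : a ∈ L) (ha' : a' ∈ L) (hd : d ∈ 𝓒(L))
    (hd' : d' ∈ 𝓒(L)) (e : a * d = a' * d') : a = a' ∧ d = d' := by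
  have h1 : a'⁻¹ * a = d' * d⁻¹ := by
    rw [inv_mul_eq_iff_eq_mul, ← mul_assoc, ← e, mul_inv_cancel_right]
  have h2 : a'⁻¹ * a = 1 :=
    mem_bot.1 (h0.le (mem_inf.2 ⟨mul_mem (inv_mem ha') ha, h1 ▸ mul_mem hd' (inv_mem hd)⟩))
  rw [h2, eq_comm, mul_inv_eq_one] at h1
  exact ⟨(inv_mul_eq_one.1 h2).symm, h1.symm⟩

theorem LX.struct (h : LX Q z) (hc : 𝓩(Q) ≤ zpowers z)
    (hL : ∀ K : Subgroup G, Odd ♯K → Q ≤ 𝓝(K) → K = ⊥) {M : Subgroup G}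
    (hM : M = normalClosure {z}) :
    (IsMulCommutative M ∧ generalizedFittingSubgroup G = pCore 2 G) ∨
    (M = generalizedFittingSubgroup G ∧ IsSimpleGroup M ∧ ¬ IsMulCommutative M) ∨
    (M = generalizedFittingSubgroup G ∧ ∃ (L : Subgroup G) (u : G), u ∈ Q ∧ IsSimpleGroup L ∧
      ¬ IsMulCommutative L ∧ L ⊓ BG.cj u L = ⊥ ∧ (∀ x ∈ L, ∀ y ∈ BG.cj u L, x * y = y * x) ∧
      L ⊔ BG.cj u L = M ∧ ∃ z₁ ∈ L, z = z₁ * (u * z₁ * u⁻¹) ∧ Syl 2 (L ⊓ 𝓒₁(z₁)) L ∧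
      (∀ c ∈ L ⊓ 𝓒₁(z₁), c ^ 2 ∈ zpowers z₁) ∧ Q ≠ 𝓞({2}, 𝓒₁(z))) := by
  haveI := Fact.mk Nat.prime_two
  haveI : Nontrivial G := ⟨z, 1, h.ne⟩
  have hN : ∀ (N : Subgroup G) [N.Normal], N ≠ ⊥ → M ≤ N := fun N _ h0 =>
    hM ▸ normalClosure_le_normal (Set.singleton_subset_iff.2 (h.mem_normal hc hL N h0))
  have hzM : z ∈ M := hM ▸ subset_normalClosure rfl
  haveI : M.Normal := hM ▸ normalClosure_normal
  have hs : Group.IsSolvable Q := h.isPi.isSolvable Nat.prime_two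
  by_cases h0 : layer G = ⊥
  · have h1 : generalizedFittingSubgroup G = pCore 2 G := Fstar.fstar_eq_pCore_iff_bot.2 ⟨h0, hL _
      (Nat.coprime_two_right.1 ((isPi_compl_iff_coprime Nat.prime_two).1
        (core_p'_top (G := G) Nat.prime_two ▸ core_pi _ _))) (top_le_norm _ _)⟩
    haveI : (𝓩(pCore 2 G)).Normal := normalizer_eq_top_iff.1
      (top_le_iff.1 ((top_le_norm _ ⊤).trans (norm_center _)))
    refine Or.inl ⟨comm_of_le (comm_center _) (hN 𝓩(pCore 2 G) (IsPi.center_ne_bot (p := 2)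
      (core_p_top (G := G) Nat.prime_two ▸ core_pi _ _) (h1 ▸ Fstar.fstar_ne_bot))), h1⟩
  right
  have nc : ∀ {K : Subgroup G}, IsComponent K → ¬ K ≤ 𝓒₁(z) := fun hK e =>
    Quasi.qs_not_le_solvable hK.2 hs
      ((comp_le_centralizer_of_isSolvable hK (e.trans h.norm) hs).trans h.cent_le)
  obtain ⟨L, hLc⟩ := exists_comp_of_layer_ne_bot h0
  have hF : fittingSubgroup G = ⊥ := by
    by_contra e
    exact nc hLc (le_cent1_iff.2 (fitting_le_centralizer_comp hLc (hN _ e hzM)))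
  have hZ : ∀ {K : Subgroup G}, IsComponent K → 𝓩(K) = ⊥ := fun hK =>
    le_bot_iff.1 (hF ▸ comp_inf_centralizer_le_fitting hK)
  have hME : M = layer G := le_antisymm (hN _ h0) (layer_le fun K hK =>
    (comp_le_or_le_centralizer hK (Normal.isSubnormal inferInstance)).resolve_right fun e =>
      nc hK (e.trans (cent_le_cent1 hzM)))
  have hMF : M = generalizedFittingSubgroup G :=
    hME.trans (Fstar.fstar_eq_layer_of_fitting_eq_bot hF).symm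
  have hS : IsSimpleGroup L := Quasi.simple_of_qs_of_center_eq_bot hLc.2
    ((Subgroup.map_eq_bot_iff_of_injective _ L.subtype_injective).1 ((map_center L).trans (hZ hLc)))
  have hnc : ¬ IsMulCommutative L := fun e =>
    Quasi.qs_not_le_centralizer hLc.2 (comm_iff_le_cent.1 e)
  have hcj : ∀ g : G, IsComponent (BG.cj g L) := comp_map_conj hLc
  have ne_c : ∀ {A B : Subgroup G}, IsComponent A → IsComponent B → A ≠ B → A ≤ 𝓒(B) :=
    comp_le_centralizer_of_ne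
  obtain ⟨z₁, hz₁, d, hd, e⟩ := (mem_sup_norm' (cent_le_norm L)).1
    ((layer_le (U := L ⊔ 𝓒(L)) fun K hK => by
      by_cases e : K = L
      exacts [e ▸ le_sup_left, (ne_c hK hLc e).trans le_sup_right]) (hME ▸ hzM))
  have z1 : z₁ ≠ 1 := fun e' => nc hLc (le_cent1_iff.2 (by rwa [← e, e', one_mul]))
  have dz : z₁ * d = d * z₁ := hd _ hz₁
  have z2 : z₁ * z₁ = 1 := (uniq (hZ hLc) (mul_mem hz₁ hz₁) (one_mem _) (mul_mem hd hd) (one_mem _)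
    (by rw [one_mul, ← h.sq, ← e, mul_assoc, mul_assoc, ← mul_assoc d, ← dz, mul_assoc])).1
  have fix : ∀ g ∈ 𝓒₁(z), g ∈ 𝓝(L) → g * z₁ * g⁻¹ = z₁ := fun g hg hn =>
    (uniq (hZ hLc) (conj_mem_of_mem_norm hn hz₁) hz₁
      (conj_mem_of_mem_norm (norm_cent le_rfl hn) hd) hd
      (by rw [conj_mul, e, mem_cent1.1 hg, mul_inv_cancel_right])).1
  have C1 : ∀ c ∈ L, c ∈ 𝓒₁(z₁) → c ∈ 𝓒₁(z) := fun c hc h1 => by
    rw [mem_cent1] at h1 ⊢
    rw [← e, ← mul_assoc, h1, mul_assoc, hd c hc, mul_assoc]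
  by_cases hQ : Q ≤ 𝓝(L)
  · have h1 : z₁ ∈ 𝓒(Q) := fun q hq => mul_inv_eq_iff_eq_mul.1 (fix q (h.cent hq) (hQ hq))
    have h2 := (h.mem_iff.1 (hc ⟨h.cent_le h1, h1⟩)).resolve_left z1
    have h3 : M = L := le_antisymm (hME.le.trans (layer_le fun K hK => by
      by_contra e
      exact nc hK ((ne_c hK hLc fun e' => e e'.le).trans (cent_le_cent1 (h2 ▸ hz₁)))))
      (hME ▸ le_layer hLc)
    exact Or.inl ⟨hMF, h3 ▸ hS, h3 ▸ hnc⟩
  right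
  obtain ⟨u, hu, hu'⟩ := SetLike.not_le_iff_exists.1 hQ
  have n1 : BG.cj u L ≠ L := fun e => hu' (mem_norm_iff_cj.2 e)
  have c1 : BG.cj u L ≤ 𝓒(L) := ne_c (hcj u) hLc n1
  have i1 : L ⊓ BG.cj u L = ⊥ := le_bot_iff.1 (hZ hLc ▸ inf_le_inf_left _ c1)
  have cm : ∀ c : G, ⁅c, u⁆ = c * (u * c⁻¹ * u⁻¹) := fun c => by
    simp [commutatorElement_def, mul_assoc]
  have wQ : ∀ c ∈ L ⊓ 𝓒₁(z₁), ⁅c, u⁆ ∈ Q := fun c hc =>
    mul_mem (conj_mem_of_mem_norm (h.norm (C1 c hc.1 hc.2)) hu) (inv_mem hu)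
  have m1 : ∀ {c : G} (g : G), c ∈ L → g * c * g⁻¹ ∈ BG.cj g L := fun g hc => conj_mem_cj.2 hc
  have hzL : z ∈ L ⊔ BG.cj u L := by
    by_contra hz
    have n2 : ∀ v : G, BG.cj v L ≠ BG.cj (v * u) L := fun v e => n1 (by
      rw [cj_mul, cj_inj] at e; exact e.symm)
    by_cases hv : ∀ v ∈ Q, BG.cj v L = L ∨ BG.cj v L = BG.cj u L
    · have k : ∀ a ∈ Q, ∀ b ∈ Q, BG.cj a L = BG.cj b L → a * z₁ * a⁻¹ = b * z₁ * b⁻¹ := by
        intro a ha b hb e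
        have := fix (b⁻¹ * a) (h.cent (mul_mem (inv_mem hb) ha))
          (mem_norm_iff_cj.2 (by rw [cj_mul, e, cj_inv_cj]))
        calc _ = b * (b⁻¹ * a * z₁ * (b⁻¹ * a)⁻¹) * b⁻¹ := by group
          _ = _ := by rw [this]
      have k1 : ∀ a ∈ Q, BG.cj a L = L → a * z₁ * a⁻¹ = z₁ := fun a ha e => by
        simpa using k a ha 1 (one_mem _) (by simpa using e)
      have h1 : z₁ * (u * z₁ * u⁻¹) ∈ 𝓒(Q) := fun v hv' => by
        rw [← mul_inv_eq_iff_eq_mul, ← conj_mul,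
          show v * (u * z₁ * u⁻¹) * v⁻¹ = v * u * z₁ * (v * u)⁻¹ by group]
        rcases hv v hv' with a1 | a1 <;> rcases hv _ (mul_mem hv' hu) with a2 | a2
        · exact absurd (a1.trans a2.symm) (n2 v)
        · rw [k1 v hv' a1, k _ (mul_mem hv' hu) u hu a2]
        · rw [k v hv' u hu a1, k1 _ (mul_mem hv' hu) a2]
          exact (c1 (m1 u hz₁) _ hz₁).symm
        · exact absurd (a1.trans a2.symm) (n2 v)
      rcases h.mem_iff.1 (hc ⟨h.cent_le h1, h1⟩) with a | a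
      · exact z1 (uniq (hZ hLc) hz₁ (one_mem _) (c1 (m1 u hz₁)) (one_mem _) (by rw [a, one_mul])).1
      · exact hz (a ▸ mul_mem (mem_sup_left hz₁) (mem_sup_right (m1 u hz₁)))
    push Not at hv
    obtain ⟨v, hv, a1, a2⟩ := hv
    have k : ∀ c ∈ L ⊓ 𝓒₁(z₁), c ≠ 1 → v * ⁅c, u⁆ * v⁻¹ = ⁅c, u⁆ * z := fun c hc c0 => by
      refine (h.conj_or hv (wQ c hc)).resolve_left fun e => c0 ?_
      have b1 : ⁅c, u⁆ ∈ 𝓒(BG.cj v L) := by
        rw [cm]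
        exact mul_mem (ne_c hLc (hcj v) a1.symm hc.1)
          (ne_c (hcj u) (hcj v) a2.symm (m1 u (inv_mem hc.1)))
      have b2 : v * c * v⁻¹ = ⁅c, u⁆ * (v * u * c * (v * u)⁻¹) := by
        rw [← mul_inv_eq_iff_eq_mul.2 e, cm]; group
      exact conj_eq_one_iff.1 (mem_bot.1 ((hZ (hcj v)).le ⟨m1 v hc.1, b2 ▸ mul_mem b1
        (ne_c (hcj _) (hcj v) (n2 v).symm (m1 _ hc.1))⟩))
    refine small_false (comp_perfect hLc) hz₁ z1 z2 fun c hc => (mem_two z2).2 ?_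
    by_contra! b
    have b0 : z₁ ∈ L ⊓ 𝓒₁(z₁) := ⟨hz₁, mem_cent1_self _⟩
    have b1 := k _ (mul_mem hc b0) fun e => b.2 (by rw [mul_eq_one_iff_eq_inv.1 e, inv_eq z2])
    have b2 : ⁅c * z₁, u⁆ = ⁅c, u⁆ * ⁅z₁, u⁆ := by
      rw [cm, cm, cm, mem_cent1.1 hc.2, mul_assoc c, ← mul_assoc (u * c⁻¹ * u⁻¹),
        ← c1 (m1 u (inv_mem hc.1)) _ hz₁, ← mem_cent1.1 hc.2]
      rw [show (c * z₁)⁻¹ = c⁻¹ * z₁⁻¹ by rw [mem_cent1.1 hc.2, mul_inv_rev]]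
      group
    rw [b2, ← conj_mul, k c hc b.1, k _ b0 z1, mul_assoc, mul_assoc, mul_right_inj, ← mul_assoc,
      mul_left_inj, ← mem_cent1.1 (h.cent (wQ _ b0)), mul_eq_left] at b1
    exact h.ne b1
  have h3 : L ⊔ BG.cj u L = M := le_antisymm (hME ▸ sup_le (le_layer hLc) (le_layer (hcj u)))
    (hME.le.trans (layer_le fun K hK => by
      by_contra e
      exact nc hK ((le_cent_sup (ne_c hK hLc fun e' => e (e'.le.trans le_sup_left))
        (ne_c hK (hcj u) fun e' => e (e'.le.trans le_sup_right))).trans (cent_le_cent1 hzL))))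
  have nL : M ≤ 𝓝(L) := hME ▸ layer_le_normalizer hLc
  have dec : ∀ x ∈ M, ∃ a ∈ L, ∃ b ∈ L, a * (u * b * u⁻¹) = x := fun x hx => by
    obtain ⟨a, ha, b, hb, e⟩ := (mem_sup_norm' (c1.trans (cent_le_norm L))).1 (h3.ge hx)
    obtain ⟨c, hc, rfl⟩ := BG.mem_cj'.1 hb
    exact ⟨a, ha, c, hc, e⟩
  have hd' : d = u * z₁ * u⁻¹ := by
    obtain ⟨a, ha, b, hb, e1⟩ := dec z hzM
    obtain ⟨rfl, rfl⟩ := uniq (hZ hLc) ha hz₁ (c1 (m1 u hb)) hd (e1.trans e.symm)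
    have b1 : u * u * b * (u * u)⁻¹ ∈ L :=
      conj_mem_of_mem_norm (nL (zpowers_le.2 hzM (h.pow u hu))) hb
    refine (uniq (hZ hLc) ha b1 (c1 (m1 u hb)) (c1 (m1 u ha)) ?_).2
    rw [c1 (m1 u ha) _ b1, e1, ← mul_inv_eq_iff_eq_mul.2 (mem_cent1.1 (h.cent hu)), ← e1]
    group
  subst hd'
  have sq : ∀ c ∈ L ⊓ 𝓒₁(z₁), c ^ 2 ∈ zpowers z₁ := fun c hc => by
    have b1 : ⁅c, u⁆ * ⁅c, u⁆ = c ^ 2 * (u * (c ^ 2)⁻¹ * u⁻¹) := by
      rw [cm, mul_assoc, ← mul_assoc (u * c⁻¹ * u⁻¹), ← c1 (m1 u (inv_mem hc.1)) _ hc.1, pow_two]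
      group
    have b2 := pow_mem hc.1 2
    rcases h.mem_iff.1 (b1 ▸ h.pow _ (wQ c hc)) with a | a
    · rw [(uniq (hZ hLc) b2 (one_mem _) (c1 (m1 u (inv_mem b2))) (one_mem _) (by rw [a, one_mul])).1]
      exact one_mem _
    · rw [(uniq (hZ hLc) b2 hz₁ (c1 (m1 u (inv_mem b2))) hd (a.trans e.symm)).1]
      exact mem_zpowers _
  have p4 : ∀ c ∈ L ⊓ 𝓒₁(z₁), c ^ 2 ^ 2 = 1 := fun c hc => by
    rw [pow_two 2, pow_mul]
    rcases (mem_two z2).1 (sq c hc) with a | a <;> rw [a]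
    exacts [one_pow 2, (pow_two _).trans z2]
  refine ⟨hMF, L, u, hu, hS, hnc, i1, fun x hx y hy => c1 hy x hx, h3, z₁, hz₁, e.symm, ?_, sq,
    fun hQ => ?_⟩
  · obtain ⟨T, hT, hQ⟩ := syl_superset Nat.prime_two h.isPi le_top
    have b1 : T ≤ 𝓒₁(z) := le_cent1_iff.2 ((h.center_eq hc hT.pi hQ).ge (mem_zpowers z)).2
    refine ((hT.inf_normal le_top (top_le_norm M T)).inf_normal (le_sup_left.trans h3.le)
      (inf_le_right.trans nL)).of_ge (isPi_of_expDvd Nat.prime_two p4) (fun c hc => ⟨hc.2, ?_⟩)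
      inf_le_left
    exact mem_cent1.2 (mul_inv_eq_iff_eq_mul.1 (fix c (b1 hc.1.1) (le_norm_self L hc.2)))
  · have b1 : M ⊓ 𝓒₁(z) ≤ Q := hQ ▸ BG.le_core (isPi_of_expDvd Nat.prime_two (k := 2) fun x hx => by
      obtain ⟨a, ha, b, hb, rfl⟩ := dec x hx.1
      have b2 := uniq (hZ hLc) (mul_mem ha hz₁) (mul_mem hz₁ ha) (c1 (m1 u (mul_mem hb hz₁)))
        (c1 (m1 u (mul_mem hz₁ hb))) (by
          have := mem_cent1.1 hx.2
          rw [← e] at this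
          rw [← conj_mul, ← conj_mul, mul_assoc a, ← mul_assoc z₁ (u * b * u⁻¹),
            c1 (m1 u hb) _ hz₁, mul_assoc z₁, ← mul_assoc a (u * z₁ * u⁻¹), c1 (m1 u hz₁) _ ha]
          simpa only [mul_assoc] using this)
      rw [Commute.mul_pow (c1 (m1 u hb) _ ha), conj_pow, p4 a ⟨ha, mem_cent1.2 b2.1⟩,
        p4 b ⟨hb, mem_cent1.2 (by simpa using b2.2)⟩]
      simp) inf_le_right (norm_inf (top_le_norm _ _) (le_norm_self _))
    refine small_false (comp_perfect hLc) hz₁ z1 z2 fun c hc => ?_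
    rcases h.mem_iff.1 (cm c ▸ h.comm (b1 ⟨h3.le (mem_sup_left hc.1), C1 c hc.1 hc.2⟩) hu) with a | a
    · rw [(uniq (hZ hLc) hc.1 (one_mem _) (c1 (m1 u (inv_mem hc.1))) (one_mem _)
        (by rw [a, one_mul])).1]
      exact one_mem _
    · rw [(uniq (hZ hLc) hc.1 hz₁ (c1 (m1 u (inv_mem hc.1))) hd (a.trans e.symm)).1]
      exact mem_zpowers _

theorem large_quot {M A R : Subgroup G} [(A.subgroupOf M).Normal] (hR : R ≤ M) (hz : z ∈ R)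
    (hzA : z ∉ A) (h2 : z * z = 1) (hc : R ≤ 𝓒₁(z)) (hp : ∀ x ∈ R, x * x ∈ zpowers z)
    (h3 : ∀ c ∈ M, (c * z)⁻¹ * (z * c) ∈ A → ∀ r ∈ R, c * r * c⁻¹ ∈ R)
    (h4 : ∀ c ∈ M, (∀ r ∈ R, (r * c)⁻¹ * (c * r) ∈ A) → c ∈ A ∨ z⁻¹ * c ∈ A)
    (h8 : 8 < A.relIndex R) (hx : x ∈ M) (hx1 : x * z * x⁻¹ ∈ R)
    (hx2 : (x * z * x⁻¹)⁻¹ * z ∉ A) :
    IsLargeExtraspecial ((R.subgroupOf M).map (QuotientGroup.mk' (A.subgroupOf M))) := by
  set π := QuotientGroup.mk' (A.subgroupOf M) with hπ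
  have e : ∀ a b : M, π a = π b ↔ (a : G)⁻¹ * b ∈ A := fun a b => QuotientGroup.eq
  set w := π ⟨z, hR hz⟩ with hw
  have w1 : w ≠ 1 := fun e' => hzA ((QuotientGroup.eq_one_iff (N := A.subgroupOf M) _).1 e')
  have w2 : w * w = 1 := by rw [hw, ← map_mul, ← map_one π]; exact congrArg π (Subtype.ext h2)
  have wm : w ∈ (R.subgroupOf M).map π := mem_map_of_mem _ hz
  have hC : 𝓒((R.subgroupOf M).map π) ≤ zpowers w := fun c hc => by
    obtain ⟨c, rfl⟩ := QuotientGroup.mk'_surjective _ c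
    refine (mem_two w2).2 ((h4 c c.2 fun r hr => (e (⟨r, hR hr⟩ * c) (c * ⟨r, hR hr⟩)).1 ?_).imp
      (QuotientGroup.eq_one_iff _).2 fun h => ((e _ _).2 h).symm)
    rw [map_mul, map_mul]
    exact hc _ (mem_map_of_mem _ hr)
  have c8 : 8 < ♯((R.subgroupOf M).map π) := by
    rwa [← relIndex_ker, hπ, QuotientGroup.ker_mk', relIndex_subgroupOf hR]
  have hE : EX ((R.subgroupOf M).map π) w :=
    { mem := wm
      ne := w1
      sq := w2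
      cent := by
        rintro _ ⟨r, hr, rfl⟩
        rw [mem_cent1, hw, ← map_mul, ← map_mul]
        exact congrArg π (Subtype.ext (mem_cent1.1 (hc hr)))
      pow := by
        rintro _ ⟨r, hr, rfl⟩
        rw [← map_mul, mem_two w2, ← map_one π]
        exact ((mem_two h2).1 (hp r hr)).imp (fun h => congrArg π (Subtype.ext h))
          fun h => congrArg π (Subtype.ext h)
      inv := fun c hc _ => hC hc.2
      ctr := inf_le_right.trans hC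
      nc := fun h => by
        have := card_le_of_le' ((comm_iff_le_cent.1 h).trans hC)
        rw [Nat.card_zpowers, orderOf_eq_prime ((pow_two w).trans w2) w1] at this
        omega }
  refine (hE.large_of_fused (g := π ⟨x, hx⟩) (fun c hc => ?_) (hC.trans (zpowers_le.2 wm)) c8 ?_ ?_).2
  · obtain ⟨c, rfl⟩ := QuotientGroup.mk'_surjective _ c
    have := h3 c c.2 ((e (c * ⟨z, hR hz⟩) (⟨z, hR hz⟩ * c)).1 (by
      rw [map_mul, map_mul]; exact mem_cent1.1 hc))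
    refine CA.Rad.mem_normalizer_of_conj_mem ?_
    rintro _ ⟨r, hr, rfl⟩
    exact ⟨c * r * c⁻¹, this r hr, by rw [map_mul, map_mul, map_inv]⟩
  · exact ⟨⟨x, hx⟩ * ⟨z, hR hz⟩ * ⟨x, hx⟩⁻¹, hx1, by rw [map_mul, map_mul, map_inv]⟩
  · rw [hw, ← map_mul, ← map_inv, ← map_mul, Ne, e]
    exact hx2

theorem EX.exists_move (h : EX Q z) (ht : t ∈ Q) (hy : y ∈ Q) (h1 : y ∉ zpowers z)
    (h2 : y * t ∉ zpowers z) : ∃ q ∈ Q ⊓ 𝓒₁(t), q * y * q⁻¹ = y * z := by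
  obtain ⟨q, hq, h3⟩ := SetLike.not_le_iff_exists.1 fun e : Q ⊓ 𝓒₁(t) ≤ 𝓒₁(y) =>
    (h.cent_cent ht hy (le_cent1_iff.1 e)).elim (fun a => h1 (h.ctr ⟨hy, a⟩))
      fun a => h2 (h.ctr ⟨mul_mem hy ht, a⟩)
  exact ⟨q, hq, h.conj hq.1 hy h3⟩

theorem EX.map {H : Type*} [Group H] {Q : Subgroup H} {z : H} (h : EX Q z) {f : H →* G}
    (hf : Function.Injective f) : EX (Q.map f) (f z) := by
  have k : ∀ c ∈ 𝓩(Q.map f), c ∈ zpowers (f z) := by
    rintro _ ⟨⟨c, hc, rfl⟩, h2⟩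
    rw [← MonoidHom.map_zpowers]
    exact mem_map_of_mem f (h.ctr ⟨hc, mem_cent.2 fun a ha => hf (by
      rw [map_mul, map_mul]; exact mem_cent.1 h2 _ (mem_map_of_mem f ha))⟩)
  refine ⟨⟨mem_map_of_mem f h.mem, fun e => h.ne (hf (e.trans f.map_one.symm)),
    by rw [← map_mul, h.sq, map_one], ?_, ?_, fun c hc _ => k c hc⟩, k,
    fun hc => h.nc ⟨⟨fun a b => Subtype.ext (hf ?_)⟩⟩⟩
  · rintro _ ⟨a, ha, rfl⟩
    rw [mem_cent1, ← map_mul, ← map_mul, mem_cent1.1 (h.cent ha)]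
  · rintro _ ⟨a, ha, rfl⟩
    rw [← map_mul, ← MonoidHom.map_zpowers]; exact mem_map_of_mem f (h.pow a ha)
  · simpa using congrArg Subtype.val (hc.1.1 ⟨_, mem_map_of_mem f a.2⟩ ⟨_, mem_map_of_mem f b.2⟩)

theorem SX.relIndex_cent (h : SX Q z) (hy : y ∈ Q) (hn : ¬ Q ≤ 𝓒₁(y)) :
    𝓒₁(y).relIndex Q = 2 := by
  obtain ⟨q, hq, h1⟩ := SetLike.not_le_iff_exists.1 hn
  refine index_eq_two_iff.2 ⟨⟨q, hq⟩, fun b => ?_⟩
  by_cases e : (b : G) ∈ 𝓒₁(y)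
  · exact Or.inr ⟨e, fun e' => h1 ((mul_mem_cancel_left e).1 e')⟩
  · exact Or.inl ⟨h.mul_cent hy b.2 hq e h1, e⟩

end CA.H7Lge
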