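import Cfsg.Agent.Lib.Grp.Zsig

/-! Lower bounds for the primitive part of `a ^ n - 1` (large Zsigmondy primes). -/

namespace CA.H7Zsig
open Polynomial Finset CA.Zsig

theorem prod_ge (n : ℕ) : (1 / 4 : ℚ) + (1 / 2) ^ (n + 2) ≤ ∏ b ∈ range (n + 1), (1 - (1 / 2 : ℚ) ^ (b + 1)) := by
  induction n with
  | zero => norm_num
  | succ n ih =>
    rw [prod_range_succ]
    have h0 : (0 : ℚ) < (1 / 2) ^ n := by positivity
    have h1 : (1 / 2 : ℚ) ^ n ≤ 1 := pow_le_one₀ (by norm_num) (by norm_num)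
    have h2 : (0 : ℚ) ≤ 1 - (1 / 2) ^ (n + 1 + 1) := by rw [pow_succ, pow_succ]; linarith
    refine le_trans ?_ (mul_le_mul_of_nonneg_right ih h2)
    simp only [pow_succ]
    nlinarith

theorem phi_ge {n a : ℕ} (hn : 0 < n) (ha : 1 < a) : (a : ℤ) ^ n.totient ≤ 4 * phi n a := by
  have ha' : (1 : ℚ) < a := by exact_mod_cast ha
  have ha0 : (0 : ℚ) < a := by linarith
  set f : ℕ → ℚ := fun n => (phi n a : ℚ) / (a : ℚ) ^ n.totient with hf
  set g : ℕ → ℚ := fun n => 1 - (1 / (a : ℚ)) ^ n with hg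
  have hg0 : ∀ n, 0 < n → 0 < g n := fun n hn => by
    have : (1 / (a : ℚ)) ^ n < 1 := pow_lt_one₀ (by positivity) ((div_lt_one ha0).2 ha') hn.ne'
    simp only [hg]; linarith
  have hg1 : ∀ n, g n ≤ 1 := fun n => by
    have : (0 : ℚ) ≤ (1 / (a : ℚ)) ^ n := by positivity
    simp only [hg]; linarith
  have key := (ArithmeticFunction.prod_eq_iff_prod_pow_moebius_eq_of_nonzero (f := f) (g := g)
    (fun n _ => by
      have : (0 : ℚ) < phi n a := by exact_mod_cast phi_pos ha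
      simp only [hf]; positivity)
    (fun n hn => (hg0 n hn).ne')).1 (fun n hn => by
      simp only [hf, hg]
      rw [prod_div_distrib, prod_pow_eq_pow_sum, Nat.sum_totient]
      have : ∏ i ∈ n.divisors, (phi i a : ℚ) = (a : ℚ) ^ n - 1 := by
        simp only [phi_cast]
        rw [← eval_prod, prod_cyclotomic_eq_X_pow_sub_one hn]; simp
      rw [this, one_div, inv_pow]; field_simp) n hn
  have h1 : ∏ x ∈ n.divisorsAntidiagonal, g x.snd ≤ f n := by
    rw [← key]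
    refine prod_le_prod (fun x hx => (hg0 _ (Nat.pos_of_ne_zero
      (Nat.ne_zero_of_mem_divisorsAntidiagonal hx).2)).le) fun x hx => ?_
    have h0 := hg0 _ (Nat.pos_of_ne_zero (Nat.ne_zero_of_mem_divisorsAntidiagonal hx).2)
    rcases ArithmeticFunction.moebius_eq_or x.fst with e | e | e <;> rw [e]
    · simpa using hg1 _
    · simp
    · rw [zpow_neg, zpow_one]
      exact (hg1 _).trans ((one_le_inv₀ h0).2 (hg1 _))
  rw [Nat.prod_divisorsAntidiagonal' (f := fun _ d => g d)] at h1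
  have h2 : ∏ b ∈ range n, g (b + 1) ≤ ∏ d ∈ n.divisors, g d := by
    rw [range_eq_Ico, prod_Ico_add' g 0 n 1]
    refine prod_le_prod_of_subset_of_le_one (fun d hd => ?_)
      (fun i hi => (hg0 i (by simp at hi; omega)).le) fun i _ _ => hg1 i
    have := Nat.divisor_le hd
    have := Nat.pos_of_mem_divisors hd
    simp; omega
  obtain ⟨n, rfl⟩ := Nat.exists_eq_succ_of_ne_zero hn.ne'
  have h3 : ∏ b ∈ range (n + 1), (1 - (1 / 2 : ℚ) ^ (b + 1)) ≤ ∏ b ∈ range (n + 1), g (b + 1) := by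
    refine prod_le_prod (fun b _ => ?_) fun b _ => ?_
    · have : (1 / 2 : ℚ) ^ (b + 1) ≤ 1 := pow_le_one₀ (by norm_num) (by norm_num)
      linarith
    · have : (1 / (a : ℚ)) ^ (b + 1) ≤ (1 / 2) ^ (b + 1) :=
        pow_le_pow_left₀ (by positivity) (one_div_le_one_div_of_le (by norm_num)
          (by exact_mod_cast ha)) _
      simp only [hg]; linarith
  have h4 : (1 / 4 : ℚ) ≤ f (n + 1) := by
    have : (0 : ℚ) < (1 / 2) ^ (n + 2) := by positivity
    linarith [prod_ge n]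
  simp only [hf] at h4
  rw [le_div_iff₀ (by positivity)] at h4
  have : ((a : ℚ)) ^ (n + 1).totient ≤ 4 * (phi (n + 1) a : ℚ) := by linarith
  exact_mod_cast this

theorem le_totient_sq (n : ℕ) : (Odd n → n ≤ n.totient ^ 2) ∧ n ≤ 2 * n.totient ^ 2 := by
  induction n using Nat.recOnPosPrimePosCoprime with
  | prime_pow p k hp hk =>
    obtain ⟨k, rfl⟩ := Nat.exists_eq_succ_of_ne_zero hk.ne'
    rw [Nat.totient_prime_pow_succ hp]
    have h1 : 1 ≤ p ^ k := Nat.one_le_pow _ _ hp.pos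
    have h2 := hp.two_le
    obtain ⟨q, rfl⟩ : ∃ q, p = q + 1 := ⟨p - 1, by omega⟩
    simp only [Nat.succ_eq_add_one, pow_succ, Nat.add_sub_cancel, pow_zero, one_mul]
    set x := (q + 1) ^ k
    refine ⟨fun ho => ?_, ?_⟩
    · have h3 : 2 ≤ q := by
        by_contra h
        have : q = 1 := by omega
        subst this
        exact absurd ho (by simp [Nat.odd_mul])
      calc x * (q + 1) ≤ x * (x * (q * q)) := Nat.mul_le_mul_left _ (by nlinarith)
        _ = _ := by ring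
    · calc x * (q + 1) ≤ x * (x * (2 * (q * q))) := Nat.mul_le_mul_left _ (by nlinarith)
        _ = _ := by ring
  | zero => simp
  | one => simp
  | coprime a b ha hb hab iha ihb =>
    rw [Nat.totient_mul hab, mul_pow]
    refine ⟨fun ho => Nat.mul_le_mul (iha.1 (Nat.odd_mul.1 ho).1) (ihb.1 (Nat.odd_mul.1 ho).2), ?_⟩
    rcases Nat.even_or_odd a with h | h
    · have hb' : Odd b := by
        by_contra hb'
        have := Nat.dvd_gcd h.two_dvd (Nat.not_odd_iff_even.1 hb').two_dvd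
        rw [hab] at this; omega
      calc a * b ≤ (2 * a.totient ^ 2) * b.totient ^ 2 := Nat.mul_le_mul iha.2 (ihb.1 hb')
        _ = _ := by ring
    · calc a * b ≤ a.totient ^ 2 * (2 * b.totient ^ 2) := Nat.mul_le_mul (iha.1 h) ihb.2
        _ = _ := by ring

theorem pow_big {t : ℕ} (ht : 17 ≤ t) : 4 * (4 * t ^ 2 + 1) * (t + 1) < 2 ^ t := by
  induction t, ht using Nat.le_induction with
  | base => norm_num
  | succ t ht ih => rw [pow_succ 2 t]; nlinarith

theorem mid : ∀ n < 513, 42 < n → 4 * (2 * n + 1) * (n.totient + 1) < 2 ^ n.totient := by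
  decide +kernel

theorem low : ∀ n < 43, 3 ≤ n → 4 * (2 * n + 1) * (n.totient + 1) < 13 ^ n.totient := by
  decide +kernel

theorem bound {n a : ℕ} (hn : 3 ≤ n) (ha : 2 ≤ a) (h : 42 < n ∨ 13 ≤ a) :
    4 * (2 * n + 1) * (n.totient + 1) < a ^ n.totient := by
  by_cases h1 : 42 < n
  · refine lt_of_lt_of_le ?_ (Nat.pow_le_pow_left ha _)
    by_cases h2 : n < 513
    · exact mid n h2 h1
    · have h3 := (le_totient_sq n).2
      have h4 : 17 ≤ n.totient := by
        by_contra h4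
        have : n.totient ^ 2 ≤ 16 ^ 2 := Nat.pow_le_pow_left (by omega) _
        omega
      refine lt_of_le_of_lt ?_ (pow_big h4)
      exact Nat.mul_le_mul_right _ (by omega)
  · exact lt_of_lt_of_le (low n (by omega) hn) (Nat.pow_le_pow_left (by omega) _)

theorem dvd_iff {r a k : ℕ} (ha : 1 < a) : r ∣ a ^ k - 1 ↔ (a : ZMod r) ^ k = 1 := by
  rw [← ZMod.natCast_eq_zero_iff, Nat.cast_sub (Nat.one_le_pow _ _ (by omega)), sub_eq_zero]
  push_cast; rfl

/-- a primitive prime divisor is `1` mod `n` -/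
theorem prim_modEq {r a n : ℕ} (hr : r.Prime) (ha : 1 < a) (hn : 0 < n) (h : r ∣ a ^ n - 1)
    (h' : ∀ i, 1 ≤ i → i < n → ¬ r ∣ a ^ i - 1) : n ∣ r - 1 := by
  haveI := Fact.mk hr
  refine dvd_sub_one_of_prim (a := a) hn.ne' ?_
  rw [IsPrimitiveRoot.iff hn]
  exact ⟨(dvd_iff ha).1 h, fun l h1 h2 e => h' l h1 h2 ((dvd_iff ha).2 e)⟩

theorem modEq_one {m n : ℕ} (hm : m ≠ 0) (h : ∀ r, r.Prime → r ∣ m → n ∣ r - 1) : m ≡ 1 [MOD n] := by
  induction m using Nat.recOnMul with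
  | zero => exact absurd rfl hm
  | one => rfl
  | prime p hp => exact ((Nat.modEq_iff_dvd' hp.one_le).2 (h p hp dvd_rfl)).symm
  | mul a b iha ihb =>
    simpa using (iha (left_ne_zero_of_mul hm) fun r hr h1 => h r hr (h1.mul_right _)).mul
      (ihb (right_ne_zero_of_mul hm) fun r hr h1 => h r hr (h1.mul_left _))

/-- `Φ_n(a) = m * r` with `m` primitive and `r` equal to `1` or a prime divisor of `n` -/
theorem prim_part {n a : ℕ} (hn : 3 ≤ n) (ha : 1 < a) : ∃ m r : ℕ, phi n a = (m * r : ℕ) ∧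
    r ≤ n.totient + 1 ∧ ∀ s, s.Prime → s ∣ m → ¬ s ∣ n := by
  set N := (phi n a).natAbs with hN
  have hNc : (N : ℤ) = phi n a := Int.natAbs_of_nonneg (phi_pos ha).le
  by_cases h : ∃ r : ℕ, r.Prime ∧ r ∣ N ∧ r ∣ n
  swap
  · push Not at h
    exact ⟨N, 1, by rw [mul_one, hNc], by omega, h⟩
  obtain ⟨r, hr, ⟨m, hm⟩, hrn⟩ := h
  have huniq : ∀ r s : ℕ, r.Prime → s.Prime → r ∣ N → s ∣ n → r ≠ s → s < r := by
    intro r s hr hs hrN hs2 hne
    haveI := Fact.mk hr
    obtain ⟨k, m, hm, hn'⟩ := Nat.exists_eq_pow_mul_and_not_dvd (n := n) (by omega) r hr.ne_one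
    have hm0 : m ≠ 0 := by rintro rfl; simp at hm
    have hp : IsPrimitiveRoot (a : ZMod r) m :=
      prim_of_dvd (k := k) hm (by rw [← hn', ← hNc]; exact_mod_cast hrN)
    have hmr := Nat.le_of_dvd (by have := hr.two_le; omega) (dvd_sub_one_of_prim hm0 hp)
    rw [hn'] at hs2
    rcases (Nat.Prime.dvd_mul hs).1 hs2 with h | h
    · exact absurd ((Nat.prime_dvd_prime_iff_eq hs hr).1 (hs.dvd_of_dvd_pow h)).symm hne
    · have := Nat.le_of_dvd (by omega) h
      have := hr.two_le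
      omega
  refine ⟨m, r, by rw [← hNc, hm, mul_comm], ?_, fun s hs hsm hsn => ?_⟩
  · have := Nat.totient_dvd_of_dvd hrn
    rw [Nat.totient_prime hr] at this
    have := Nat.le_of_dvd (Nat.totient_pos.2 (by omega)) this
    omega
  · by_cases e : r = s
    · subst e
      refine not_sq_dvd hr ha (by omega) (by omega) hrn ?_
      rw [← hNc, hm, pow_two]
      exact_mod_cast Nat.mul_dvd_mul_left r hsm
    · have h1 := huniq r s hr hs ⟨m, hm⟩ hsn e
      have h2 := huniq s r hs hr (hm ▸ hsm.mul_left r) hrn (Ne.symm e)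
      omega

theorem large {n a : ℕ} (hn : 3 ≤ n) (ha : 2 ≤ a) (h : 42 < n ∨ 13 ≤ a) :
    ∃ m : ℕ, m ∣ a ^ n - 1 ∧ (∀ i : ℕ, 1 ≤ i → i < n → Nat.Coprime m (a ^ i - 1)) ∧
      3 * n + 1 ≤ m := by
  obtain ⟨m, r, e, hr, hs⟩ := prim_part hn ha
  have hp : ∀ s, s.Prime → s ∣ m → IsPrimitiveRoot (a : ZMod s) n := fun s hs' hsm => by
    haveI := Fact.mk hs'
    exact prim_of_dvd (k := 0) (hs s hs' hsm) (by
      rw [pow_zero, one_mul, e]; exact_mod_cast hsm.mul_right r)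
  have h1 := bound hn ha h
  have h2 := phi_ge (n := n) (by omega) ha
  rw [e] at h2
  have h3 : a ^ n.totient ≤ 4 * (m * r) := by exact_mod_cast h2
  have h4 : 2 * n + 1 < m := by
    by_contra h4
    have : m * r ≤ (2 * n + 1) * (n.totient + 1) := Nat.mul_le_mul (by omega) hr
    nlinarith
  refine ⟨m, ?_, fun i h5 h6 => ?_, ?_⟩
  · have := phi_dvd n a
    rw [e] at this
    have h5 : ((m * r : ℕ) : ℤ) ∣ ((a ^ n - 1 : ℕ) : ℤ) := by
      rwa [Nat.cast_sub (Nat.one_le_pow _ _ (by omega)), Nat.cast_pow, Nat.cast_one]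
    exact (Dvd.intro _ rfl).trans (Int.natCast_dvd_natCast.1 h5)
  · refine Nat.coprime_of_dvd fun s hs' hsm h7 => ?_
    have := Nat.le_of_dvd h5 ((hp s hs' hsm).dvd_of_pow_eq_one i ((dvd_iff ha).1 h7))
    omega
  · have h5 := modEq_one (m := m) (n := n) (by omega) fun s hs' hsm => by
      haveI := Fact.mk hs'
      exact dvd_sub_one_of_prim (by omega) (hp s hs' hsm)
    obtain ⟨c, hc⟩ := (Nat.modEq_iff_dvd' (by omega : 1 ≤ m)).1 h5.symm
    have : 3 ≤ c := by
      by_contra h6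
      have : n * c ≤ n * 2 := Nat.mul_le_mul_left _ (by omega)
      omega
    have : n * 3 ≤ n * c := Nat.mul_le_mul_left _ this
    omega

/-- remove from `N` the primes dividing `d` -/
def strip (N d : ℕ) : ℕ := N / Nat.gcd N (d ^ 6)

/-- candidate for the primitive part -/
def cand (a n : ℕ) : ℕ := (List.range n).foldl (fun N i => if i = 0 then N else strip N (a ^ i - 1)) (a ^ n - 1)

def exc : List (ℕ × ℕ) := [(2, 6), (2, 4), (2, 10), (2, 12), (2, 18), (3, 4), (3, 6), (5, 6), (2, 3),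
  (2, 8), (2, 20), (4, 3), (4, 6)]

/-- the check -/
def Ok (a n m : ℕ) : Prop := m ∣ a ^ n - 1 ∧ (∀ i < n, 1 ≤ i → Nat.gcd m (a ^ i - 1) = 1) ∧ 3 * n + 1 ≤ m

instance (a n m : ℕ) : Decidable (Ok a n m) := by unfold Ok; infer_instance

set_option synthInstance.maxSize 1000 in
set_option synthInstance.maxHeartbeats 200000 in
theorem small : ∀ a < 13, ∀ n < 43, 2 ≤ a → 3 ≤ n → (a, n) ∈ exc ∨ Ok a n (cand a n) := by
  decide +kernel

theorem main {n a : ℕ} (hn : 3 ≤ n) (ha : 2 ≤ a) (h : (a, n) ∉ exc) :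
    ∃ m : ℕ, m ∣ a ^ n - 1 ∧ (∀ i : ℕ, 1 ≤ i → i < n → Nat.Coprime m (a ^ i - 1)) ∧
      3 * n + 1 ≤ m := by
  by_cases h' : 42 < n ∨ 13 ≤ a
  · exact large hn ha h'
  · obtain ⟨h1, h2, h3⟩ := (small a (by omega) n (by omega) ha hn).resolve_left h
    exact ⟨_, h1, fun i h4 h5 => h2 i h5 h4, h3⟩

end CA.H7Zsig
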