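import Cfsg.Agent.Lib.Grp.H28Nse
import Cfsg.Agent.Lib.Cit.CtG1

/-!
Numerical tools for the numbers of elements of each order.
-/

set_option autoImplicit false

namespace CA.H8Nse

open Subgroup Finset CA.H8Ord CA.Ss3 CA.H28Nse CA.H28Syl CA.H28SC CA.H28Sol

variable {G : Type*} [Group G] [Finite G] {p m n : ℕ}

theorem sum_le (D : Finset ℕ) : ∑ d ∈ D, ss G d ≤ Nat.card G := by
  classical
  have := Fintype.ofFinite G
  simp only [ss, Nat.card_eq_fintype_card, Fintype.card_subtype]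
  rw [sum_card_fiberwise_eq_card_filter]
  exact card_le_univ _

theorem sum_vals (V : Finset ℕ) (h : ∀ v ∈ V, ∃ m, ss G m = v) : ∑ v ∈ V, v ≤ Nat.card G := by
  classical
  choose! f hf using h
  refine le_trans (le_of_eq ?_) (sum_le (V.image f))
  rw [sum_image fun a ha b hb e => by rw [← hf a ha, e, hf b hb]]
  exact sum_congr rfl fun v hv => (hf v hv).symm

theorem lsum (l : List ℕ) (h : l.Nodup ∧ n.divisors = l.toFinset) (f : ℕ → ℕ) :
    ∑ d ∈ n.divisors, f d = (l.map f).sum := by rw [h.2, List.sum_toFinset _ h.1]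

theorem fr (n : ℕ) (l : List ℕ) (h : n ∣ Nat.card G) (hl : l.Nodup ∧ n.divisors = l.toFinset := by decide +kernel) :
    n ∣ (l.map (ss G)).sum := lsum l hl _ ▸ frob h

theorem sum_eq (n : ℕ) (l : List ℕ) (h : ∀ g : G, orderOf g ∣ n)
    (hl : n ≠ 0 ∧ l.Nodup ∧ n.divisors = l.toFinset := by decide +kernel) :
    Nat.card G = (l.map (ss G)).sum := by
  classical
  have := Fintype.ofFinite G
  rw [← lsum l hl.2]
  simp only [ss, Nat.card_eq_fintype_card, Fintype.card_subtype]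
  rw [sum_card_orderOf_eq_card_pow_eq_one hl.1, filter_true_of_mem fun g _ => orderOf_dvd_iff_pow_eq_one.1 (h g)]
  rfl

theorem zr (h : ss G m = 0) (n : ℕ) (hn : m ∣ n := by decide) : ss G n = 0 := by_contra fun e => by
  obtain ⟨g, hg⟩ := ss_ne.1 e
  exact ss_ne_of_dvd (hg ▸ hn) h

theorem td (G : Type*) [Group G] [Finite G] (m t : ℕ) (h : m.totient = t := by decide +kernel) : t ∣ ss G m :=
  h ▸ tot_dvd m

theorem ev (h : 2 < m) : 2 ∣ ss G m := (Nat.totient_even h).two_dvd.trans (tot_dvd m)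

theorem two_eq {c : ℕ} (h : ss G m = c) (hc : c % 2 = 1) (h1 : c ≠ 1) : ss G 2 = c := by
  have h0 : m ≠ 0 := by
    rintro rfl
    exact Nat.card_pos.ne' (zero_dvd_iff.1 (ss_dvd (G := G) (by omega)))
  have h2 : m ≠ 1 := by rintro rfl; exact h1 (h ▸ ss_one)
  have h3 : ¬ 2 < m := fun e => by have := ev (G := G) e; omega
  rwa [show 2 = m by omega]

theorem pr_mem (hp : p.Prime) (h : p ∣ Nat.card G) {c : ℕ} (hc : ss G p = c) :
    p ∈ (c + 1).divisors.filter fun p => p.Prime ∧ p - 1 ∣ c :=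
  mem_filter.2 ⟨Nat.mem_divisors.2 ⟨one_prime hp h hc, by omega⟩, hp, by
    rw [← hc, ← Nat.totient_prime hp]; exact tot_dvd p⟩

theorem dvd_of (a b c : ℕ) (h : ∀ p, p.Prime → p ∣ n → p = 2 ∨ p = 3 ∨ p = 5) (h2 : ¬ 2 ^ (a + 1) ∣ n)
    (h3 : ¬ 3 ^ (b + 1) ∣ n) (h5 : ¬ 5 ^ (c + 1) ∣ n) : n ∣ 2 ^ a * 3 ^ b * 5 ^ c := by
  refine (Nat.dvd_iff_prime_pow_dvd_dvd _ _).2 fun p k hp e => ?_
  rcases k with _ | k
  · simp
  have key : ∀ a, ¬ p ^ (a + 1) ∣ n → p ^ (k + 1) ∣ p ^ a := fun a e' =>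
    pow_dvd_pow _ (not_lt.1 fun e'' => e' ((pow_dvd_pow _ e'').trans e))
  rcases h p hp ((dvd_pow_self p k.succ_ne_zero).trans e) with rfl | rfl | rfl
  · exact ((key a h2).mul_right _).mul_right _
  · exact ((key b h3).mul_left _).mul_right _
  · exact (key c h5).mul_left _

theorem syl (p : ℕ) [hp : Fact p.Prime] (h1 : p ∣ Nat.card G) (h2 : ¬ p ^ 2 ∣ Nat.card G) :
    ss G p = Nat.card (Sylow p G) * (p - 1) ∧ Nat.card (Sylow p G) ∣ Nat.card G ∧
      ∀ n, p ∣ n → Nat.card (Sylow p G) ∣ ss G n := by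
  obtain ⟨P⟩ : Nonempty (Sylow p G) := inferInstance
  refine ⟨card_ord h1 h2, P.card_dvd_index.trans (index_dvd_card _), fun n hn => dvd_card_ord fun g hg => ?_⟩
  have h3 := isSylGen_of_not_sq_dvd (orderOf_pow_orderOf_div (orderOf_pos g).ne' (hg ▸ hn)) h2
  refine (Dvd.intro_left _ h3.index_CC.symm).trans (index_dvd_of_le fun c hc => ?_)
  exact mem_CC_iff_commute.2 ((mem_CC_iff_commute.1 hc).pow_right _)

theorem cyc (p : ℕ) [hp : Fact p.Prime] (h2 : ¬ p ^ 3 ∣ Nat.card G) (h : ss G (p ^ 2) ≠ 0) :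
    ss G p * p ≤ ss G (p ^ 2) := by
  obtain ⟨x, hx⟩ := ss_ne.1 h
  have h3 : Nat.card (zpowers x) = p ^ 2 := by rw [Nat.card_zpowers, hx]
  let P := (IsPGroup.of_card h3).toSylow fun e => h2 (by
    rw [← card_mul_index (zpowers x), h3, pow_succ _ 2]; exact Nat.mul_dvd_mul_left _ e)
  have key : ∀ z : {g : G // orderOf g = p}, ∃ w : G, w ^ p = z := fun z => by
    obtain ⟨Q, hQ⟩ := (IsPGroup.of_card (n := 1) (by rw [card_zpowers' z.2, pow_one])).exists_le_sylow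
    obtain ⟨g, rfl⟩ := MulAction.exists_smul_eq G P Q
    obtain ⟨y, hy, e⟩ := hQ (mem_zpowers _)
    have h4 : orderOf y = p := by rw [← z.2, ← e]; exact (orderOf_conj' g y).symm
    obtain ⟨k, rfl⟩ := mem_zpowers_of_orderOf_eq (pow_mem (mem_zpowers x) p) hy (by
      rw [h4, orderOf_pow_of_dvd hp.out.ne_zero (hx ▸ dvd_pow_self p two_ne_zero), hx, pow_two,
        Nat.mul_div_cancel _ hp.out.pos])
    exact ⟨MulAut.conj g (x ^ k), by rw [← map_pow, ← e, ← zpow_natCast, ← zpow_mul, mul_comm, zpow_mul]; simp⟩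
  choose w hw using key
  have h5 : ∀ z (i : Fin p), (w z * z ^ i.1) ^ p = z := fun z i => by
    rw [Commute.mul_pow (hw z ▸ ((Commute.refl _).pow_right _).pow_right _), hw, ← pow_mul, mul_comm, pow_mul,
      orderOf_dvd_iff_pow_eq_one.1 z.2.dvd, one_pow, mul_one]
  have := Nat.card_le_card_of_injective (fun z : {g : G // orderOf g = p} × Fin p =>
    (⟨w z.1 * z.1 ^ z.2.1, orderOf_eq_prime_pow (n := 1) (by
      rw [pow_one, h5]; exact fun e => hp.out.one_lt.ne (by rw [← z.1.2, e, orderOf_one])) (by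
      rw [pow_two, pow_mul, h5]; exact orderOf_dvd_iff_pow_eq_one.1 z.1.2.dvd)⟩ : {g : G // orderOf g = p ^ 2}))
    fun ⟨z, i⟩ ⟨z', j⟩ e => by
      have e1 := congrArg Subtype.val e
      obtain rfl : z = z' := Subtype.ext (by rw [← h5 z i, ← h5 z' j]; exact congrArg (· ^ p) e1)
      exact Prod.ext rfl (Fin.ext (pow_injOn_Iio_orderOf (by simp [z.2]) (by simp [z.2]) (mul_left_cancel e1)))
  rwa [Nat.card_prod, Nat.card_fin] at this

theorem simple5 (h : Nat.card G = 10 * Nat.card (Sylow 5 G)) (h2 : ¬ 5 ^ 2 ∣ Nat.card G) (h0 : ss G 10 = 0)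
    (h1 : Nat.card (Sylow 5 G) = 6 ∨ Nat.card (Sylow 5 G) = 36) : IsSimpleGroup G := by
  haveI := Fact.mk Nat.prime_five
  have h3 : ∀ x : G, orderOf x = 5 → SC 5 x ∧ ee x = 2 := fun x hx => by
    have h3 := isSylGen_of_not_sq_dvd hx h2
    have h4 := h3.card_eq
    have h6 : Nat.card (VV 5 x) * ee x = 2 := by rcases h1 with e | e <;> rw [h, e] at h4 <;> linarith
    have h7 := ((Nat.dvd_prime Nat.prime_two).1 ⟨_, h6.symm⟩).resolve_right fun e => by
      obtain ⟨v, -, -, hv⟩ := exists_mul_VV h3 Nat.prime_two e.symm.dvd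
      exact ss_ne.2 ⟨_, hv⟩ h0
    exact ⟨sc_of_VV h3 (Subgroup.card_eq_one.1 h7), by rwa [h7, one_mul] at h6⟩
  obtain ⟨x, hx⟩ := exists_prime_orderOf_dvd_card' (G := G) 5 (by omega)
  refine simple_of_sc (fun y hy => (h3 y hy).1) hx ((h3 x hx).2 ▸ Nat.prime_two) (by omega) fun q k hq hk e => ?_
  exact pow_check (n := 36) (B := 6) (by decide) (by decide) (by decide +kernel) q k hq hk (e.trans (by
    rcases h1 with e | e <;> rw [e] <;> decide))

theorem ss_alt (n m c : ℕ) (h : 0 < m ∧ (univ.filter fun g : Equiv.Perm (Fin n) =>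
    Equiv.Perm.sign g = 1 ∧ g ^ m = 1 ∧ ∀ k < m, 0 < k → g ^ k ≠ 1).card = c := by decide +kernel) :
    ss (alternatingGroup (Fin n)) m = c := by
  rw [← h.2, ← Fintype.card_subtype, ← Nat.card_eq_fintype_card]
  exact Nat.card_congr ⟨fun g => ⟨g.1.1, g.1.2, (orderOf_eq_iff h.1).1 ((Subgroup.orderOf_coe _).trans g.2)⟩,
    fun g => ⟨⟨g.1, g.2.1⟩, (Subgroup.orderOf_coe _).symm.trans ((orderOf_eq_iff h.1).2 g.2.2)⟩, fun _ => rfl,
    fun _ => rfl⟩

theorem vals {H : Type*} [Group H] [Finite H] (l : List ℕ) (hl : l.Nodup) (h1 : (l.map (ss H)).sum = Nat.card H)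
    (h : ss G '' Set.range (orderOf : G → ℕ) = ss H '' Set.range (orderOf : H → ℕ)) :
    (∀ m, ss G m = 0 ∨ ss G m ∈ l.map (ss H)) ∧ ∀ v ∈ l.map (ss H), v ≠ 0 → ∃ m, ss G m = v := by
  refine ⟨fun m => or_iff_not_imp_left.2 fun e => ?_, fun v hv e => ?_⟩
  · obtain ⟨k, hk, e'⟩ := h.le ⟨m, ss_ne.1 e, rfl⟩
    refine List.mem_map.2 ⟨k, by_contra fun e'' => ss_ne.2 hk ?_, e'⟩
    have := sum_le (G := H) (insert k l.toFinset)
    rw [sum_insert (by simpa), List.sum_toFinset _ hl, h1] at this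
    omega
  · obtain ⟨k, -, rfl⟩ := List.mem_map.1 hv
    obtain ⟨m, -, e'⟩ := h.ge ⟨k, ss_ne.1 e, rfl⟩
    exact ⟨m, e'⟩

end CA.H8Nse
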