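import Cfsg.Agent.Lib.Grp.H8Nse
import Cfsg.Agent.S0494
import Cfsg.Agent.S0497

/-!
Recognition of the small alternating groups by the numbers of elements of each order.
-/

set_option autoImplicit false

namespace CA.H8Nse

open Subgroup Finset CA.H8Ord CA.Ss3

variable {G : Type*} [Group G] [Finite G]

theorem big {l : List ℕ} (hs : ∀ m, ss G m = 0 ∨ ss G m ∈ l) {m : ℕ} (h : 2 < m) :
    ss G m = 0 ∨ ss G m ∈ l.filter (2 ∣ ·) := (hs m).imp_right fun e => by simp [e, ev h]

theorem a4 (hs : ∀ m, ss G m = 0 ∨ ss G m ∈ [1, 3, 8]) (hv : ∀ v ∈ [1, 3, 8], v ≠ 0 → ∃ m, ss G m = v) :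
    Nonempty (G ≃* alternatingGroup (Fin 4)) := by
  haveI := Fact.mk Nat.prime_three
  have h1 : ss G 1 = 1 := ss_one
  have h2 : ss G 2 = 3 := (hv 3 (by simp) (by simp)).elim fun m e => two_eq e rfl (by decide)
  have hb : ∀ m, 2 < m → ss G m = 0 ∨ ss G m = 8 := fun m e => by simpa using big hs e
  have hn : 12 ≤ Nat.card G := sum_vals {1, 3, 8} fun v e => hv v (by simpa using e) (by rintro rfl; simp at e)
  have hp : ∀ p, p.Prime → p ∣ Nat.card G → p = 2 ∨ p = 3 := fun p hp e => or_iff_not_imp_left.2 fun e' => by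
    have := pr_mem hp e ((hb p (by have := hp.two_le; omega)).resolve_left (ss_prime hp e))
    clear e e' hp; revert p; decide +kernel
  have h3 : 3 ∣ Nat.card G → ss G 3 = 8 := fun e => (hb 3 (by decide)).resolve_left (ss_prime Nat.prime_three e)
  have h9 : ss G 9 = 0 := by have := td G 9 6; have := hb 9 (by decide); omega
  have b4 := hb 4 (by decide)
  have h4 : Nat.card G ∣ 2 ^ 2 * 3 ^ 2 * 5 ^ 0 := dvd_of 2 2 0 (fun p e e' => by have := hp p e e'; omega)
    (fun e => by have := fr 8 [1, 2, 4, 8] e; have := hb 8 (by decide); simp at *; omega)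
    (fun e => by
      have := fr 27 [1, 3, 9, 27] e; have := zr h9 27; have := h3 (dvd_trans (by decide) e); simp at *; omega)
    (fun e => by have := hp 5 Nat.prime_five e; omega)
  have h5 : 6 ∣ Nat.card G := by
    have := Nat.le_of_dvd (by decide) h4
    generalize Nat.card G = n at *
    interval_cases n <;> omega
  have h6 : ss G 6 = 0 := by
    have := fr 6 [1, 2, 3, 6] h5; have := h3 (by omega); have := hb 6 (by decide); simp at *; omega
  have h7 : Nat.card G = 12 := by
    have := sum_eq 36 [1, 2, 3, 4, 6, 9, 12, 18, 36] fun g : G => (_root_.orderOf_dvd_natCard g).trans h4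
    have := zr h6 12; have := zr h6 18; have := zr h6 36; have := h3 (by omega)
    simp at *; omega
  obtain ⟨P⟩ : Nonempty (Sylow 3 G) := inferInstance
  have h8 : Nat.card (Sylow 3 G) = 4 := by
    have := (syl (G := G) 3 (by omega) (by rw [h7]; decide)).1; have := h3 (by omega); omega
  have c3 : Nat.card (P : Subgroup G) = 3 := by rw [P.card_eq_multiplicity, h7]; decide +kernel
  have i4 : Nat.card (G ⧸ (P : Subgroup G)) = 4 := by
    have := card_mul_index (P : Subgroup G); rw [c3, h7, index] at this; omega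
  haveI := Fintype.ofFinite (G ⧸ (P : Subgroup G))
  let f : G →* Equiv.Perm (Fin 4) := (Equiv.permCongrHom (Finite.equivFinOfCardEq i4)).toMonoidHom.comp
    (MulAction.toPermHom G (G ⧸ (P : Subgroup G)))
  have hf : Function.Injective f := (Equiv.permCongrHom _).injective.comp (by
    rw [← MonoidHom.ker_eq_bot_iff, ← normalCore_eq_ker]
    refine card_eq_one.1 (((Nat.dvd_prime Nat.prime_three).1
      ((card_dvd_of_le (normalCore_le _)).trans c3.dvd)).resolve_right fun e => ?_)
    haveI : (P : Subgroup G).Normal := by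
      rw [← eq_of_le_of_card_ge (normalCore_le (P : Subgroup G)) (by rw [e, c3])]; infer_instance
    haveI := Sylow.unique_of_normal P this
    simp at h8)
  have := card_mul_index f.range
  rw [← Nat.card_congr (f.ofInjective hf).toEquiv, h7, Nat.card_perm, Nat.card_fin] at this
  exact ⟨(f.ofInjective hf).trans (MulEquiv.subgroupCongr (Equiv.Perm.eq_alternatingGroup_of_index_eq_two (by
    simp [Nat.factorial] at this; omega)))⟩

theorem a5 (hs : ∀ m, ss G m = 0 ∨ ss G m ∈ [1, 15, 20, 24]) (hv : ∀ v ∈ [1, 15, 20, 24], v ≠ 0 → ∃ m, ss G m = v) :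
    Nonempty (G ≃* alternatingGroup (Fin 5)) := by
  haveI := Fact.mk Nat.prime_three
  haveI := Fact.mk Nat.prime_five
  have h1 : ss G 1 = 1 := ss_one
  have h2 : ss G 2 = 15 := (hv 15 (by simp) (by simp)).elim fun m e => two_eq e rfl (by decide)
  have hb : ∀ m, 2 < m → ss G m = 0 ∨ ss G m = 20 ∨ ss G m = 24 := fun m e => by simpa using big hs e
  have hn : 60 ≤ Nat.card G := sum_vals {1, 15, 20, 24} fun v e => hv v (by simpa using e) (by rintro rfl; simp at e)
  have hp : ∀ p, p.Prime → p ∣ Nat.card G → p = 2 ∨ p = 3 ∧ ss G p = 20 ∨ p = 5 ∧ ss G p = 24 := fun p hp e =>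
    or_iff_not_imp_left.2 fun e' => by
      rcases (hb p (by have := hp.two_le; omega)).resolve_left (ss_prime hp e) with e1 | e1 <;>
        [left; right] <;> refine ⟨?_, e1⟩ <;> have := pr_mem hp e e1 <;> clear e1 e e' hp <;> revert p <;>
        decide +kernel
  have hp' : ∀ p, p.Prime → p ∣ Nat.card G → p = 2 ∨ p = 3 ∨ p = 5 := fun p e e' => by have := hp p e e'; omega
  have h3 : 3 ∣ Nat.card G → ss G 3 = 20 := fun e => by have := hp 3 Nat.prime_three e; omega
  have h5 : 5 ∣ Nat.card G → ss G 5 = 24 := fun e => by have := hp 5 Nat.prime_five e; omega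
  have n9 : ¬ 3 ^ 2 ∣ Nat.card G := fun e => by
    have := fr 9 [1, 3, 9] e; have := h3 (by omega); have := hb 9 (by decide)
    have := cyc (G := G) 3 (fun e => by
      have := fr 27 [1, 3, 9, 27] e; have := td G 27 18; have := hb 27 (by decide); simp at *; omega)
    simp at *; omega
  have b4 := hb 4 (by decide)
  have b8 := hb 8 (by decide)
  have b10 := hb 10 (by decide)
  have h25 : 5 ∣ Nat.card G → ss G 25 = 0 := fun e => by_contra fun e' => by
    have := fr 25 [1, 5, 25] (ss_dvd e'); have := h5 e; have := hb 25 (by decide); have := td G 25 20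
    simp at *; omega
  have d2 : 2 ∣ Nat.card G := ss_dvd (by omega)
  have d3 : 3 ∣ Nat.card G := by_contra fun n3 => by
    have h32 : ss G 32 = 0 := by have := td G 32 16; have := hb 32 (by decide); omega
    have h40 : ss G 40 = 0 := by have := td G 40 16; have := hb 40 (by decide); omega
    have h6 := sum_eq (G := G) 80 [1, 2, 4, 5, 8, 10, 16, 20, 40, 80] fun g => dvd_of 4 0 1
      (fun p e e' => hp' p e (e'.trans (orderOf_dvd_natCard g))) (fun e => ss_ne_of_dvd e h32)
      (fun e => n3 (e.trans (orderOf_dvd_natCard g))) fun e =>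
        ss_ne_of_dvd e (h25 ((dvd_trans (by decide) e).trans (orderOf_dvd_natCard g)))
    have := zr h40 80
    have b16 := hb 16 (by decide)
    by_cases d5 : 5 ∣ Nat.card G
    · have := h5 d5
      have d25 : 5 ^ 2 ∣ Nat.card G := by_contra fun e => by
        obtain ⟨s1, s2, -⟩ := syl (G := G) 5 d5 e
        exact n3 (dvd_trans (by omega) s2)
      have := add_dvd Nat.prime_five d5 2 (by decide); have := add_dvd Nat.prime_five d5 4 (by decide)
      have := add_dvd Nat.prime_five d5 8 (by decide); have := add_dvd Nat.prime_five d5 16 (by decide)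
      have := td G 16 8; have := td G 20 8; have := hb 20 (by decide)
      have := mt (ss_dvd (G := G) (m := 8))
      simp at *; omega
    · have h7 : ss G 5 = 0 := by_contra fun e => d5 (ss_dvd e)
      have := zr h7 10; have := zr h7 20
      have := hp' 19 (by norm_num)
      obtain ⟨m, hm⟩ := hv 20 (by simp) (by simp)
      obtain ⟨g, rfl⟩ := ss_ne.1 (show ss G m ≠ 0 by omega)
      have h8 : orderOf g ∈ Nat.divisors 16 := Nat.mem_divisors.2 ⟨dvd_of 4 0 0
        (fun p e e' => hp' p e (e'.trans (orderOf_dvd_natCard g))) (fun e => ss_ne_of_dvd e h32)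
        (fun e => n3 (e.trans (orderOf_dvd_natCard g))) fun e => d5 (e.trans (orderOf_dvd_natCard g)), by decide⟩
      rw [show Nat.divisors 16 = {1, 2, 4, 8, 16} by decide] at h8
      simp only [List.map, List.sum_cons, List.sum_nil, mem_insert, mem_singleton] at h6 h8
      rcases h8 with e | e | e | e | e <;> rw [e] at hm <;> omega
  obtain ⟨s1, s2, s3⟩ := syl (G := G) 3 d3 n9
  have e3 := h3 d3
  have c3 : Nat.card (Sylow 3 G) = 10 := by omega
  have d5 : 5 ∣ Nat.card G := dvd_trans (by rw [c3]; decide) s2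
  have e5 := h5 d5
  have h15 : ss G 15 = 0 := by
    have := fr (G := G) 15 [1, 3, 5, 15] (by omega); have := hb 15 (by decide); simp at *; omega
  have n25 : ¬ 5 ^ 2 ∣ Nat.card G := fun e => by
    have := fr (G := G) 75 [1, 3, 5, 15, 25, 75] (by omega); have := h25 d5; have := zr h15 75; simp at *; omega
  obtain ⟨t1, t2, t3⟩ := syl (G := G) 5 d5 n25
  have c5 : Nat.card (Sylow 5 G) = 6 := by omega
  have h10 : ss G 10 = 0 := by
    have := fr (G := G) 10 [1, 2, 5, 10] (by omega); have := c5 ▸ t3 10 (by decide); simp at *; omega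
  have h6 : ss G 6 = 0 := by
    have := c3 ▸ s3 6 (by decide); have := hb 6 (by decide); have := fr (G := G) 6 [1, 2, 3, 6] (by omega)
    simp at *; omega
  have h7 : Nat.card G = 60 := (Nat.le_of_dvd (by decide) (dvd_of 2 1 1 hp' (fun e => by
    have := fr (G := G) 24 [1, 2, 3, 4, 6, 8, 12, 24] (by omega); have := fr 8 [1, 2, 4, 8] e
    have := zr h6 12; have := zr h6 24; simp at *; omega) n9 n25)).antisymm hn
  haveI := simple5 (G := G) (by omega) n25 h10 (Or.inl c5)
  exact Cfsg.Agent.S0494.result h7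

theorem a6 (hs : ∀ m, ss G m = 0 ∨ ss G m ∈ [1, 45, 80, 90, 144])
    (hv : ∀ v ∈ [1, 45, 80, 90, 144], v ≠ 0 → ∃ m, ss G m = v) : Nonempty (G ≃* alternatingGroup (Fin 6)) := by
  haveI := Fact.mk Nat.prime_five
  haveI := Fact.mk Nat.prime_seven
  have h1 : ss G 1 = 1 := ss_one
  have h2 : ss G 2 = 45 := (hv 45 (by simp) (by simp)).elim fun m e => two_eq e rfl (by decide)
  have hb : ∀ m, 2 < m → ss G m = 0 ∨ ss G m = 80 ∨ ss G m = 90 ∨ ss G m = 144 := fun m e => by
    simpa using big hs e
  have hn : 360 ≤ Nat.card G :=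
    sum_vals {1, 45, 80, 90, 144} fun v e => hv v (by simpa using e) (by rintro rfl; simp at e)
  have hp : ∀ p, p.Prime → p ∣ Nat.card G → p = 2 ∨ p = 3 ∧ ss G p = 80 ∨ p = 7 ∧ ss G p = 90 ∨
      p = 5 ∧ ss G p = 144 := fun p hp e => or_iff_not_imp_left.2 fun e' => by
    rcases (hb p (by have := hp.two_le; omega)).resolve_left (ss_prime hp e) with e1 | e1 | e1 <;>
      [left; (right; left); (right; right)] <;> refine ⟨?_, e1⟩ <;> have := pr_mem hp e e1 <;> clear e1 e e' hp <;>
      revert p <;> decide +kernel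
  have h3 : 3 ∣ Nat.card G → ss G 3 = 80 := fun e => by have := hp 3 Nat.prime_three e; omega
  have h5 : 5 ∣ Nat.card G → ss G 5 = 144 := fun e => by have := hp 5 Nat.prime_five e; omega
  have n7 : ¬ 7 ∣ Nat.card G := fun d7 => by
    have h7 : ss G 7 = 90 := by have := hp 7 Nat.prime_seven d7; omega
    obtain ⟨s1, s2, -⟩ := syl (G := G) 7 d7 fun e => by
      have := fr 49 [1, 7, 49] e; have := td G 49 42; have := hb 49 (by decide); simp at *; omega
    have d5 : 5 ∣ Nat.card G := dvd_trans (by omega) s2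
    have := fr (G := G) 35 [1, 5, 7, 35] (by omega); have := td G 35 24; have := hb 35 (by decide); have := h5 d5
    simp at *; omega
  have hp' : ∀ p, p.Prime → p ∣ Nat.card G → p = 2 ∨ p = 3 ∨ p = 5 := fun p e e' => by
    have := hp p e e'; have : p ≠ 7 := by rintro rfl; exact n7 e'
    omega
  have n16 : ¬ 2 ^ 4 ∣ Nat.card G := fun e => by
    have := fr 16 [1, 2, 4, 8, 16] e; have := fr (G := G) 4 [1, 2, 4] (by omega)
    have := hb 4 (by decide); have := hb 8 (by decide); have := hb 16 (by decide)
    have := td G 8 4; have := td G 16 8; simp at *; omega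
  have d2 : 2 ∣ Nat.card G := ss_dvd (by omega)
  have h9 : 27 ∣ Nat.card G → ss G 9 = 0 := fun e => by
    have := fr 27 [1, 3, 9, 27] e; have := h3 (by omega); have := td G 9 6; have := td G 27 18
    have := hb 9 (by decide); have := hb 27 (by decide); simp at *; omega
  have d5 : 5 ∣ Nat.card G := by_contra fun n5 => by
    have h6 : Nat.card G = 648 := (Nat.eq_of_dvd_of_lt_two_mul (by decide) (dvd_of 3 4 0 hp' n16 (fun e => by
      have := fr 243 [1, 3, 9, 27, 81, 243] e; have e9 := h9 (by omega); have := h3 (by omega)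
      have := zr e9 27; have := zr e9 81; have := zr e9 243; simp at *; omega) n5) (by omega)).symm
    have := fr (G := G) 162 [1, 2, 3, 6, 9, 18, 27, 54, 81, 162] (by omega)
    have e9 := h9 (by omega); have := h3 (by omega); have := hb 6 (by decide)
    have := zr e9 18; have := zr e9 27; have := zr e9 54; have := zr e9 81; have := zr e9 162
    simp at *; omega
  have e5 := h5 d5
  have n25 : ¬ 5 ^ 2 ∣ Nat.card G := fun e => by
    have := fr 25 [1, 5, 25] e; have := td G 25 20; have := hb 25 (by decide)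
    have := cyc (G := G) 5 (fun e => by
      have := fr 125 [1, 5, 25, 125] e; have := td G 125 100; have := hb 125 (by decide); simp at *; omega)
    simp at *; omega
  obtain ⟨t1, t2, t3⟩ := syl (G := G) 5 d5 n25
  have c5 : Nat.card (Sylow 5 G) = 36 := by omega
  rw [c5] at t2 t3
  have e3 := h3 (by omega)
  have h10 : ss G 10 = 0 := by
    have := fr (G := G) 10 [1, 2, 5, 10] (by omega); have := t3 10 (by decide); have := hb 10 (by decide)
    simp at *; omega
  have h15 : ss G 15 = 0 := by
    have := fr (G := G) 15 [1, 3, 5, 15] (by omega); have := t3 15 (by decide); have := hb 15 (by decide)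
    simp at *; omega
  have h7 : Nat.card G = 360 := (Nat.le_of_dvd (by decide) (dvd_of 3 2 1 hp' n16 (fun e => by
    have := fr (G := G) 135 [1, 3, 5, 9, 15, 27, 45, 135] (by omega); have e9 := h9 e
    have := zr e9 27; have := zr h15 45; have := zr h15 135; simp at *; omega) n25)).antisymm hn
  haveI := simple5 (G := G) (by omega) n25 h10 (Or.inr c5)
  exact Cfsg.Agent.S0497.result h7

end CA.H8Nse
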