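import Cfsg.Agent.Lib.Grp.L0Frob
import Cfsg.Agent.S0016

/-!
Groups in which the numbers of elements of each order take two values.
-/

set_option autoImplicit false

namespace CA.H8Ord

open Subgroup Finset

variable {G : Type*} [Group G] [Finite G]

/-- number of elements of order `m` -/
noncomputable def ss (G : Type*) [Group G] (m : ℕ) : ℕ := Nat.card {g : G // orderOf g = m}

theorem frob {k : ℕ} (h : k ∣ Nat.card G) : k ∣ ∑ d ∈ k.divisors, ss G d := by
  classical
  have := Fintype.ofFinite G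
  have a := CA.L0Frob.dvd_card_pow_eq_one h
  have b := sum_card_orderOf_eq_card_pow_eq_one (G := G) (ne_zero_of_dvd_ne_zero Nat.card_pos.ne' h)
  simp only [ss, Nat.card_eq_fintype_card, Fintype.card_subtype] at a ⊢
  rwa [b]

theorem sum_mul {m n : ℕ} (h : m.Coprime n) (f : ℕ → ℕ) :
    ∑ d ∈ (m * n).divisors, f d = ∑ a ∈ m.divisors, ∑ b ∈ n.divisors, f (a * b) := by
  rw [Nat.divisors_mul, Finset.mul_def, Finset.sum_image h.mul_injOn_divisors, Finset.sum_product]

omit [Finite G] in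
theorem ss_one : ss G 1 = 1 := by
  simp only [ss, orderOf_eq_one_iff]; exact Nat.card_unique

theorem ss_ne {m : ℕ} : ss G m ≠ 0 ↔ ∃ g : G, orderOf g = m := by
  rw [ss, Nat.card_ne_zero, nonempty_subtype]; exact and_iff_left inferInstance

theorem ss_dvd {m : ℕ} (h : ss G m ≠ 0) : m ∣ Nat.card G := by
  obtain ⟨g, rfl⟩ := ss_ne.1 h; exact orderOf_dvd_natCard g

theorem ss_ne_of_dvd {m : ℕ} {g : G} (h : m ∣ orderOf g) : ss G m ≠ 0 :=
  ss_ne.2 ⟨_, orderOf_pow_orderOf_div (orderOf_pos g).ne' h⟩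

theorem ss_prime {p : ℕ} (hp : p.Prime) (h : p ∣ Nat.card G) : ss G p ≠ 0 :=
  have := Fact.mk hp
  ss_ne.2 (exists_prime_orderOf_dvd_card' p h)

omit [Finite G] in
theorem uniq {m : ℕ} (h : ss G m = 1) {a b : G} (ha : orderOf a = m) (hb : orderOf b = m) : a = b :=
  congrArg Subtype.val ((Nat.card_eq_one_iff_unique.1 h).1.elim (⟨a, ha⟩ : {g : G // orderOf g = m}) ⟨b, hb⟩)

omit [Finite G] in
theorem ss_ne_one {m : ℕ} (h : 2 < m) : ss G m ≠ 1 := fun k => by
  obtain ⟨⟨a, ha⟩⟩ := (Nat.card_eq_one_iff_unique.1 k).2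
  have := uniq k ha ((orderOf_inv a).trans ha)
  have b : orderOf a ∣ 2 := orderOf_dvd_of_pow_eq_one (by rw [pow_two]; nth_rw 1 [this]; exact inv_mul_cancel a)
  exact absurd (Nat.le_of_dvd two_pos b) (by omega)

theorem one_prime {p n : ℕ} (hp : p.Prime) (h : p ∣ Nat.card G) (h1 : ss G p = n) : p ∣ n + 1 := by
  have := frob h
  rwa [hp.sum_divisors, h1, ss_one] at this

theorem no_sq {p n : ℕ} (hp : p.Prime) (h : p ∣ Nat.card G) (h1 : ss G p = n)
    (h2 : ss G (p ^ 2) = 0 ∨ ss G (p ^ 2) = n) : ss G (p ^ 2) = 0 := by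
  by_contra k
  have a := frob (ss_dvd k)
  rw [Nat.sum_divisors_prime_pow hp] at a
  simp only [sum_range_succ, sum_range_zero, pow_zero, pow_one, ss_one, h1, h2.resolve_left k] at a
  have b := (dvd_pow_self p two_ne_zero).trans a
  have c := one_prime hp h h1
  have : p ∣ 1 := (Nat.dvd_add_right b).1 (by
    rw [show 0 + 1 + n + n + 1 = (n + 1) * 2 by ring]; exact c.mul_right 2)
  exact hp.one_lt.ne' (Nat.dvd_one.1 this)

theorem two_primes {p q n : ℕ} (hp : p.Prime) (hq : q.Prime) (h : p ∣ Nat.card G) (h' : q ∣ Nat.card G)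
    (ne : p ≠ q) (h1 : ss G p = n) (h2 : ss G q = n) (h3 : ss G (p * q) = 0 ∨ ss G (p * q) = n) : p = 2 := by
  have co := (Nat.coprime_primes hp hq).2 ne
  have a := frob (co.mul_dvd_of_dvd_of_dvd h h')
  rw [sum_mul co] at a
  simp only [hp.sum_divisors, hq.sum_divisors, mul_one, one_mul, ss_one, h1, h2] at a
  have b := (dvd_mul_right p q).trans a
  have c := one_prime hp h h1
  refine (Nat.prime_dvd_prime_iff_eq hp Nat.prime_two).1 ?_
  rcases h3 with e | e <;> rw [e] at b
  · exact ((Nat.dvd_add_right b).1 (by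
      rw [show 0 + n + (n + 1) + 1 = (n + 1) * 2 by ring]; exact c.mul_right 2)).trans (one_dvd 2)
  · exact (Nat.dvd_add_right b).1 (by rw [show n + n + (n + 1) + 2 = (n + 1) * 3 by ring]; exact c.mul_right 3)

theorem ord_eq {p : ℕ} (hp : p.Prime) (h : ss G (p ^ 2) = 0) {g : G} {k : ℕ} (hk : g ^ p ^ k = 1) (h1 : g ≠ 1) :
    orderOf g = p := by
  obtain ⟨j, -, hj⟩ := (Nat.dvd_prime_pow hp).1 (orderOf_dvd_of_pow_eq_one hk)
  rcases j with _ | _ | j
  · exact absurd (orderOf_eq_one_iff.1 hj) h1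
  · simpa using hj
  · exact absurd h (ss_ne_of_dvd (g := g) (hj ▸ pow_dvd_pow p (by omega)))

theorem isP {p : ℕ} (h : ∀ q, q.Prime → q ∣ Nat.card G → q = p) : IsPGroup p G :=
  IsPGroup.of_card (Nat.eq_prime_pow_of_unique_prime_dvd Nat.card_pos.ne' fun a b => h _ a b)

theorem main {n : ℕ} (hn : n ≠ 1) (hs : ∀ m, ss G m = 0 ∨ ss G m = 1 ∨ ss G m = n) (g0 : G)
    (h0 : ss G (orderOf g0) = n) :
    (∃ p : ℕ, p.Prime ∧ IsPGroup p G ∧ 3 ≤ Nat.card G ∧ Monoid.exponent G = p) ∨
      Nonempty (G ≃* QuaternionGroup 2) ∨ (IsCyclic G ∧ Nat.card G = 4) ∨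
      (∃ (p : ℕ) (P : Type) (_ : Group P) (_ : Finite P), p.Prime ∧ p ≠ 2 ∧ IsPGroup p P ∧ Monoid.exponent P = p ∧
        Nonempty (G ≃* Multiplicative (ZMod 2) × P)) := by
  have n0 : n ≠ 0 := h0 ▸ ss_ne.2 ⟨g0, rfl⟩
  have g1 : orderOf g0 ≠ 1 := fun e => hn (by rw [← h0, e, ss_one])
  have h3 : ∀ m, 2 < m → ss G m = 0 ∨ ss G m = n := fun m a =>
    (hs m).imp_right fun b => b.resolve_left (ss_ne_one a)
  have hsq : ∀ p, p.Prime → 2 < p ^ 2 := fun p a => by have := a.two_le; nlinarith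
  by_cases h2 : ss G 2 = 1
  swap
  · left
    have h4 : ∀ m, 1 < m → ss G m = 0 ∨ ss G m = n := fun m a => by
      rcases (show m = 2 ∨ 2 < m by omega) with rfl | b
      · exact (hs 2).imp_right fun b => b.resolve_left h2
      · exact h3 m b
    have h5 : ∀ p, p.Prime → p ∣ Nat.card G → ss G p = n := fun p a b =>
      (h4 p a.one_lt).resolve_left (ss_prime a b)
    obtain ⟨p, hp, pd⟩ := Nat.exists_prime_and_dvd g1
    have pG := pd.trans (orderOf_dvd_natCard g0)
    have hG : IsPGroup p G := isP fun q a b => by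
      by_contra c
      exact c ((two_primes a hp b pG c (h5 q a b) (h5 p hp pG) (h4 _ (Nat.one_lt_mul_iff.2
        ⟨a.pos, hp.pos, .inl a.one_lt⟩))).trans (two_primes hp a pG b (Ne.symm c) (h5 p hp pG) (h5 q a b)
          (h4 _ (Nat.one_lt_mul_iff.2 ⟨hp.pos, a.pos, .inl hp.one_lt⟩))).symm)
    have : Nontrivial G := ⟨g0, 1, fun e => g1 (orderOf_eq_one_iff.2 e)⟩
    have e : ∀ g : G, g ≠ 1 → orderOf g = p := fun g a =>
      (hG g).elim fun k b => ord_eq hp (no_sq hp pG (h5 p hp pG) (h3 _ (hsq p hp))) b a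
    refine ⟨p, hp, hG, ?_, (Monoid.exponent_eq_prime_iff hp).2 e⟩
    have k : n = Nat.card {g : G // g ≠ 1} := by
      rw [← h5 p hp pG, ss]
      exact Nat.card_congr (Equiv.subtypeEquivRight fun g => ⟨fun a b => hp.one_lt.ne' (by
        rw [← a, b, orderOf_one]), e g⟩)
    classical
    have := Fintype.ofFinite G
    simp only [Nat.card_eq_fintype_card, ne_eq, Fintype.card_subtype_compl, Fintype.card_unique] at k ⊢
    omega
  obtain ⟨z, hz⟩ := ss_ne.1 (h2 ▸ one_ne_zero)
  have zc : ∀ g : G, Commute z g := fun g => by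
    have := uniq h2 hz (((MulAut.conj g).orderOf_eq z).trans hz)
    exact (eq_mul_inv_iff_mul_eq.1 this)
  have h5 : ∀ p, p.Prime → p ≠ 2 → p ∣ Nat.card G → ss G p = n := fun p a b c =>
    (h3 p (lt_of_le_of_ne a.two_le b.symm)).resolve_left (ss_prime a c)
  right
  by_cases h4 : 4 ∣ Nat.card G
  · have a := frob h4
    rw [show (4 : ℕ).divisors = {1, 2, 4} by decide, sum_insert (by decide), sum_pair (by decide), ss_one, h2] at a
    have s4 : ss G 4 = n := (h3 4 (by omega)).resolve_left fun e => by rw [e] at a; omega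
    have s8 : ss G 8 = 0 := by
      by_contra k
      have b := frob (ss_dvd k)
      rw [show (8 : ℕ).divisors = {1, 2, 4, 8} by decide, sum_insert (by decide), sum_insert (by decide),
        sum_pair (by decide), ss_one, h2, s4, (h3 8 (by omega)).resolve_left k] at b
      omega
    have hG : IsPGroup 2 G := isP fun p hp pG => by
      by_contra c
      have co : Nat.Coprime 2 p := (Nat.coprime_primes Nat.prime_two hp).2 (Ne.symm c)
      have co4 : Nat.Coprime 4 p := Nat.Coprime.pow_left 2 co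
      have b := frob (co4.mul_dvd_of_dvd_of_dvd h4 pG)
      obtain ⟨y, hy⟩ := ss_ne.1 (ss_prime hp pG)
      have s2 : ss G (2 * p) = n := (h3 _ (by have := hp.two_le; omega)).resolve_left
        (ss_ne.2 ⟨z * y, by rw [(zc y).orderOf_mul_eq_mul_orderOf_of_coprime (by rwa [hz, hy]), hz, hy]⟩)
      rw [sum_mul co4, show (4 : ℕ).divisors = {1, 2, 4} by decide, sum_insert (by decide),
        sum_pair (by decide)] at b
      simp only [hp.sum_divisors, mul_one, one_mul, ss_one, h2, s4, s2, h5 p hp c pG] at b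
      have d := (dvd_mul_left p 4).trans b
      have f := one_prime hp pG (h5 p hp c pG)
      refine c ((Nat.prime_dvd_prime_iff_eq hp Nat.prime_two).1 ?_)
      rcases h3 (4 * p) (by have := hp.two_le; omega) with e | e <;> rw [e] at d
      · exact ((Nat.dvd_add_right d).1 (by
          rw [show n + 1 + (n + 1 + (0 + n)) + 1 = (n + 1) * 3 by ring]; exact f.mul_right 3)).trans (one_dvd 2)
      · exact (Nat.dvd_add_right d).1 (by
          rw [show n + 1 + (n + 1 + (n + n)) + 2 = (n + 1) * 4 by ring]; exact f.mul_right 4)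
    have u : ∀ H : Subgroup G, Nat.card H = 2 → H = zpowers z := fun H a => by
      obtain ⟨y, hy⟩ := exists_prime_orderOf_dvd_card' (G := H) 2 a.symm.dvd
      have := uniq h2 hz ((orderOf_coe y).trans hy)
      exact (eq_of_le_of_card_ge (zpowers_le.2 (this ▸ y.2)) (by rw [Nat.card_zpowers, hz, a])).symm
    rcases Cfsg.Agent.S0016.result 2 hG fun H K a b => (u H a).trans (u K b).symm with c | ⟨-, k, ⟨e⟩⟩
    · refine .inr (.inl ⟨c, ?_⟩)
      obtain ⟨g, hg⟩ := IsCyclic.exists_ofOrder_eq_natCard (α := G)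
      obtain ⟨k, hk⟩ := IsPGroup.iff_card.1 hG
      rcases k with _ | _ | _ | k
      · rw [hk] at h4; omega
      · rw [hk] at h4; omega
      · exact hk
      · exact absurd s8 (ss_ne_of_dvd (g := g) (by rw [hg, hk]; exact pow_dvd_pow 2 (show 3 ≤ _ by omega)))
    · rcases k with _ | _ | k
      · have := QuaternionGroup.quaternionGroup_one_isCyclic
        exact .inr (.inl ⟨isCyclic_of_surjective e.symm e.symm.surjective, by
          rw [Nat.card_congr e.toEquiv, Nat.card_eq_fintype_card]; rfl⟩)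
      · exact .inl ⟨e⟩
      · refine absurd s8 (ss_ne_of_dvd (g := e.symm (QuaternionGroup.a 1)) ?_)
        rw [MulEquiv.orderOf_eq, QuaternionGroup.orderOf_a_one, ← pow_succ']
        exact pow_dvd_pow 2 (show 3 ≤ _ by omega)
  right; right
  have g2 : orderOf g0 ≠ 2 := fun e => hn (by rw [← h0, e, h2])
  obtain ⟨p, hp, pd, p2⟩ : ∃ p, p.Prime ∧ p ∣ Nat.card G ∧ p ≠ 2 := by
    by_contra! k
    obtain ⟨j, hj⟩ := isP (p := 2) k g0
    obtain ⟨i, -, hi⟩ := (Nat.dvd_prime_pow Nat.prime_two).1 (orderOf_dvd_of_pow_eq_one hj)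
    rcases i with _ | _ | i
    · exact g1 hi
    · exact g2 hi
    · exact h4 ((hi ▸ pow_dvd_pow 2 (show 2 ≤ _ by omega) : 2 ^ 2 ∣ orderOf g0).trans (orderOf_dvd_natCard g0))
  have := Fact.mk hp
  obtain ⟨P⟩ : Nonempty (Sylow p G) := inferInstance
  have co : Nat.Coprime 2 p := (Nat.coprime_primes Nat.prime_two hp).2 (Ne.symm p2)
  have dj : Disjoint (zpowers z) (P : Subgroup G) := by
    obtain ⟨k, hk⟩ := IsPGroup.iff_card.1 P.isPGroup'
    exact disjoint_of_coprime_natCard (by rw [Nat.card_zpowers, hz, hk]; exact co.pow_right k)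
  have ix : (P : Subgroup G).index = 2 := by
    have a := Nat.eq_prime_pow_of_unique_prime_dvd (p := 2) (P : Subgroup G).index_ne_zero_of_finite
      fun {q} hq b => by
        have c := b.trans (P : Subgroup G).index_dvd_card
        by_contra d
        have e : q ≠ p := fun e => P.not_dvd_index (e ▸ b)
        exact d (two_primes hq hp c pd e (h5 q hq d c) (h5 p hp p2 pd) (h3 _ (by
          have := hq.two_le; have := hp.two_le; nlinarith)))
    generalize (P : Subgroup G).index.primeFactorsList.length = i at a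
    rcases i with _ | _ | i
    · rw [index_eq_one.1 a, disjoint_top, zpowers_eq_bot] at dj
      rw [dj, orderOf_one] at hz; omega
    · exact a
    · exact absurd ((a ▸ pow_dvd_pow 2 (show 2 ≤ _ by omega) : 2 ^ 2 ∣ (P : Subgroup G).index).trans
        (P : Subgroup G).index_dvd_card) h4
  have hc : ∀ (a : zpowers z) (b : P), Commute ((zpowers z).subtype a) ((P : Subgroup G).subtype b) := by
    rintro ⟨_, k, rfl⟩ b; exact (zc b).zpow_left k
  have bij : Function.Bijective ((zpowers z).subtype.noncommCoprod (P : Subgroup G).subtype hc) :=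
    (Nat.bijective_iff_injective_and_card _).2 ⟨(MonoidHom.noncommCoprod_injective _ _ hc).2
      ⟨subtype_injective _, subtype_injective _, by rwa [range_subtype, range_subtype]⟩, by
        rw [Nat.card_prod, Nat.card_zpowers, hz, ← ix, (P : Subgroup G).index_mul_card]⟩
  have : Fact (Nat.Prime 2) := ⟨Nat.prime_two⟩
  have e1 : zpowers z ≃* Multiplicative (ZMod 2) :=
    mulEquivOfPrimeCardEq (p := 2) (by rw [Nat.card_zpowers, hz]) (by simp)
  have e2 : Shrink.{0} P ≃* P := Shrink.mulEquiv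
  have : Nontrivial P := (nontrivial_iff_ne_bot _).2 (P.ne_bot_of_dvd_card pd)
  refine ⟨p, Shrink.{0} P, inferInstance, Finite.of_equiv _ e2.symm.toEquiv, hp, p2, P.isPGroup'.of_equiv e2.symm,
    ?_, ⟨(MulEquiv.ofBijective _ bij).symm.trans (e1.prodCongr e2.symm)⟩⟩
  rw [Monoid.exponent_eq_of_mulEquiv e2]
  refine (Monoid.exponent_eq_prime_iff hp).2 fun g a => ?_
  obtain ⟨k, hk⟩ := P.isPGroup' g
  rw [← orderOf_coe]
  exact ord_eq hp (no_sq hp pd (h5 p hp p2 pd) (h3 _ (hsq p hp))) (k := k) (by exact_mod_cast hk)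
    (by exact_mod_cast a)

end CA.H8Ord
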