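import Cfsg.Agent.Lib.Grp.Fitting
import Cfsg.Agent.Lib.Grp.Coprime2
import Cfsg.Agent.Lib.Grp.PGDihedral
import Cfsg.Agent.Lib.Lin.AutAbs
import Cfsg.Agent.S0016
import Cfsg.Agent.S0144
import Cfsg.Agent.S3779

/-!
Groups whose element orders are `1, 2, 3, 4`.
-/

set_option autoImplicit false

namespace CA.H8Spec

open Subgroup Cfsg CA.Core CA.Fitting
open scoped commutatorElement

section
variable {M : Type*} [Group M] (ρ σ : MulAut M)

/-- fixed modulo the center -/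
def DD (c : M) : Prop := ∃ z ∈ center M, σ c = c * z

theorem elem (h1 : ∀ x, x * ρ x * ρ (ρ x) = 1) (h2 : ∀ x, x * ρ (ρ x) * ρ x = 1)
    (h4 : ∀ x, σ (ρ x) = ρ (ρ (σ x))) (h5 : ∀ x, (x * σ x) ^ 2 = 1) (hs : ∀ x, σ (σ x) = x)
    (h6 : ∀ x y : M, ⁅x, y⁆ ∈ center M) (h7 : ∀ x : M, x ^ 4 = 1) (x : M) : x ^ 2 = 1 := by
  have i1 : ∀ x, ρ x * ρ (ρ x) = x⁻¹ := fun x => eq_inv_of_mul_eq_one_right (by rw [← mul_assoc, h1])
  have r3 : ∀ x, ρ (ρ (ρ x)) = x := fun x => by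
    have := h1 (ρ x)
    rwa [i1, inv_mul_eq_one, eq_comm] at this
  have cm : ∀ x, Commute x (ρ x) := fun x => by
    have a := i1 (ρ (ρ x))
    have b : ρ (ρ (ρ (ρ x))) * ρ (ρ (ρ x)) = (ρ (ρ x))⁻¹ :=
      eq_inv_of_mul_eq_one_right (by rw [← mul_assoc, h2])
    simp only [r3] at a b
    exact a.trans b.symm
  have fp : ∀ z, ρ z = z → z = 1 := fun z a => by
    have b := h1 z
    have c := h7 z
    rw [a, a] at b
    rwa [show z ^ 4 = z * z * z * z by simp [pow_succ], b, one_mul] at c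
  have zc : ∀ (τ : MulAut M) z, z ∈ center M → τ z ∈ center M := fun τ z a => MulEquivClass.apply_mem_center τ a
  have cz : ∀ {z}, z ∈ center M → ∀ y, Commute y z := fun a y => mem_center_iff.1 a y
  have L1 : ∀ c, DD σ c → c ^ 2 = 1 := by
    rintro c ⟨z, hz, e⟩
    have a : σ z = z⁻¹ := by
      have := hs c
      rw [e, map_mul, e, mul_assoc, mul_eq_left] at this
      exact eq_inv_of_mul_eq_one_right this
    have b : z ^ 2 = 1 := by
      have := h5 (ρ z)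
      rw [h4, a, ← map_mul, ← map_pow, map_eq_one_iff _ ρ.injective, map_inv, (cz hz _).symm.mul_pow, inv_pow,
        mul_inv_eq_one, ← map_pow] at this
      exact fp _ this.symm
    have := h5 (ρ c)
    rwa [h4, e, map_mul, map_mul, ← mul_assoc, i1, (cz (zc ρ _ (zc ρ _ hz)) _).mul_pow, ← map_pow, ← map_pow, b,
      map_one, map_one, mul_one, inv_pow, inv_eq_one] at this
  have iv : ∀ c, DD σ c → c⁻¹ = c := fun c a => inv_eq_of_mul_eq_one_left (by rw [← pow_two, L1 c a])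
  have L2 : ∀ a b, DD σ a → DD σ b → DD σ (a * b) := by
    rintro a b ⟨z, hz, e⟩ ⟨w, hw, f⟩
    exact ⟨z * w, mul_mem hz hw, by rw [map_mul, e, f, mul_assoc, ← mul_assoc z, ← (cz hz b).eq]; group⟩
  have L2' : ∀ a b, DD σ a → DD σ b → Commute a b := fun a b ha hb => by
    have := iv _ (L2 a b ha hb)
    rw [mul_inv_rev, iv a ha, iv b hb] at this
    exact this.symm
  have L3 : ∀ a b, DD σ a → DD σ b → Commute a (ρ b) := fun a b ha hb => by
    have ab := L2' a b ha hb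
    have e1 : a * ρ b = ⁅a, ρ b⁆ * (ρ b * a) := by rw [commutatorElement_def]; group
    have e2 : b * ρ a = ⁅b, ρ a⁆ * (ρ a * b) := by rw [commutatorElement_def]; group
    have e3 : ⁅b, ρ a⁆ * ⁅a, ρ b⁆ = 1 := by
      have := (cm (a * b)).eq
      rw [map_mul] at this
      have k : a * b * (ρ a * ρ b) = ⁅b, ρ a⁆ * ⁅a, ρ b⁆ * (ρ a * ρ b * (a * b)) := by
        calc a * b * (ρ a * ρ b) = a * (b * ρ a) * ρ b := by group
          _ = (a * ⁅b, ρ a⁆) * ρ a * (b * ρ b) := by rw [e2]; group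
          _ = ⁅b, ρ a⁆ * (a * ρ a) * (ρ b * b) := by rw [(cz (h6 _ _) a).eq, (cm b).eq]; group
          _ = ⁅b, ρ a⁆ * ρ a * (a * ρ b) * b := by rw [(cm a).eq]; group
          _ = ⁅b, ρ a⁆ * (ρ a * ⁅a, ρ b⁆) * (ρ b * a) * b := by rw [e1]; group
          _ = _ := by rw [(cz (h6 _ _) (ρ a)).eq]; group
      rw [this] at k
      exact (mul_eq_right.1 k.symm)
    refine commutatorElement_eq_one_iff_commute.1 (fp _ ?_)
    have f1 : ρ (ρ b) = ρ b * b := by
      rw [← mul_left_cancel_iff (a := ρ b), i1, ← mul_assoc, ← map_mul, ← pow_two, L1 b hb, map_one, one_mul, iv b hb]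
    have f2 : Commute (ρ a) (ρ b) := ab.map ρ
    rw [map_commutatorElement, f1, eq_inv_of_mul_eq_one_right e3, commutatorElement_inv]
    calc ⁅ρ a, ρ b * b⁆ = (ρ a * ρ b) * b * (ρ a)⁻¹ * b⁻¹ * (ρ b)⁻¹ := by rw [commutatorElement_def]; group
      _ = ρ b * ⁅ρ a, b⁆ * (ρ b)⁻¹ := by rw [f2.eq, commutatorElement_def]; group
      _ = _ := by rw [(cz (h6 _ _) _).eq]; group
  have L4 : ∀ y, DD σ (y * σ y) := fun y =>
    ⟨⁅(σ y)⁻¹, y⁻¹⁆, h6 _ _, by rw [map_mul, hs, commutatorElement_def]; group⟩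
  have L5 : ∀ z ∈ center M, DD σ z := fun z a => ⟨z⁻¹ * σ z, mul_mem (inv_mem a) (zc σ z a), by group⟩
  have hB := L4 (ρ (ρ x))
  have hC := L4 (ρ x)
  rw [h4, h4, r3] at hB
  rw [h4] at hC
  have hz : (x * σ x * (x * ρ (ρ (σ x))) * (x * ρ (σ x)))⁻¹ * x ^ 3 ∈ center M := by
    let _ : CommGroup (M ⧸ center M) := { (inferInstance : Group (M ⧸ center M)) with
      mul_comm := fun a b => by
        obtain ⟨a, rfl⟩ := QuotientGroup.mk_surjective a
        obtain ⟨b, rfl⟩ := QuotientGroup.mk_surjective b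
        rw [← QuotientGroup.mk_mul, ← QuotientGroup.mk_mul, QuotientGroup.eq]
        simpa [commutatorElement_def, mul_assoc] using h6 b⁻¹ a⁻¹ }
    have := congrArg (QuotientGroup.mk : M → M ⧸ center M) (h2 (σ x))
    rw [← QuotientGroup.eq]
    simp only [QuotientGroup.mk_mul, QuotientGroup.mk_pow, QuotientGroup.mk_one] at this ⊢
    rw [← mul_one (_ ^ 3), ← this, pow_three]
    ac_rfl
  set z := (x * σ x * (x * ρ (ρ (σ x))) * (x * ρ (σ x)))⁻¹ * x ^ 3 with hz'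
  set C := ρ x * ρ (ρ (σ x)) with hC'
  set B := ρ (ρ x) * ρ (σ x) with hB'
  have eC : x * ρ (σ x) = ρ C * C := by
    have : ρ (ρ C) = x * ρ (σ x) := by rw [hC', map_mul, map_mul, r3, r3]
    rw [← this, ← mul_left_cancel_iff (a := ρ C), i1, ← mul_assoc, ← map_mul, ← pow_two, L1 C hC, map_one, one_mul,
      iv C hC]
  have eB : x * ρ (ρ (σ x)) = ρ B := by rw [hB', map_mul, r3]
  have hD := L2 _ _ hC (L5 z hz)
  have e : x ^ 3 = x * σ x * (C * z) * ρ (B * C) := by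
    rw [mul_assoc, (L3 _ _ hD (L2 _ _ hB hC)).eq, map_mul, ← eB, mul_assoc _ (ρ C), ← mul_assoc (ρ C), ← eC, hz']
    group
  have : (x ^ 3) ^ 2 = 1 := by
    rw [e, (L3 _ _ (L2 _ _ (L4 x) hD) (L2 _ _ hB hC)).mul_pow, ← map_pow, L1 _ (L2 _ _ (L4 x) hD),
      L1 _ (L2 _ _ hB hC), map_one, mul_one]
  rwa [← pow_mul, show 3 * 2 = 4 + 2 by rfl, pow_add, h7, one_mul] at this

end

variable {G : Type*} [Group G]

theorem p34 {x : G} (a : x ^ 4 = 1) (b : x ^ 3 = 1) : x = 1 := by rwa [pow_succ, b, one_mul] at a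

theorem p23 {x : G} (a : x ^ 2 = 1) (b : x ^ 3 = 1) : x = 1 := by rwa [pow_succ, a, one_mul] at b

theorem nc (H : ∀ g : G, g ^ 4 = 1 ∨ g ^ 3 = 1) {x y : G} (a : x ^ 4 = 1) (b : y ^ 3 = 1) (c : Commute x y) :
    x = 1 ∨ y = 1 := by
  rcases H (x * y) with e | e <;> rw [c.mul_pow] at e
  · exact .inr (p34 (by rwa [a, one_mul] at e) b)
  · exact .inl (p34 a (by rwa [b, mul_one] at e))

theorem pw3 (H : ∀ g : G, g ^ 4 = 1 ∨ g ^ 3 = 1) {N : Subgroup G} (h : IsPGroup 3 N) {x : G} (hx : x ∈ N) :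
    x ^ 3 = 1 := (H x).elim (fun a => by
  obtain ⟨k, hk⟩ := h ⟨x, hx⟩
  have : x ^ Nat.gcd 4 (3 ^ k) = 1 := pow_gcd_eq_one.2 ⟨a, congrArg Subtype.val hk⟩
  rw [Nat.Coprime.pow_right k (by decide), pow_one] at this
  rw [this, one_pow]) id

theorem pw4 (H : ∀ g : G, g ^ 4 = 1 ∨ g ^ 3 = 1) {N : Subgroup G} (h : IsPGroup 2 N) {x : G} (hx : x ∈ N) :
    x ^ 4 = 1 := (H x).elim id fun a => by
  obtain ⟨k, hk⟩ := h ⟨x, hx⟩
  have : x ^ Nat.gcd 3 (2 ^ k) = 1 := pow_gcd_eq_one.2 ⟨a, congrArg Subtype.val hk⟩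
  rw [Nat.Coprime.pow_right k (by decide), pow_one] at this
  rw [this, one_pow]

variable [Finite G]

theorem prime23 (H : ∀ g : G, g ^ 4 = 1 ∨ g ^ 3 = 1) {q : ℕ} (hq : q.Prime) (h : q ∣ Nat.card G) : q = 2 ∨ q = 3 := by
  have := Fact.mk hq
  obtain ⟨g, hg⟩ := exists_prime_orderOf_dvd_card' q h
  refine (H g).imp (fun a => ?_) fun a => ?_ <;> have := hg ▸ orderOf_dvd_of_pow_eq_one a
  · exact (Nat.prime_dvd_prime_iff_eq hq Nat.prime_two).1 (hq.dvd_of_dvd_pow (n := 2) this)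
  · exact (Nat.prime_dvd_prime_iff_eq hq Nat.prime_three).1 this

theorem isP (H : ∀ g : G, g ^ 4 = 1 ∨ g ^ 3 = 1) {p q : ℕ} (h : ∀ r, r = 2 ∨ r = 3 → r = p ∨ r = q) {N : Subgroup G}
    (hN : (Nat.card N).Coprime q) : IsPGroup p N :=
  IsPGroup.of_card (Nat.eq_prime_pow_of_unique_prime_dvd Nat.card_pos.ne' fun {r} a b =>
    (h r (prime23 H a (b.trans N.card_subgroup_dvd_card))).resolve_right fun e =>
      a.one_lt.ne' ((e ▸ hN : (Nat.card N).Coprime r).symm.eq_one_of_dvd b))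

theorem solv (H : ∀ g : G, g ^ 4 = 1 ∨ g ^ 3 = 1) : Group.IsSolvable G := by
  obtain ⟨a, m, h1, h2⟩ := Nat.exists_eq_pow_mul_and_not_dvd (Nat.card_pos (α := G)).ne' 2 (by decide)
  have m0 : m ≠ 0 := fun e => h1 (e ▸ dvd_zero 2)
  have := Nat.eq_prime_pow_of_unique_prime_dvd (p := 3) m0 fun {r} a b =>
    (prime23 H a (h2 ▸ b.mul_left _)).resolve_left fun e => h1 (e ▸ b)
  exact Cfsg.Agent.S0144.result 2 3 a _ Nat.prime_two Nat.prime_three (h2.trans (by rw [← this]))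

omit [Finite G] in
theorem sq_comm {s r : G} (h : s * r * s⁻¹ = r⁻¹) : s * s * r = r * (s * s) := by
  calc s * s * r = s * (s * r * s⁻¹) * s⁻¹ * (s * s) := by group
    _ = (s * r * s⁻¹)⁻¹ * (s * s) := by
      conv_lhs => rw [h]
      group
    _ = _ := by rw [h, inv_inv]

omit [Finite G] in
theorem ex2 {g : G} (hg : orderOf g = 4) : (g ^ 2) ^ 2 = 1 ∧ g ^ 2 ≠ 1 :=
  ⟨by rw [← pow_mul]; exact (hg ▸ pow_orderOf_eq_one g : g ^ 4 = 1), fun e => by
    have := Nat.le_of_dvd two_pos (orderOf_dvd_of_pow_eq_one e); omega⟩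

theorem caseA (H : ∀ g : G, g ^ 4 = 1 ∨ g ^ 3 = 1) {g : G} (hg : orderOf g = 4) {N : Subgroup G} [N.Normal]
    (hC : centralizer (N : Set G) ≤ N) (hP : IsPGroup 3 N) :
    IsElementaryAbelian 3 N ∧ ((IsCyclic (G ⧸ N) ∧ N.index = 4) ∨ Nonempty (G ⧸ N ≃* QuaternionGroup 2)) := by
  let φ := QuotientGroup.mk' N
  have k : ∀ x, φ x = 1 ↔ x ∈ N := fun x => QuotientGroup.eq_one_iff x
  have iv : ∀ x, φ x ≠ 1 → φ x ^ 2 = 1 → ∀ n ∈ N, x * n * x⁻¹ = n⁻¹ := fun x a b => by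
    have c : ∀ n ∈ N, (x * n) ^ 2 = 1 := fun n hn => by
      have e : φ (x * n) = φ x := by rw [map_mul, (k n).2 hn, mul_one]
      refine p23 ?_ (pw3 H hP ((k _).1 (by rw [map_pow, e, b])))
      rw [← pow_mul]
      exact (H _).resolve_right fun d => a (p23 b (by rw [← e, ← map_pow, d, map_one]))
    intro n hn
    have d := c 1 (one_mem _)
    have e := c n hn
    rw [mul_one, pow_two] at d
    rw [← eq_inv_of_mul_eq_one_left d]
    exact eq_inv_of_mul_eq_one_left (by rw [← e, pow_two, mul_assoc])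
  have un : ∀ x y, φ x ≠ 1 → φ x ^ 2 = 1 → φ y ≠ 1 → φ y ^ 2 = 1 → φ x = φ y := fun x y a b c d => by
    have : x⁻¹ * y ∈ N := hC (mem_centralizer_iff.2 fun n hn => by
      have e := (iv x a b n hn).trans (iv y c d n hn).symm
      have f : n * (x⁻¹ * y) = x⁻¹ * (x * n * x⁻¹) * y := by group
      rw [f, e]; group)
    exact QuotientGroup.eq.2 this
  obtain ⟨t1, t2⟩ := ex2 hg
  have a1 : φ (g ^ 2) ≠ 1 := fun e => t2 (p23 t1 (pw3 H hP ((k _).1 e)))
  have a2 : φ (g ^ 2) ^ 2 = 1 := by rw [← map_pow, t1, map_one]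
  have q4 : ∀ q : G ⧸ N, q ^ 4 = 1 := fun q => by
    obtain ⟨y, rfl⟩ := QuotientGroup.mk'_surjective N q
    change φ y ^ 4 = 1
    have e := un (y * g ^ 2 * y⁻¹) (g ^ 2) (by
      rwa [map_mul, map_mul, map_inv, ne_eq, conj_eq_one_iff]) (by
      rw [map_mul, map_mul, map_inv, conj_pow, a2, mul_one, mul_inv_cancel]) a1 a2
    rw [map_mul, map_mul, map_inv, mul_inv_eq_iff_eq_mul] at e
    have c : Commute (φ y) (φ (g ^ 2)) := e
    rcases H y with f | f
    · rw [← map_pow, f, map_one]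
    rcases H (y * g ^ 2) with d | d <;> replace d := congrArg φ d <;> rw [map_pow, map_mul, c.mul_pow, map_one] at d
    · rwa [show 4 = 2 * 2 by rfl, pow_mul (φ (g ^ 2)), a2, one_pow, mul_one] at d
    · rw [← map_pow, f, map_one, one_mul] at d
      exact absurd (p23 a2 d) a1
  have og : orderOf (φ g) = 4 := orderOf_eq_prime_pow (p := 2) (n := 1) (by rwa [pow_one, ← map_pow]) (q4 _)
  have cy : IsCyclic (G ⧸ N) → N.index = 4 := fun c => by
    obtain ⟨q, hq⟩ := IsCyclic.exists_ofOrder_eq_natCard (α := G ⧸ N)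
    exact Nat.dvd_antisymm (hq.symm.dvd.trans (orderOf_dvd_of_pow_eq_one (q4 q))) (og ▸ orderOf_dvd_natCard (φ g))
  refine ⟨⟨⟨⟨fun a b => Subtype.ext ?_⟩⟩, fun a => pw3 H hP⟩, ?_⟩
  · have := iv _ a1 a2 _ (mul_mem a.2 b.2)
    rw [← conj_mul, iv _ a1 a2 _ a.2, iv _ a1 a2 _ b.2, ← mul_inv_rev, inv_inj] at this
    exact this.symm
  have u : ∀ K : Subgroup (G ⧸ N), Nat.card K = 2 → K = zpowers (φ (g ^ 2)) := fun K a => by
    obtain ⟨⟨y, hy⟩, h⟩ := exists_prime_orderOf_dvd_card' (G := K) 2 a.symm.dvd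
    obtain ⟨y, rfl⟩ := QuotientGroup.mk'_surjective N y
    rw [← orderOf_coe] at h
    have := un y _ (fun e => by change orderOf (φ y) = 2 at h; rw [e, orderOf_one] at h; omega)
      (h ▸ pow_orderOf_eq_one (φ y)) a1 a2
    exact (eq_of_le_of_card_ge (zpowers_le.2 (this ▸ hy)) (by
      rw [Nat.card_zpowers, orderOf_eq_prime a2 a1, a])).symm
  rcases Cfsg.Agent.S0016.result 2 (fun q => ⟨2, q4 q⟩) fun H K a b => (u H a).trans (u K b).symm with
    c | ⟨-, k, ⟨e⟩⟩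
  · exact .inl ⟨c, cy c⟩
  rcases k with _ | _ | k
  · have := QuaternionGroup.quaternionGroup_one_isCyclic
    have c := isCyclic_of_surjective e.symm e.symm.surjective
    exact .inl ⟨c, cy c⟩
  · exact .inr ⟨e⟩
  · have := orderOf_dvd_of_pow_eq_one (q4 (e.symm (QuaternionGroup.a 1)))
    rw [MulEquiv.orderOf_eq, QuaternionGroup.orderOf_a_one, pow_add, pow_add] at this
    have := Nat.le_of_dvd (by decide) this
    have := Nat.pos_of_ne_zero (pow_ne_zero k two_ne_zero)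
    omega

theorem caseB (H : ∀ g : G, g ^ 4 = 1 ∨ g ^ 3 = 1) {g r : G} (hg : orderOf g = 4) (hr : orderOf r = 3)
    {M : Subgroup G} [M.Normal] (hC : centralizer (M : Set G) ≤ M) (hP : IsPGroup 2 M) (hm : pCore 2 (G ⧸ M) = ⊥) :
    (IsPGroup 2 M ∧ Monoid.exponent M = 4 ∧ Group.nilpotencyClass M ≤ 2 ∧ M.index = 3) ∨
      (IsElementaryAbelian 2 M ∧ Nonempty (G ⧸ M ≃* Equiv.Perm (Fin 3))) := by
  have : Fact (Nat.Prime 3) := ⟨Nat.prime_three⟩
  let φ := QuotientGroup.mk' M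
  have k : ∀ x, φ x = 1 ↔ x ∈ M := fun x => QuotientGroup.eq_one_iff x
  have r3 : r ^ 3 = 1 := hr ▸ pow_orderOf_eq_one r
  have r1 : r ≠ 1 := fun e => by rw [e, orderOf_one] at hr; omega
  have ρ1 : φ r ≠ 1 := fun e => r1 (p34 (pw4 H hP ((k r).1 e)) r3)
  have ρ3 : φ r ^ 3 = 1 := by rw [← map_pow, r3, map_one]
  have h9 : ¬ 3 ^ 2 ∣ Nat.card G := fun h => by
    obtain ⟨A, hA⟩ := Sylow.exists_subgroup_card_pow_prime 3 h
    have a3 : ∀ a ∈ A, a ^ 3 = 1 := fun a => pw3 H (IsPGroup.of_card hA)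
    have : M ≤ ⊥ := CA.Coprime2.le_of_forall_centralizer_singleton
      (IsPGroup.isMulCommutative_of_card_eq_prime_sq hA) (fun c => by
        obtain ⟨a, ha⟩ := IsCyclic.exists_ofOrder_eq_natCard (α := A)
        have := Nat.le_of_dvd (by decide) (orderOf_dvd_of_pow_eq_one (a3 a a.2))
        rw [orderOf_coe, ha, hA] at this; omega) (by rw [normalizer_eq_top]; exact le_top) (by
        obtain ⟨j, hj⟩ := IsPGroup.iff_card.1 hP
        rw [hA, hj]; exact Nat.Coprime.pow _ _ (by decide)) fun a ha a1 m hm =>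
      (nc H (pw4 H hP hm.1) (a3 a ha) (mem_centralizer_singleton_iff.1 hm.2)).resolve_right a1
    refine ρ1 ((k r).2 (hC (mem_centralizer_iff.2 fun m hm => ?_)))
    rw [mem_bot.1 (this hm), one_mul, mul_one]
  have H' : ∀ q : G ⧸ M, q ^ 4 = 1 ∨ q ^ 3 = 1 := fun q => by
    obtain ⟨y, rfl⟩ := QuotientGroup.mk'_surjective M q
    exact (H y).imp (fun a => by rw [← map_pow, a, map_one]) fun a => by rw [← map_pow, a, map_one]
  have := solv H'
  have hK := centralizer_pCore_le (G := G ⧸ M) 3 (le_bot_iff.1 (hm ▸ le_pCore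
    (isP H' (fun _ a => a) coprime_pPrimeCore)))
  have oρ := orderOf_eq_prime ρ3 ρ1
  have hK' : pCore 3 (G ⧸ M) = zpowers (φ r) := by
    obtain ⟨P, hP⟩ := (IsPGroup.of_card (p := 3) (n := 1) ((Nat.card_zpowers (φ r)).trans oρ)).exists_le_sylow
    obtain ⟨j, hj⟩ := IsPGroup.iff_card.1 P.isPGroup'
    have a : j ≤ 1 := by
      by_contra! c
      exact h9 ((pow_dvd_pow 3 c).trans (hj ▸ (P : Subgroup (G ⧸ M)).card_subgroup_dvd_card.trans M.index_dvd_card))
    have b : zpowers (φ r) = P := eq_of_le_of_card_ge hP (by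
      rw [hj, Nat.card_zpowers, oρ]; exact Nat.pow_le_pow_right (by decide) a)
    have c := (pCore_le_sylow P).trans b.ge
    have d := card_dvd_of_le c
    rw [Nat.card_zpowers, oρ] at d
    refine eq_of_le_of_card_ge c ((Nat.card_zpowers _).trans (oρ.trans
      ((Nat.prime_three.eq_one_or_self_of_dvd _ d).resolve_left fun e => ρ1 ?_).symm)).le
    rw [card_eq_one.1 e] at hK
    exact mem_bot.1 (hK (mem_centralizer_iff.2 fun m hm => by rw [mem_bot.1 hm, one_mul, mul_one]))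
  have Kn : (zpowers (φ r)).Normal := hK' ▸ inferInstance
  rw [hK', centralizer_zpowers] at hK
  have c3 : ∀ y, φ y ≠ 1 → φ y ^ 3 = 1 → y ^ 3 = 1 := fun y a b =>
    (H y).resolve_left fun c => a (p34 (by rw [← map_pow, c, map_one]) b)
  let ρ : MulAut M := MulAut.conjNormal r
  have r2 : r⁻¹ = r * r := inv_eq_of_mul_eq_one_left (by rw [← r3, pow_three'])
  have h1 : ∀ x, x * ρ x * ρ (ρ x) = 1 := fun x => Subtype.ext (by
    have := c3 (x * r) (by rwa [map_mul, (k _).2 x.2, one_mul]) (by rwa [map_mul, (k _).2 x.2, one_mul])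
    rw [coe_one, ← this]
    simp only [ρ, coe_mul, MulAut.conjNormal_apply]
    calc _ = x * r * x * r * x * (r * r)⁻¹ := by group
      _ = _ := by rw [← r2, inv_inv, pow_three']; group)
  have h2 : ∀ x, x * ρ (ρ x) * ρ x = 1 := fun x => Subtype.ext (by
    have := c3 (x * r⁻¹) (by rwa [map_mul, (k _).2 x.2, one_mul, map_inv, ne_eq, inv_eq_one])
      (by rwa [map_mul, (k _).2 x.2, one_mul, map_inv, inv_pow, inv_eq_one])
    rw [coe_one, ← this]
    simp only [ρ, coe_mul, MulAut.conjNormal_apply]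
    have e : (r⁻¹ * r⁻¹) = r := by rw [← mul_inv_rev, ← r2, inv_inv]
    calc _ = x * (r * r) * x * (r⁻¹ * r⁻¹) * r * x * r⁻¹ := by group
      _ = _ := by rw [e, mul_assoc _ r r, ← r2, pow_three']; group)
  have fp : ∀ x, ρ x = x → x = 1 := fun x a => Subtype.ext
    ((nc H (pw4 H hP x.2) r3 (mul_inv_eq_iff_eq_mul.1 (congrArg Subtype.val a)).symm).resolve_right r1)
  have cl := (Cfsg.Agent.S3779.result Nat.prime_three ρ (orderOf_eq_prime (by
    rw [← map_pow, r3, map_one]) fun e => ρ1 ((k r).2 (hC (mem_centralizer_iff.2 fun m hm => by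
      rw [show m = 1 from congrArg Subtype.val (fp ⟨m, hm⟩ (by rw [e]; rfl)), one_mul, mul_one])))) fp).2.1 rfl
  have := hP.isNilpotent
  have z3 : ∀ q ∈ zpowers (φ r), q ^ 3 = 1 := fun q a => orderOf_dvd_iff_pow_eq_one.1 (oρ ▸ orderOf_dvd_of_mem_zpowers a)
  by_cases hT : zpowers (φ r) = ⊤
  · refine .inl ⟨hP, Nat.dvd_antisymm (Monoid.exponent_dvd_of_forall_pow_eq_one fun x => Subtype.ext
      (pw4 H hP x.2)) ?_, Subgroup.lowerCentralSeries_eq_bot_iff_nilpotencyClass_le.1 cl, ?_⟩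
    · have : g ∈ M := (k g).1 (p34 (by rw [← map_pow, ← hg, pow_orderOf_eq_one, map_one]) (z3 _ (hT ▸ mem_top _)))
      exact hg ▸ (orderOf_coe (⟨g, this⟩ : M)) ▸ Monoid.order_dvd_exponent _
    · rw [index_eq_card, ← card_top, ← hT, Nat.card_zpowers, oρ]
  right
  have iv : ∀ q, q ∉ zpowers (φ r) → q * φ r * q⁻¹ = (φ r)⁻¹ := fun q a => by
    classical
    have b := Kn.conj_mem _ (mem_zpowers (φ r)) q
    rw [mem_zpowers_iff_mem_range_orderOf, oρ, Finset.mem_image] at b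
    obtain ⟨j, j1, j2⟩ := b
    rw [Finset.mem_range] at j1
    interval_cases j
    · exact absurd (conj_eq_one_iff.1 (j2.symm.trans (pow_zero _))) ρ1
    · exact absurd (hK (mem_centralizer_singleton_iff.2 (mul_inv_eq_iff_eq_mul.1 (j2.symm.trans (pow_one _))))) a
    · rw [← j2]; exact eq_inv_of_mul_eq_one_left (by rw [← pow_succ, ρ3])
  obtain ⟨q, hq⟩ : ∃ q, q ∉ zpowers (φ r) := by
    by_contra! c; exact hT ((eq_top_iff' _).2 c)
  obtain ⟨s0, rfl⟩ := QuotientGroup.mk'_surjective M q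
  change φ s0 ∉ _ at hq
  obtain ⟨m, hm⟩ := MonoidHom.FixedPointFree.commutatorMap_surjective (φ := ρ) fp ⟨(r * s0 * r * s0⁻¹)⁻¹, inv_mem
    ((k _).1 (by rw [mul_assoc, mul_assoc, ← mul_assoc s0, map_mul, map_mul, map_mul, map_inv, iv _ hq,
      mul_inv_cancel]))⟩
  obtain ⟨s, s1, s2⟩ : ∃ s, φ s ∉ zpowers (φ r) ∧ s * r * s⁻¹ = r⁻¹ := by
    refine ⟨(m : G)⁻¹ * s0, by rwa [map_mul, (k _).2 (inv_mem m.2), one_mul], ?_⟩
    have := congrArg Subtype.val hm
    simp only [MonoidHom.commutatorMap_apply, ρ, div_eq_mul_inv, coe_mul, coe_inv, MulAut.conjNormal_apply] at this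
    calc _ = (m : G)⁻¹ * r⁻¹ * (r * s0 * r * s0⁻¹)⁻¹⁻¹ * m := by group
      _ = _ := by rw [← this]; group
  have c4 : ∀ y, φ y ∉ zpowers (φ r) → y ^ 4 = 1 := fun y a => (H y).resolve_right fun c => a (by
    have b : φ y * φ y ∈ zpowers (φ r) := hK (mem_centralizer_singleton_iff.2 (sq_comm (iv _ a)))
    have d : φ y = (φ y * φ y)⁻¹ := eq_inv_of_mul_eq_one_left (by rw [← pow_three, ← map_pow, c, map_one])
    exact d ▸ inv_mem b)
  have s3 : s * s = 1 := (nc H (by rw [← pow_two, ← pow_mul, show 2 * 4 = 4 * 2 by rfl, pow_mul, c4 s s1, one_pow]) r3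
    (sq_comm s2)).resolve_right r1
  have si : s⁻¹ = s := inv_eq_of_mul_eq_one_left s3
  have el := elem ρ (MulAut.conjNormal s) h1 h2 (fun x => Subtype.ext (by
      simp only [ρ, MulAut.conjNormal_apply]
      calc _ = (s * r * s⁻¹) * (s * x * s⁻¹) * (s * r * s⁻¹)⁻¹ := by group
        _ = r * r * (s * x * s⁻¹) * (r * r)⁻¹ := by rw [s2, ← r2]
        _ = _ := by group))
    (fun x => Subtype.ext (by
      have := c4 (x * s) (by rwa [map_mul, (k _).2 x.2, one_mul])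
      rw [coe_one, ← this]
      simp only [coe_pow, coe_mul, MulAut.conjNormal_apply, si]
      rw [show 4 = 2 * 2 by rfl, pow_mul, pow_two (x * s : G)]; group))
    (fun x => Subtype.ext (by
      simp only [MulAut.conjNormal_apply]
      calc _ = s * s * x * (s * s)⁻¹ := by group
        _ = _ := by rw [s3]; group))
    (fun x y => by
      have : ⁅commutator M, ⊤⁆ = ⊥ := cl
      rw [commutator_eq_bot_iff_le_centralizer, coe_top, centralizer_univ] at this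
      exact this (commutator_mem_commutator (mem_top x) (mem_top y)))
    fun x => Subtype.ext (pw4 H hP x.2)
  refine ⟨⟨⟨⟨fun a b => ?_⟩⟩, fun a h => congrArg Subtype.val (el ⟨a, h⟩)⟩, ?_⟩
  · exact (Commute.of_orderOf_dvd_two (fun x => orderOf_dvd_of_pow_eq_one (el x)) a b).eq
  obtain ⟨e⟩ := CA.PGDihedral.nonempty_mulEquiv_dihedral oρ s1 (by rw [← map_pow, pow_two, s3, map_one]) (iv _ s1)
    ((eq_top_iff' _).2 fun q => by
      by_cases c : q ∈ zpowers (φ r)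
      · exact mem_sup_left c
      have : (φ s)⁻¹ * q ∈ zpowers (φ r) := hK (mem_centralizer_singleton_iff.2 (by
        calc _ = (φ s)⁻¹ * (q * φ r * q⁻¹) * q := by group
          _ = _ := by rw [iv q c, ← iv _ s1]; group))
      simpa using mul_mem (mem_sup_right (mem_zpowers (φ s))) (mem_sup_left this))
  exact CA.AutAbs.nonempty_D3.map e.trans

theorem main (H : ∀ g : G, g ^ 4 = 1 ∨ g ^ 3 = 1) {g r : G} (hg : orderOf g = 4) (hr : orderOf r = 3) :
    ∃ (N : Subgroup G) (_ : N.Normal),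
      (IsPGroup 2 ↥N ∧ Monoid.exponent ↥N = 4 ∧ Group.nilpotencyClass ↥N ≤ 2 ∧ N.index = 3) ∨
      (Cfsg.IsElementaryAbelian 2 N ∧ Nonempty (G ⧸ N ≃* Equiv.Perm (Fin 3))) ∨
      (Cfsg.IsElementaryAbelian 3 N ∧ ((IsCyclic (G ⧸ N) ∧ N.index = 4) ∨ Nonempty (G ⧸ N ≃* QuaternionGroup 2))) := by
  have := solv H
  have : Fact (Nat.Prime 3) := ⟨Nat.prime_three⟩
  by_cases h : pPrimeCore 3 G = ⊥
  · exact ⟨pCore 3 G, inferInstance, .inr (.inr (caseA H hg (centralizer_pCore_le 3 h) isPGroup_pCore))⟩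
  have h2 : pPrimeCore 2 G = ⊥ := by
    obtain ⟨x, x1, x2⟩ := (bot_or_exists_ne_one _).resolve_left h
    have a : IsPGroup 2 (pPrimeCore 3 G) := isP H (fun _ a => a) coprime_pPrimeCore
    refine (eq_bot_iff_forall _).2 fun y hy => (nc H (pw4 H a x1)
      (pw3 H (isP H (fun _ a => a.symm) coprime_pPrimeCore) hy) ?_).resolve_left x2
    exact pPrimeCore_le_centralizer_pCore hy x (le_pCore a x1)
  exact ⟨pCore 2 G, inferInstance, or_assoc.1 (.inl (caseB H hg hr (centralizer_pCore_le 2 h2) isPGroup_pCore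
    pCore_quotient_pCore))⟩

end CA.H8Spec
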