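import Cfsg.Agent.Lib.Grp.CFun2
import Cfsg.Agent.Lib.Grp.NPC2
import Cfsg.Agent.Lib.Grp.FrobCrit

/-! The Hall--Wielandt transfer argument. -/

set_option autoImplicit false
set_option linter.unusedSectionVars false

namespace CA.HallWie

open Subgroup Cfsg CA.BG
open scoped commutatorElement

variable {G A : Type*} [Group G] [CommGroup A] {H K : Subgroup G} (φ : H →* A)

theorem out_mem (x : G) (ω : G ⧸ H) : (x • ω).out⁻¹ * x * ω.out ∈ H := by
  rw [mul_assoc, ← QuotientGroup.eq, QuotientGroup.out_eq', ← smul_eq_mul, ← MulAction.Quotient.smul_mk,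
    QuotientGroup.out_eq']

/-- the transfer cocycle -/
noncomputable def cc (x : G) (ω : G ⧸ H) : A := φ ⟨_, out_mem x ω⟩

theorem cc_mul (x y : G) (ω : G ⧸ H) : cc φ (x * y) ω = cc φ x (y • ω) * cc φ y ω := by
  rw [cc, cc, cc, ← map_mul]
  congr 1
  exact Subtype.ext (by simp [mul_smul, mul_assoc])

theorem cc_one (ω : G ⧸ H) : cc φ 1 ω = 1 := by
  have := cc_mul φ 1 1 ω
  simpa using this

theorem cc_fix {t : G} {ω : G ⧸ H} (h : t • ω = ω) :
    ∃ h' : ω.out⁻¹ * t * ω.out ∈ H, cc φ t ω = φ ⟨_, h'⟩ := by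
  refine ⟨by simpa [h] using out_mem t ω, ?_⟩
  rw [cc]; congr 1; exact Subtype.ext (by simp [h])

/-- invariant sets of cosets -/
def Iv (K : Subgroup G) (s : Finset (G ⧸ H)) : Prop := ∀ k ∈ K, ∀ ω ∈ s, k • ω ∈ s

theorem prod_shift {s : Finset (G ⧸ H)} (h : Iv K s) {x : G} (hx : x ∈ K) (f : G ⧸ H → A) :
    ∏ ω ∈ s, f (x • ω) = ∏ ω ∈ s, f ω :=
  Finset.prod_nbij' (fun ω => x • ω) (fun ω => x⁻¹ • ω) (fun ω => h x hx ω) (fun ω => h _ (inv_mem hx) ω)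
    (fun _ _ => inv_smul_smul _ _) (fun _ _ => smul_inv_smul _ _) fun _ _ => rfl

/-- partial transfer -/
noncomputable def dt (s : Finset (G ⧸ H)) (h : Iv K s) : K →* A :=
  MonoidHom.mk' (fun x => ∏ ω ∈ s, cc φ x ω) fun x y => by
    simp only [coe_mul, cc_mul, Finset.prod_mul_distrib]
    rw [prod_shift h y.2]

theorem dt_apply {s : Finset (G ⧸ H)} (h : Iv K s) (x : K) : dt φ s h x = ∏ ω ∈ s, cc φ x ω := rfl

theorem prod_conj {s : Finset (G ⧸ H)} (h : Iv K s) {x : G} (y : G) (hx : y⁻¹ * x * y ∈ K) :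
    ∏ ω ∈ s, cc φ x (y • ω) = ∏ ω ∈ s, cc φ (y⁻¹ * x * y) ω := by
  have e : ∀ ω : G ⧸ H, cc φ x (y • ω) * cc φ y ω = cc φ y ((y⁻¹ * x * y) • ω) * cc φ (y⁻¹ * x * y) ω := fun ω => by
    rw [← cc_mul, ← cc_mul]; congr 1; group
  have := Finset.prod_congr (s₁ := s) rfl fun ω _ => e ω
  rw [Finset.prod_mul_distrib, Finset.prod_mul_distrib, prod_shift h hx (cc φ y), mul_comm] at this
  exact mul_left_cancel this

theorem prod_eq_one {s : Finset (G ⧸ H)} (h : Iv K s) (h1 : ∀ ω ∈ s, ∀ t ∈ K, t • ω = ω → cc φ t ω = 1)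
    {x : G} (hx : x ∈ K) : ∏ ω ∈ s, cc φ x ω = 1 := by
  let rep : G ⧸ H → G ⧸ H := fun ω => (Quotient.mk (MulAction.orbitRel K (G ⧸ H)) ω).out
  have h2 : ∀ ω, ∃ k ∈ K, k • rep ω = ω := fun ω => by
    obtain ⟨k, hk⟩ := (MulAction.orbitRel K (G ⧸ H)).symm (Quotient.mk_out (s := MulAction.orbitRel K (G ⧸ H)) ω)
    exact ⟨k, k.2, hk⟩
  choose k hk hk' using h2
  have h3 : ∀ ω, rep (x • ω) = rep ω := fun ω =>
    congrArg Quotient.out (Quotient.sound (s := MulAction.orbitRel K (G ⧸ H)) ⟨⟨x, hx⟩, rfl⟩)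
  have e : ∀ ω ∈ s, cc φ x ω * cc φ (k ω) (rep ω) = cc φ (k (x • ω)) (rep (x • ω)) := fun ω hω => by
    have h4 : ((k (x • ω))⁻¹ * (x * k ω)) • rep ω = rep ω := by
      rw [mul_smul, mul_smul, hk', inv_smul_eq_iff, ← h3, hk']
    have h5 : rep ω ∈ s := by
      have := h _ (inv_mem (hk ω)) ω hω
      rwa [inv_smul_eq_iff.2 (hk' ω).symm] at this
    have h6 := h1 _ h5 _ (mul_mem (inv_mem (hk _)) (mul_mem hx (hk _))) h4
    have h7 := cc_mul φ (k (x • ω)) ((k (x • ω))⁻¹ * (x * k ω)) (rep ω)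
    rw [h4, h6, mul_one, mul_inv_cancel_left, cc_mul, hk'] at h7
    rw [h3, h7]
  have := Finset.prod_congr (s₁ := s) rfl e
  rw [Finset.prod_mul_distrib, prod_shift h hx fun ω => cc φ (k ω) (rep ω)] at this
  exact mul_eq_right.1 this

theorem choose_mod {p : ℕ} (hp : p.Prime) (k : ℕ) (hk : k < p) : (p : ℤ) ∣ ((p - 1).choose k : ℤ) - (-1) ^ k := by
  induction k with
  | zero => simp
  | succ k ih =>
    have h1 : p.choose (k + 1) = (p - 1).choose k + (p - 1).choose (k + 1) := by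
      conv_lhs => rw [← Nat.sub_add_cancel hp.one_le]
      exact Nat.choose_succ_succ' _ _
    have h2 : (p : ℤ) ∣ p.choose (k + 1) := Int.natCast_dvd_natCast.2 (hp.dvd_choose_self k.succ_ne_zero hk)
    rw [h1] at h2
    push_cast at h2
    have := dvd_sub h2 (ih (by omega))
    rwa [show ∀ a b : ℤ, a + b - (a - (-1) ^ k) = b - (-1) ^ (k + 1) from fun a b => by ring] at this

/-- the iterated commutator -/
abbrev it (z : G) (n : ℕ) (u : G) : G := (fun y : G => y⁻¹ * z⁻¹ * y * z)^[n] u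

theorem it_mem {C : Subgroup G} {z u : G} (hz : z ∈ 𝓝(C)) (hu : u ∈ C) (n : ℕ) : it z n u ∈ C := by
  induction n with
  | zero => exact hu
  | succ n ih =>
    rw [it, Function.iterate_succ_apply', mul_assoc, mul_assoc, ← mul_assoc z⁻¹]
    exact mul_mem (inv_mem ih) (conj_mem_of_mem_norm' hz ih)

theorem prod_eq_it {p : ℕ} (hp : p.Prime) (hA : ∀ a : A, a ^ p = 1) {C : Subgroup G} (ψ : C →* A) {z u : G}
    (hz : z ∈ 𝓝(C)) (hu : u ∈ C) :
    ∏ i ∈ Finset.range p, ψ ⟨(z ^ i)⁻¹ * u * z ^ i, conj_mem_of_mem_norm' (pow_mem hz i) hu⟩ =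
      ψ ⟨it z (p - 1) u, it_mem hz hu _⟩ := by
  let f : C → ℕ → Additive A := fun y i =>
    Additive.ofMul (ψ ⟨(z ^ i)⁻¹ * y * z ^ i, conj_mem_of_mem_norm' (pow_mem hz i) y.2⟩)
  have h1 : ∀ n, f ⟨it z n u, it_mem hz hu n⟩ = (fwdDiff 1)^[n] (f ⟨u, hu⟩) := fun n => by
    induction n with
    | zero => rfl
    | succ n ih =>
      rw [Function.iterate_succ_apply', ← ih]
      funext i
      simp only [f, fwdDiff]
      rw [← ofMul_div, div_eq_mul_inv, mul_comm, ← map_inv, ← map_mul]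
      congr 2
      apply Subtype.ext
      simp only [it, Function.iterate_succ_apply', coe_mul, coe_inv, pow_succ']
      group
  have h2 := congrFun (h1 (p - 1)) 0
  rw [fwdDiff_iter_eq_sum_shift, Nat.sub_add_cancel hp.one_le] at h2
  have h3 : ∀ k ∈ Finset.range p, ((-1 : ℤ) ^ (p - 1 - k) * (p - 1).choose k) • f ⟨u, hu⟩ (0 + k • 1) =
      f ⟨u, hu⟩ k := fun k hk => by
    have hk' := Finset.mem_range.1 hk
    have h4 : (p : ℤ) ∣ (-1 : ℤ) ^ (p - 1 - k) * (p - 1).choose k - 1 := by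
      have h5 := (choose_mod hp k hk').mul_left ((-1 : ℤ) ^ (p - 1 - k))
      have h6 := choose_mod hp (p - 1) (by have := hp.pos; omega)
      rw [mul_sub, ← pow_add, show p - 1 - k + k = p - 1 by omega] at h5
      rw [Nat.choose_self] at h6
      have := dvd_sub h5 h6
      rwa [Nat.cast_one, show ∀ a b : ℤ, a - b - (1 - b) = a - 1 from fun a b => by ring] at this
    obtain ⟨m, hm⟩ := h4
    have h7 : (p : ℤ) • f ⟨u, hu⟩ k = 0 := by
      simp only [f]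
      rw [natCast_zsmul, ← ofMul_pow, hA]; rfl
    rw [sub_eq_iff_eq_add.1 hm, add_smul, one_smul, zero_add, smul_eq_mul, mul_one, mul_comm, mul_smul, h7,
      smul_zero, zero_add]
  rw [Finset.sum_congr rfl h3] at h2
  have h8 := congrArg Additive.toMul h2
  simp only [f, toMul_sum, toMul_ofMul, pow_zero, inv_one, one_mul, mul_one] at h8
  exact h8.symm

variable [Finite G] {p : ℕ} [hp : Fact p.Prime]

theorem core {P Q : Subgroup G} (hP : IsPGroup p P) (hQ : Q ≤ P) (hPH : P ≤ H)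
    (hf : ∀ g, (∀ z ∈ Q, g⁻¹ * z * g ∈ H) → g ∈ H) (hA : ∀ a : A, a ^ p = 1) {u : G} (hu : u ∈ P)
    (hu' : u ∈ commutator G) (h1 : φ ⟨u, hPH hu⟩ ≠ 1)
    (hm : ∀ t ∈ zpowers u, u ∉ zpowers t → ∀ g (h : g⁻¹ * t * g ∈ H), φ ⟨_, h⟩ = 1) :
    ∃ (C : Subgroup G) (z : G) (hz : z ∈ 𝓝(C)) (huC : u ∈ C) (ψ : C →* A), C ≤ P ∧ z ∈ Q ∧ C.relIndex Q = p ∧
      ψ ⟨it z (p - 1) u, it_mem hz huC _⟩ ≠ 1 := by
  classical
  haveI := Fintype.ofFinite (G ⧸ H)
  set R := Q ⊔ zpowers u with hR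
  have hRP : R ≤ P := sup_le hQ (zpowers_le.2 hu)
  have huR : u ∈ R := mem_sup_right (mem_zpowers u)
  have hRp : IsPGroup p R := hP.to_le hRP
  have fx : ∀ h ∈ H, h • ((1 : G) : G ⧸ H) = ((1 : G) : G ⧸ H) := fun h hh => by
    rw [MulAction.Quotient.smul_mk, QuotientGroup.eq]; simpa using hh
  have a1 : ∏ ω, cc φ u ω = 1 := by
    have := Abelianization.commutator_subset_ker
      ((dt φ (K := ⊤) Finset.univ fun _ _ _ _ => Finset.mem_univ _).comp topEquiv.symm.toMonoidHom) hu'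
    exact this
  have a2 : cc φ u ((1 : G) : G ⧸ H) = φ ⟨u, hPH hu⟩ := by
    obtain ⟨h', e⟩ := cc_fix φ (fx u (hPH hu))
    have h0 : ((1 : G) : G ⧸ H).out ∈ H := by
      have := QuotientGroup.eq.1 (QuotientGroup.out_eq' ((1 : G) : G ⧸ H)).symm
      simpa using this
    rw [e, show (⟨_, h'⟩ : H) = ⟨_, h0⟩⁻¹ * ⟨u, hPH hu⟩ * ⟨_, h0⟩ from rfl, map_mul, map_mul, map_inv,
      mul_comm, mul_inv_cancel_left]
  rw [← Finset.mul_prod_erase _ _ (Finset.mem_univ ((1 : G) : G ⧸ H)), a2] at a1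
  have a3 : ∏ ω ∈ Finset.univ.erase ((1 : G) : G ⧸ H), cc φ u ω ≠ 1 := fun e => h1 (by rwa [e, mul_one] at a1)
  haveI := Fintype.ofFinite (Quotient (MulAction.orbitRel R (G ⧸ H)))
  rw [← Finset.prod_fiberwise _ (Quotient.mk (MulAction.orbitRel R (G ⧸ H)))] at a3
  obtain ⟨o, -, a4⟩ := Finset.exists_ne_one_of_prod_ne_one a3
  obtain ⟨ω₀, a5, -⟩ := Finset.exists_ne_one_of_prod_ne_one a4
  obtain ⟨a6, rfl⟩ := Finset.mem_filter.1 a5
  replace a6 := Finset.ne_of_mem_erase a6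
  set O := Finset.filter (fun ω => Quotient.mk (MulAction.orbitRel R (G ⧸ H)) ω =
    Quotient.mk (MulAction.orbitRel R (G ⧸ H)) ω₀) (Finset.univ.erase ((1 : G) : G ⧸ H)) with hO
  have mO : ∀ ω, ω ∈ O ↔ ∃ r ∈ R, r • ω₀ = ω := fun ω => by
    rw [hO, Finset.mem_filter, Finset.mem_erase, Quotient.eq]
    refine ⟨fun ⟨_, r, hr⟩ => ⟨r, r.2, hr⟩, ?_⟩
    rintro ⟨r, hr, rfl⟩
    refine ⟨⟨fun e => a6 ?_, Finset.mem_univ _⟩, ⟨r, hr⟩, rfl⟩
    rw [← inv_smul_eq_iff.2 e.symm, fx _ (inv_mem (hPH (hRP hr)))]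
  have a7 : ¬ Q ≤ MulAction.stabilizer G ω₀ := fun h => a6 (by
    have := hf ω₀.out fun z hz => (cc_fix φ (h hz)).1
    rw [← QuotientGroup.out_eq' ω₀, QuotientGroup.eq]; simpa using this)
  obtain ⟨C, c1, c2, c3⟩ := PGBasic.exists_relIndex_eq_below hRp
    (lt_of_le_of_ne inf_le_left fun e => a7 (le_sup_left.trans (inf_eq_left.1 e)) :
      R ⊓ MulAction.stabilizer G ω₀ < R)
  have c4 : R ≤ 𝓝(C) := CA.BG4.norm_of_relIndex hp.out (isPi_of_isPGroup hp.out hRp) c2 c3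
  have iO : Iv R O := fun r hr ω hω => by
    obtain ⟨s, hs, rfl⟩ := (mO ω).1 hω
    exact (mO _).2 ⟨r * s, mul_mem hr hs, mul_smul _ _ _⟩
  have huC : u ∈ C := by
    by_contra huC
    refine a4 (prod_eq_one φ (K := zpowers u) (fun k hk => iO k (zpowers_le.2 huR hk)) (fun ω hω t ht e => ?_)
      (mem_zpowers u))
    obtain ⟨h', e'⟩ := cc_fix φ e
    rw [e']
    refine hm t ht (fun h => huC (zpowers_le.2 ?_ h)) _ h'
    obtain ⟨r, hr, rfl⟩ := (mO ω).1 hω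
    have : r⁻¹ * t * r ∈ C := c1 (mem_inf.2 ⟨mul_mem (mul_mem (inv_mem hr) (zpowers_le.2 huR ht)) hr, by
      rw [MulAction.mem_stabilizer_iff, mul_smul, mul_smul, e, inv_smul_smul]⟩)
    simpa [mul_assoc] using conj_mem_of_mem_norm (c4 hr) this
  have c5 : ¬ Q ≤ C := fun h => by
    rw [relIndex_eq_one.2 (sup_le h (zpowers_le.2 huC))] at c3
    exact hp.out.one_lt.ne c3
  obtain ⟨z, z1, z2⟩ := SetLike.not_le_iff_exists.1 c5
  have hz : z ∈ R := mem_sup_left z1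
  obtain ⟨k, hk⟩ := Fus2.exists_pow_eq_one hRp hz
  let O' := O.filter fun b => ∃ l ∈ C, l • ω₀ = b
  have iO' : Iv C O' := fun r hr ω hω => by
    obtain ⟨h2, s, hs, rfl⟩ := Finset.mem_filter.1 hω
    exact Finset.mem_filter.2 ⟨iO r (c2 hr) _ h2, r * s, mul_mem hr hs, mul_smul _ _ _⟩
  refine ⟨C, z, c4 hz, huC, dt φ O' iO', c2.trans hRP, z1, ?_, ?_⟩
  · have h2 := relIndex_dvd_of_norm c4 (le_sup_left : Q ≤ R)
    rw [c3] at h2
    exact ((Nat.dvd_prime hp.out).1 h2).resolve_left fun e => c5 (relIndex_eq_one.1 e)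
  rw [← prod_eq_it hp.out hA _ (c4 hz) huC]
  refine fun e => a4 ?_
  rw [← e, ← Finset.prod_nbij (s := Finset.range p ×ˢ O') (f := fun x => cc φ u (z ^ x.1 • x.2))
    (fun x => z ^ x.1 • x.2) ?_ ?_ ?_ fun _ _ => rfl, Finset.prod_product]
  · refine Finset.prod_congr rfl fun i _ => ?_
    rw [dt_apply]
    exact prod_conj φ iO' (z ^ i) (conj_mem_of_mem_norm' (pow_mem (c4 hz) i) huC)
  · rintro ⟨i, b⟩ hx
    exact iO _ (pow_mem hz _) _ (Finset.mem_filter.1 (Finset.mem_product.1 hx).2).1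
  · rintro ⟨i, b⟩ hx ⟨j, c⟩ hy e
    obtain ⟨x1, x2⟩ := Finset.mem_product.1 hx
    obtain ⟨y1, y2⟩ := Finset.mem_product.1 hy
    obtain ⟨-, l, b1, rfl⟩ := Finset.mem_filter.1 x2
    obtain ⟨-, m, b2, rfl⟩ := Finset.mem_filter.1 y2
    have e' : z ^ i • l • ω₀ = z ^ j • m • ω₀ := e
    have : l⁻¹ * ((z ^ i)⁻¹ * z ^ j) * m ∈ C := c1 (mem_inf.2 ⟨mul_mem (mul_mem (inv_mem (c2 b1))
      (mul_mem (inv_mem (pow_mem hz _)) (pow_mem hz _))) (c2 b2), by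
        rw [MulAction.mem_stabilizer_iff, mul_smul, mul_smul, mul_smul, ← e', inv_smul_smul,
          inv_smul_smul]⟩)
    obtain rfl : i = j := CFun.eq_of_pow_mem hk z2 (Finset.mem_range.1 x1) (Finset.mem_range.1 y1)
      ((C.mul_mem_cancel_left (inv_mem b1)).1 ((C.mul_mem_cancel_right b2).1 this))
    rw [smul_left_cancel _ e']
  · intro b hb
    obtain ⟨e, b1, rfl⟩ := (mO b).1 hb
    obtain ⟨i, i1, i2⟩ := CFun.exists_pow_mul hk z2 hz c3 b1
    exact ⟨(i, ((z ^ i)⁻¹ * e) • ω₀), Finset.mem_product.2 ⟨Finset.mem_range.2 i1,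
      Finset.mem_filter.2 ⟨(mO _).2 ⟨_, c2 i2, rfl⟩, _, i2, rfl⟩⟩, by simp [mul_smul]⟩

theorem main (P : Sylow p G) {Q : Subgroup G} (hQ : IsWeaklyClosed Q P)
    (h : ¬ commutator G ⊓ (P : Subgroup G) ≤ ⁅𝓝(Q), 𝓝(Q)⁆ ⊔ Phi (P : Subgroup G)) :
    ∃ (C : Subgroup G) (u z : G), C ≤ P ∧ u ∈ C ∧ z ∈ Q ∧ z ∈ 𝓝(C) ∧ C.relIndex Q = p ∧ it z (p - 1) u ∉ Phi C := by
  have hPH : (P : Subgroup G) ≤ 𝓝(Q) := Trf.sylow_le_normalizer_of_weaklyClosed hQ
  have hP : Syl p (P : Subgroup G) 𝓝(Q) := (syl_top hp.out P).of_le hPH le_top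
  have hf : ∀ g, (∀ z ∈ Q, g⁻¹ * z * g ∈ 𝓝(Q)) → g ∈ 𝓝(Q) := fun g hg => by
    obtain ⟨x, hx, e⟩ := hP.syl_conj_le hp.out (K := cj g⁻¹ Q) ((hP.pi.of_le hQ.1).cj _) fun y hy => by
      obtain ⟨z, hz, rfl⟩ := mem_cj'.1 hy
      simpa using hg z hz
    rw [← cj_mul] at e
    have := mul_mem (inv_mem (mem_norm_iff_cj.2 (hQ.2 _ e))) hx
    simpa using this
  generalize 𝓝(Q) = H at h hPH hP hf
  set K := ⁅H, H⁆ ⊔ Phi (P : Subgroup G) with hK
  have hKH : K ≤ H := sup_le (der_le H) ((Phi_le _).trans hPH)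
  haveI : (K.subgroupOf H).Normal := (normal_subgroupOf_iff_le_normalizer hKH).2 (norm_of_der_le le_sup_left hKH)
  letI : CommGroup (H ⧸ K.subgroupOf H) := { (inferInstance : Group (H ⧸ K.subgroupOf H)) with
    mul_comm := by
      rintro ⟨a⟩ ⟨b⟩
      refine QuotientGroup.eq.2 (mem_sup_left ?_)
      have := commutator_mem_commutator (inv_mem b.2) (inv_mem a.2)
      simpa [commutatorElement_def, mul_assoc] using this }
  set m := (P : Subgroup G).relIndex H with hm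
  let f := QuotientGroup.mk' (K.subgroupOf H)
  have f1 : ∀ x : H, (x : G) ∈ (P : Subgroup G) → f x ^ p = 1 := fun x hx => by
    rw [← map_pow]
    exact (QuotientGroup.eq_one_iff _).2 (mem_sup_right (pow_mem_Phi hp.out hP.pi hx))
  have f2 : ∀ x : H, (f x ^ m) ^ p = 1 := fun x => by
    obtain ⟨k, hk⟩ := index_map_dvd ((P : Subgroup G).subgroupOf H) (QuotientGroup.mk'_surjective (K.subgroupOf H))
    obtain ⟨y, hy, e⟩ := pow_mem ((((P : Subgroup G).subgroupOf H).map f).pow_index_mem (f x)) k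
    rw [← pow_mul, ← hk] at e
    rw [show f x ^ m = f y from e.symm]
    exact f1 y hy
  let φ : H →* (powMonoidHom p : (H ⧸ K.subgroupOf H) →* _).ker :=
    ((powMonoidHom m).comp f).codRestrict _ f2
  have hA : ∀ a : (powMonoidHom p : (H ⧸ K.subgroupOf H) →* _).ker, a ^ p = 1 := fun a => Subtype.ext a.2
  obtain ⟨v, hv, hv'⟩ := SetLike.not_le_iff_exists.1 h
  have hex : ∃ n, ∃ u : H, (u : G) ∈ commutator G ∧ PiNat {p} (orderOf (u : G)) ∧ φ u ≠ 1 ∧ orderOf (u : G) = n := by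
    refine ⟨_, ⟨v, hPH hv.2⟩, hv.1, hP.pi.orderOf hv.2, fun e => hv' ?_, rfl⟩
    have e1 : f ⟨v, hPH hv.2⟩ ^ m = 1 := congrArg Subtype.val e
    have := pow_gcd_eq_one.2 ⟨f1 ⟨v, hPH hv.2⟩ hv.2, e1⟩
    rw [((Nat.Prime.coprime_iff_not_dvd hp.out).2 (hP.not_dvd hp.out)).gcd_eq_one, pow_one] at this
    exact (QuotientGroup.eq_one_iff (N := K.subgroupOf H) ⟨v, hPH hv.2⟩).1 this
  classical
  obtain ⟨u, u1, u2, u3, u4⟩ := Nat.find_spec hex
  obtain ⟨x, hx, e⟩ := hP.syl_conj_le hp.out (isPi_zpowers.2 u2) (zpowers_le.2 u.2)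
  rw [cj_zpowers, zpowers_le] at e
  obtain ⟨C, z, hz, huC, ψ, c1, c2, c3, c4⟩ := core φ P.isPGroup' hQ.1 hPH hf hA e
    (Normal.conj_mem inferInstance _ u1 x) (by
      rwa [show (⟨x * u * x⁻¹, hPH e⟩ : H) = ⟨x, hx⟩ * u * ⟨x, hx⟩⁻¹ from rfl, map_mul, map_mul, map_inv,
        mul_inv_cancel_comm]) (fun t ht ht' g hg => by
      by_contra hne
      have o1 : orderOf (g⁻¹ * t * g) = orderOf t := by
        simpa using (MulAut.conj g⁻¹).orderOf_eq t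
      have o2 : orderOf (x * u * x⁻¹) = orderOf (u : G) := by
        simpa using (MulAut.conj x).orderOf_eq u
      have o3 : orderOf t < orderOf (x * u * x⁻¹) := by
        rw [← Nat.card_zpowers, ← Nat.card_zpowers]
        exact CA.BG.card_lt_of_lt (lt_of_le_not_ge (zpowers_le.2 ht) fun h => ht' (zpowers_le.1 h))
      refine Nat.find_min hex (m := orderOf t) (by rwa [← u4, ← o2]) ⟨⟨_, hg⟩, ?_, ?_, hne, o1⟩
      · exact Normal.conj_mem' inferInstance _ (zpowers_le.2 (Normal.conj_mem inferInstance _ u1 x) ht) g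
      · rw [o1]; exact hP.pi.orderOf (zpowers_le.2 e ht))
  refine ⟨C, _, z, c1, huC, c2, hz, c3, fun h => c4 ?_⟩
  have : Phi C ≤ ψ.ker.map C.subtype := by
    refine Phi_le_of hp.out (hP.pi.of_le c1) (commutator_le.2 fun a ha b hb =>
      ⟨⁅(⟨a, ha⟩ : C), (⟨b, hb⟩ : C)⁆, ?_, rfl⟩) fun a ha => ⟨⟨a, ha⟩ ^ p, ?_, rfl⟩
    · show ψ _ = 1
      rw [map_commutatorElement, commutatorElement_eq_one_iff_mul_comm, mul_comm]
    · show ψ _ = 1
      rw [map_pow, hA]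
  obtain ⟨y, hy, e⟩ := this h
  rwa [show (⟨_, it_mem hz huC (p - 1)⟩ : C) = y from Subtype.ext e.symm]

end CA.HallWie
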