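import Cfsg.Agent.S3779
import Cfsg.Agent.Lib.Solv.HH3
import Cfsg.Agent.Lib.Grp.Core
import Cfsg.Agent.Lib.Eqn.E_Cfsg_iterCommutator_eq_def

/-! Automorphisms of prime order with few fixed points. -/

set_option autoImplicit false

namespace CA.KK
open Subgroup Cfsg
open scoped commutatorElement
universe u
variable {G : Type u} [Group G] [Finite G] {p m : ℕ} {α : MulAut G}

def fx (α : MulAut G) : Subgroup G := MonoidHom.eqLocus (α : G →* G) (MonoidHom.id G)

def FP (α : MulAut G) (p m : ℕ) : Prop := α ^ p = 1 ∧ Nat.card (fx α) ≤ m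

theorem pow_of_semi {G' : Type u} [Group G'] {β : MulAut G'} {f : G → G'} (h : ∀ g, β (f g) = f (α g)) :
    ∀ (n : ℕ) g, (β ^ n) (f g) = f ((α ^ n) g)
  | 0, _ => rfl
  | n + 1, g => by rw [pow_succ, pow_succ, MulAut.mul_apply, MulAut.mul_apply, h, pow_of_semi h n]

theorem FP.sub (h : FP α p m) (H : Subgroup G) (hH : ∀ g ∈ H, α g ∈ H) :
    ∃ β : MulAut H, FP β p m ∧ ∀ g, α g.1 = (β g).1 := by
  let β : MulAut H := MulEquiv.ofBijective (((α : G →* G).comp H.subtype).codRestrict H fun g => hH g g.2)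
    (Finite.injective_iff_bijective.1 fun a b e => Subtype.ext (α.injective (congrArg Subtype.val e)))
  have e : ∀ g : H, α g.1 = (β g).1 := fun _ => rfl
  refine ⟨β, ⟨MulEquiv.ext fun g => Subtype.ext ?_, le_trans (Nat.card_le_card_of_injective
    (fun x : fx β => (⟨x.1.1, congrArg Subtype.val x.2⟩ : fx α)) fun a b e => ?_) h.2⟩, e⟩
  · rw [← pow_of_semi (f := Subtype.val) e, h.1]; rfl
  · exact Subtype.ext (Subtype.ext (Subtype.mk.inj e))

theorem FP.quot (h : FP α p m) (N : Subgroup G) [N.Normal] (hN : ∀ g ∈ N, α g ∈ N) :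
    ∃ β : MulAut (G ⧸ N), FP β p m ∧ ∀ g : G, β g = α g := by
  let β : MulAut (G ⧸ N) := MulEquiv.ofBijective (QuotientGroup.map N N (α : G →* G) hN)
    (Finite.surjective_iff_bijective.1 fun q => QuotientGroup.induction_on q fun g =>
      ⟨(α.symm g : G), congrArg _ (α.apply_symm_apply g)⟩)
  have e : ∀ g : G, β g = α g := fun _ => rfl
  refine ⟨β, ⟨MulEquiv.ext fun q => QuotientGroup.induction_on q fun g => ?_, ?_⟩, e⟩
  swap
  · rw [pow_of_semi e, h.1]; rfl
  · refine le_trans ?_ h.2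
    let θ : G → G := fun g => g⁻¹ * α g
    have h1 : ∀ g, θ (Function.invFun θ (θ g)) = θ g := fun g => Function.invFun_eq ⟨g, rfl⟩
    have h2 := Nat.card_le_card_of_injective (fun g : QuotientGroup.mk ⁻¹' (fx β : Set (G ⧸ N)) =>
      ((⟨θ g, QuotientGroup.eq.1 (Eq.symm g.2)⟩, ⟨g * (Function.invFun θ (θ g))⁻¹, by
        change α _ = g * _
        rw [map_mul, map_inv, eq_mul_of_inv_mul_eq (h1 g).symm]
        simp [θ, mul_assoc]⟩) : N × fx α)) fun a b e => by
      simp only [Prod.mk.injEq, Subtype.mk.injEq] at e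
      exact Subtype.ext (mul_right_cancel (e.1 ▸ e.2 :))
    rw [QuotientGroup.card_preimage_mk, Nat.card_prod] at h2
    exact Nat.le_of_mul_le_mul_left h2 Nat.card_pos

theorem card_le_pow {A : Type u} [AddCommGroup A] [Finite A] (D : AddMonoid.End A) (h : Nat.card (AddMonoidHom.ker D) ≤ m) :
    ∀ (k : ℕ) (S : AddSubgroup A), (∀ x ∈ S, (D ^ k) x = 0) → Nat.card S ≤ m ^ k
  | 0, S, h1 => by rw [show S = ⊥ from eq_bot_iff.2 h1]; simp
  | k + 1, S, h1 => by
    rw [← AddSubgroup.card_mul_index ((AddMonoidHom.ker D).addSubgroupOf S), pow_succ']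
    refine Nat.mul_le_mul (le_trans (Nat.card_le_card_of_injective
      (fun x => (⟨x.1.1, x.2⟩ : AddMonoidHom.ker D)) fun a b e => ?_) h) ?_
    · exact Subtype.ext (Subtype.ext (Subtype.mk.inj e))
    · refine (AddSubgroup.relIndex_ker S D).le.trans (card_le_pow D h k _ ?_)
      rintro _ ⟨x, hx, rfl⟩
      exact h1 x hx

theorem FP.card_le (h : FP α p m) (hp : p.Prime) (hc : ∀ a b : G, a * b = b * a) {e : ℕ} (he : ∀ a : G, a ^ p ^ e = 1) :
    Nat.card G ≤ m ^ (p * e) := by
  letI : CommGroup G := { ‹Group G› with mul_comm := hc }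
  let Φ : AddMonoid.End (Additive G) := MonoidHom.toAdditive (α : G →* G)
  have h1 : Φ ^ p = 1 := AddMonoidHom.ext fun x => by
    have : ∀ n : ℕ, ∀ x : G, (Φ ^ n) (Additive.ofMul x) = Additive.ofMul ((α ^ n) x) := fun n => by
      induction n with
      | zero => exact fun _ => rfl
      | succ n ih => exact fun x => by rw [pow_succ, pow_succ]; exact ih (α x)
    exact (this p x).trans (by rw [h.1]; rfl)
  obtain ⟨r, hr⟩ := (Commute.one_right (Φ - 1)).exists_add_pow_prime_eq hp
  rw [sub_add_cancel, h1, one_pow, add_right_comm, eq_comm, add_eq_right, add_eq_zero_iff_eq_neg, mul_one, mul_assoc,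
    ← nsmul_eq_mul] at hr
  replace hr := hr.trans (neg_nsmul _ _).symm
  refine (Nat.card_congr (AddSubgroup.topEquiv (G := Additive G)).toEquiv).ge.trans (card_le_pow (Φ - 1)
    (le_trans (Nat.card_le_card_of_injective (fun x => (⟨x.1.toMul, (sub_eq_zero (a := Φ x.1) (b := x.1)).1 (by exact x.2)⟩ : fx α))
      fun a b e => Subtype.ext (Subtype.mk.inj e)) h.2) _ ⊤ fun x _ => ?_)
  rw [pow_mul, hr, smul_pow]
  exact he _

/-- the class bound of Higman, Kreknin and Kostrikin -/
abbrev xi (p : ℕ) : ℕ := ∑ i ∈ Finset.range (2 ^ (p - 1) - 1), (p - 1) ^ i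

theorem FP.card_lcs (h : FP α p m) (hp : p.Prime) (hG : IsPGroup p G) (h0 : gm G (xi p + 1) = ⊥) :
    Nat.card (gm G (xi p)) ≤ m ^ (p * (m + xi p)) := by
  haveI := Fact.mk hp
  have a1 : ∀ i, ∀ g ∈ gm G i, α g ∈ gm G i := fun i _ h1 => characteristic_iff_le_comap.1 inferInstance α h1
  obtain ⟨β, h1, -⟩ := h.sub _ (a1 (xi p))
  refine h1.card_le hp (fun a b => Subtype.ext (commutatorElement_eq_one_iff_mul_comm.1
    (mem_bot.1 (h0 ▸ commutator_mem_commutator a.2 (mem_top b.1))))) fun a => Subtype.ext ?_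
  refine mem_bot.1 (h0 ▸ pow_add p m _ ▸ grp_bound hp α h.1 (fun i g _ h2 => ?_) (kb_hkk hp) a.1 a.2)
  obtain ⟨β, h3, h4⟩ := h.quot _ (a1 (i + 1))
  obtain ⟨k, hk⟩ := IsPGroup.iff_orderOf.1 (hG.to_quotient (gm G (i + 1))) g
  have h5 := (Subgroup.orderOf_le_card (fx β) (Set.toFinite _) (x := g)
    ((h4 g).trans (QuotientGroup.eq.2 h2).symm)).trans h3.2
  rw [← QuotientGroup.eq_one_iff, QuotientGroup.mk_pow, ← orderOf_dvd_iff_pow_eq_one, hk]
  exact pow_dvd_pow p ((Nat.lt_pow_self hp.one_lt).le.trans (hk ▸ h5))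

omit [Finite G] in
theorem it_normal (X : Subgroup G) [X.Normal] : ∀ k, (iterCommutator X ⊤ k).Normal
  | 0 => ‹_›
  | k + 1 => haveI := it_normal X k; commutator_normal _ _

omit [Finite G] in
theorem it_shift (X : Subgroup G) : ∀ k, iterCommutator ⁅X, ⊤⁆ ⊤ k = iterCommutator X ⊤ (k + 1)
  | 0 => rfl
  | k + 1 => congrArg (⁅·, (⊤ : Subgroup G)⁆) (it_shift X k)

omit [Finite G] in
theorem comm_gm_le (j : ℕ) : ∀ (X : Subgroup G) [X.Normal], ⁅X, gm G j⁆ ≤ iterCommutator X ⊤ (j + 1) := by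
  induction j with
  | zero => exact fun _ _ => le_rfl
  | succ j ih =>
    intro X _
    haveI := it_normal X (j + 1 + 1)
    rw [commutator_comm]
    refine CA.H6Basic.three_subgroups le_normalizer_of_normal le_normalizer_of_normal le_normalizer_of_normal ?_
      (commutator_mono (ih X) le_rfl)
    rw [commutator_comm ⊤, ← it_shift]
    exact ih _

theorem it_eq_bot [Group.IsNilpotent G] (X : Subgroup G) [X.Normal] {s : ℕ} (h : Nat.card X ≤ s) :
    iterCommutator X ⊤ s = ⊥ := by
  have : ∀ k, iterCommutator X ⊤ k = ⊥ ∨ Nat.card (iterCommutator X ⊤ k) + k ≤ Nat.card X := fun k => by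
    induction k with
    | zero => exact .inr le_rfl
    | succ k ih =>
      haveI := it_normal X k
      by_cases e : iterCommutator X ⊤ k = ⊥
      · exact .inl (eq_bot_iff.2 ((commutator_le_left _ _).trans e.le))
      · have := CA.BG.card_lt_of_lt (lt_of_le_not_ge (commutator_le_left (iterCommutator X ⊤ k) ⊤) (mt eq_bot_of_le_comm e))
        exact .inr (le_trans (by change Nat.card (⁅iterCommutator X ⊤ k, ⊤⁆ : Subgroup G) + _ ≤ _; omega)
          (ih.resolve_left e))
  exact (this s).resolve_right fun e => by have := Nat.card_pos (α := iterCommutator X ⊤ s); omega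

omit [Finite G] in
theorem ds_le {H : Subgroup G} {a : ℕ} (h : derivedSeries G a ≤ H) :
    ∀ b, derivedSeries G (a + b) ≤ H.lowerCentralSeries b
  | 0 => h
  | b + 1 => commutator_mono (ds_le h b) ((ds_le h b).trans (H.lowerCentralSeries_le_self b))

omit [Finite G] in
theorem ds_ext (N : Subgroup G) [N.Normal] {a b : ℕ} (h1 : derivedSeries (G ⧸ N) a = ⊥) (h2 : derivedSeries N b = ⊥) :
    derivedSeries G (a + b) = ⊥ := by
  rw [← map_derivedSeries_eq (QuotientGroup.mk'_surjective N), Subgroup.map_eq_bot_iff, QuotientGroup.ker_mk'] at h1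
  have : ∀ k, derivedSeries G (a + k) ≤ (derivedSeries N k).map N.subtype := fun k => by
    induction k with
    | zero => rwa [derivedSeries_zero, ← MonoidHom.range_eq_map, range_subtype]
    | succ k ih => rw [derivedSeries_succ N, map_commutator]; exact commutator_mono ih ih
  exact eq_bot_iff.2 ((this b).trans (by rw [h2, Subgroup.map_bot]))

theorem ds_card [Group.IsSolvable G] {s : ℕ} (h : Nat.card G ≤ s) : derivedSeries G s = ⊥ := by
  have : ∀ k, derivedSeries G k = ⊥ ∨ Nat.card (derivedSeries G k) + k ≤ Nat.card G := fun k => by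
    induction k with
    | zero => exact .inr (card_le_card_group _)
    | succ k ih =>
      by_cases e : derivedSeries G k = ⊥
      · exact .inl (by rw [derivedSeries_succ, e, commutator_bot_left])
      · have := CA.BG.card_lt_of_lt (Group.IsSolvable.commutator_lt_of_ne_bot e)
        exact .inr (le_trans (by rw [derivedSeries_succ]; omega) (ih.resolve_left e))
  exact (this s).resolve_right fun e => by have := Nat.card_pos (α := derivedSeries G s); omega

/-- Alperin's theorem for `p`-groups -/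
theorem FP.ds (h : FP α p m) (hp : p.Prime) (hG : IsPGroup p G) :
    derivedSeries G (m ^ (p * (m + xi p)) + (xi p + 1)) = ⊥ := by
  haveI := Fact.mk hp
  haveI := hG.isNilpotent
  have h0 : ∀ {H : Type u} [Group H] [Finite H] {γ : MulAut H}, FP γ p m → IsPGroup p H → _ := fun h => h.card_lcs hp
  generalize m ^ (p * (m + xi p)) = s at h0 ⊢
  generalize xi p = c at h0 ⊢
  let Y := (gm G s).lowerCentralSeries (c + 1)
  obtain ⟨β, h1, -⟩ := h.quot Y fun _ h1 => characteristic_iff_le_comap.1 inferInstance α h1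
  obtain ⟨γ, h2, -⟩ := h1.sub (gm (G ⧸ Y) s) fun _ h1 => characteristic_iff_le_comap.1 inferInstance β h1
  have e1 : ∀ k, (gm (G ⧸ Y) s).lowerCentralSeries k = ((gm G s).lowerCentralSeries k).map (QuotientGroup.mk' Y) :=
    fun k => by rw [map_lowerCentralSeries, map_lowerCentralSeries, map_top_of_surjective _ (QuotientGroup.mk'_surjective Y)]
  have h3 := h0 h2 ((hG.to_quotient Y).to_subgroup _) (by
    rw [← map_subtype_inj, Subgroup.map_bot, top_subtype_lowerCentralSeries, e1, Subgroup.map_eq_bot_iff,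
      QuotientGroup.ker_mk'])
  rw [← card_map_of_injective (subtype_injective _), top_subtype_lowerCentralSeries] at h3
  haveI := (hG.to_quotient Y).isNilpotent
  have h4 := it_eq_bot _ h3
  have e2 : ∀ (X : Subgroup G) k, iterCommutator (X.map (QuotientGroup.mk' Y)) ⊤ k =
      (iterCommutator X ⊤ k).map (QuotientGroup.mk' Y) := fun X k => by
    induction k with
    | zero => rfl
    | succ k ih =>
      rw [iterCommutator, iterCommutator, map_commutator, ih, map_top_of_surjective _ (QuotientGroup.mk'_surjective Y)]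
  rw [e1, e2, Subgroup.map_eq_bot_iff, QuotientGroup.ker_mk'] at h4
  have h5 : Y ≤ ⁅iterCommutator ((gm G s).lowerCentralSeries (c)) ⊤ s, ⊤⁆ := comm_gm_le s _
  rw [eq_bot_of_le_comm (h4.trans h5), commutator_bot_left] at h5
  exact eq_bot_iff.2 ((ds_le (by simpa using ds_le (G := G) (a := 0) le_top s) _).trans h5)

theorem FP.ds' [Group.IsSolvable G] (h : FP α p m) (hp : p.Prime) (h0 : pPrimeCore p G = ⊥) :
    derivedSeries G ((m ^ (p * 1) + 1) ^ m ^ (p * 1) + (m ^ (p * (m + xi p)) + (xi p + 1))) = ⊥ := by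
  haveI := Fact.mk hp
  have a1 : ∀ g ∈ pCore p G, α g ∈ pCore p G := fun _ h1 => characteristic_iff_le_comap.1 inferInstance α h1
  obtain ⟨β, h1, -⟩ := h.sub _ a1
  refine ds_ext (pCore p G) (ds_card ?_) (h1.ds hp CA.Core.isPGroup_pCore)
  haveI : (CA.BG.Phi (pCore p G)).Characteristic := characteristic_of_characteristic_of_characteristic
  obtain ⟨γ, h2, h3⟩ := h.quot (CA.BG.Phi (pCore p G)) fun _ h1 => characteristic_iff_le_comap.1 inferInstance α h1
  obtain ⟨δ, h4, -⟩ := h2.sub ((pCore p G).map (QuotientGroup.mk' _)) (by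
    rintro _ ⟨g, hg, rfl⟩
    exact ⟨α g, a1 g hg, (h3 g).symm⟩)
  have h5 : Nat.card (CA.HH.PV G p) ≤ m ^ (p * 1) := h4.card_le hp
    (CA.HH.elem_PV G p).1.is_comm.comm
    fun a => Subtype.ext (by rw [pow_one]; exact (CA.HH.elem_PV G p).2 a a.2)
  refine (Nat.card_le_card_of_injective _ (DFunLike.coe_injective.comp
    (CA.HH.prep_injective CA.H12PSolv.psolv_of_solvable h0))).trans ?_
  rw [Nat.card_fun]
  exact (Nat.pow_le_pow_left (h5.trans (Nat.le_succ _)) _).trans (Nat.pow_le_pow_right (Nat.succ_pos _) h5)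

theorem alperin (hp : p.Prime) (n : ℕ) : ∃ l : ℕ, ∀ (G : Type u) [Group G] [Finite G], Group.IsSolvable G →
    ∀ α : MulAut G, orderOf α = p → Nat.card {g : G // α g = g} = p ^ n → derivedSeries G l = ⊥ := by
  haveI := Fact.mk hp
  generalize hm : p ^ n = m
  refine ⟨(m ^ (p * 1) + 1) ^ m ^ (p * 1) + (m ^ (p * (m + xi p)) + (xi p + 1)) + xi p, fun G _ _ _ α h1 h2 => ?_⟩
  have h : FP α p m := ⟨h1 ▸ pow_orderOf_eq_one α, h2.le⟩
  obtain ⟨β, h3, -⟩ := h.quot (pPrimeCore p G) fun _ h1 => characteristic_iff_le_comap.1 inferInstance α h1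
  refine ds_ext (pPrimeCore p G) (h3.ds' hp (CA.HH.p'core_quot hp)) ?_
  · obtain ⟨γ, h4, h5⟩ := h.sub (pPrimeCore p G) fun _ h1 => characteristic_iff_le_comap.1 inferInstance α h1
    have h6 : ∀ g, γ g = g → g = 1 := fun g hg => by
      have h7 : orderOf g.1 ∣ p ^ n := hm ▸ h2 ▸ Subgroup.orderOf_dvd_natCard (fx α) ((h5 g).trans (congrArg _ hg))
      rw [← orderOf_eq_one_iff]
      exact Nat.eq_one_of_dvd_coprimes ((CA.Core.coprime_pPrimeCore).pow_right n) (orderOf_dvd_natCard g)
        (by simpa using h7)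
    by_cases e : γ = 1
    · exact eq_bot_iff.2 fun g _ => h6 g (by rw [e]; rfl)
    · exact eq_bot_iff.2 ((by simpa using ds_le (a := 0) le_top (xi p) : _ ≤ gm _ (xi p)).trans
        (Cfsg.Agent.S3779.result hp γ (orderOf_eq_prime h4.1 e) h6).2.2.le)

end CA.KK
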