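/-
A group of characteristic `p` acts on the Frattini quotient of `O_p` with kernel `O_p`.
-/
import Cfsg.Agent.Lib.Grp.PGFrattini
import Cfsg.Agent.Lib.Grp.Fus2
import Mathlib.LinearAlgebra.Matrix.GeneralLinearGroup.Defs

set_option autoImplicit false

namespace CA.L0Con

open Subgroup Cfsg Module
open scoped commutatorElement

theorem exists_GL {X : Type*} [Group X] [Finite X] {p : ℕ} [hp : Fact p.Prime] {d : ℕ}
    (hc : centralizer (pCore p X : Set X) ≤ pCore p X) (hd : (frattini (pCore p X)).index ≤ p ^ d) :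
    ∃ φ : X →* GL (Fin d) (ZMod p), φ.ker = pCore p X := by
  set Q := pCore p X
  have hQ : IsPGroup p Q := Core.isPGroup_pCore
  have hΦ := (PGFrattini.frattini_le_iff hQ).1 le_rfl
  letI : CommGroup (Q ⧸ frattini Q) := { (inferInstance : Group (Q ⧸ frattini Q)) with
    mul_comm := (Subgroup.Normal.quotient_commutative_iff_commutator_le.2 hΦ.1).is_comm.comm }
  let V := Additive (Q ⧸ frattini Q)
  haveI : Module (ZMod p) V := AddCommGroup.zmodModule fun x => by
    obtain ⟨x, rfl⟩ := QuotientGroup.mk_surjective (s := frattini Q) x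
    exact (QuotientGroup.eq_one_iff _).2 (hΦ.2 x)
  haveI : Module.Finite (ZMod p) V := Module.Finite.of_finite
  have hf : finrank (ZMod p) V ≤ d := by
    have := Module.natCard_eq_pow_finrank (K := ZMod p) (V := V)
    rw [Nat.card_zmod] at this
    exact (Nat.pow_le_pow_iff_right hp.out.one_lt).1 (this.ge.trans hd)
  let m : X → (Q ⧸ frattini Q) →* (Q ⧸ frattini Q) := fun x => QuotientGroup.map _ _ (MulAut.conjNormal x).toMonoidHom
    (characteristic_iff_le_comap.1 inferInstance _)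
  let W := V × (Fin (d - finrank (ZMod p) V) → ZMod p)
  let b := finBasisOfFinrankEq (ZMod p) W (n := d) (by simp [W, hf])
  let ρ : X →* Module.End (ZMod p) W :=
    { toFun := fun x => (AddMonoidHom.toZModLinearMap p (MonoidHom.toAdditive (m x))).prodMap LinearMap.id
      map_one' := LinearMap.ext fun ⟨v, w⟩ => Prod.ext (by
        obtain ⟨v, rfl⟩ := QuotientGroup.mk_surjective (s := frattini Q) v
        exact congrArg QuotientGroup.mk (Subtype.ext (by simp))) rfl
      map_mul' := fun x y => LinearMap.ext fun ⟨v, w⟩ => Prod.ext (by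
        obtain ⟨v, rfl⟩ := QuotientGroup.mk_surjective (s := frattini Q) v
        exact congrArg QuotientGroup.mk (Subtype.ext (by simp [mul_assoc]))) rfl }
  have hρ : ∀ x, ρ x = 1 ↔ ∀ q : Q, q⁻¹ * MulAut.conjNormal x q ∈ frattini Q := fun x =>
    ⟨fun h q => QuotientGroup.eq.1 (congrArg Prod.fst (LinearMap.congr_fun h (Additive.ofMul (q : Q ⧸ frattini Q), 0))).symm,
      fun h => LinearMap.ext fun ⟨v, w⟩ => Prod.ext (by
        obtain ⟨v, rfl⟩ := QuotientGroup.mk_surjective (s := frattini Q) v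
        exact (QuotientGroup.eq.2 (h v)).symm) rfl⟩
  let φ := ((LinearMap.toMatrixAlgEquiv b).toMonoidHom.comp ρ).toHomUnits
  have hφ : ∀ x, x ∈ φ.ker ↔ ρ x = 1 := fun x => by
    simp [φ, Units.ext_iff, map_eq_one_iff _ (LinearMap.toMatrixAlgEquiv b).injective]
  refine ⟨φ, le_antisymm (Core.le_pCore ?_) fun x hx => (hφ x).2 ((hρ x).2 fun q => hΦ.1 ?_)⟩
  · refine fun x => ?_
    obtain ⟨k, n, hn, e⟩ := Nat.exists_eq_pow_mul_and_not_dvd (orderOf_pos x).ne' p hp.out.ne_one
    have : (x.1 ^ p ^ k) ∈ Q := hc (Fus2.mem_centralizer_of_frattini hQ ?_ fun a ha q hq => ?_)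
    · obtain ⟨j, hj⟩ := hQ ⟨_, this⟩
      exact ⟨k + j, Subtype.ext (by simpa [pow_add, pow_mul] using congrArg Subtype.val hj)⟩
    · rw [orderOf_pow_of_dvd (by positivity [hp.out.pos]) (by rw [Subgroup.orderOf_coe, e]; simp), Subgroup.orderOf_coe, e,
        Nat.mul_div_cancel_left _ (pow_pos hp.out.pos _)]
      exact ((Nat.Prime.coprime_iff_not_dvd hp.out).2 hn).symm
    · have := (hρ a).1 ((hφ a).1 (zpowers_le.2 (pow_mem x.2 _) ha)) ⟨q, hq⟩
      exact ⟨_, (inferInstance : (frattini Q).Normal).conj_mem _ this ⟨q, hq⟩, by simp [mul_assoc]⟩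
  · have := commutator_mem_commutator (mem_top q⁻¹) (mem_top (⟨x, hx⟩ : Q))
    rwa [show q⁻¹ * MulAut.conjNormal x q = ⁅q⁻¹, (⟨x, hx⟩ : Q)⁆ from
      Subtype.ext (by simp [commutatorElement_def, mul_assoc])]

end CA.L0Con
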