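import Cfsg.Agent.Lib.Grp.SchurSt

/-! Groups with a power-conjugate presentation: existence from consistency checks, homomorphisms, and stem
extensions from a stable extension of a Sylow 2-subgroup. -/

set_option autoImplicit false

namespace CA.PcEx

open Cfsg CA.SchurHopf CA.SchurPc CA.SchurLow CA.SchurSt CA.CNet CA.CWord CA.BNBasic Subgroup
open Set (Iio Ioo image_image)

theorem exists_cyc {Γ : Type} [Group Γ] [Finite Γ] (α : Γ →* Γ) {l : ℕ} (hl : 0 < l) {v : Γ} (h1 : α v = v)
    (h2 : ∀ g, v * α^[l] g = g * v) : ∃ (Δ : Type) (_ : Group Δ) (e : Γ →* Δ) (x : Δ),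
      (∀ g, e g * x = x * e (α g)) ∧ x ^ l = e v ∧ Nat.card Δ = l * Nat.card Γ ∧ e.range ⊔ zpowers x = ⊤ := by
  have hi : Function.Injective α := by
    obtain ⟨k, rfl⟩ := Nat.exists_eq_succ_of_ne_zero hl.ne'
    exact Function.Injective.of_comp (f := α^[k]) fun a b e => mul_right_cancel (b := v) (by
      rw [← h2, ← h2]; exact congrArg _ e)
  let a : MulAut Γ := MulEquiv.ofBijective α (Finite.injective_iff_bijective.1 hi)
  let S := Γ ⋊[zpowersHom _ a⁻¹] Multiplicative ℤ
  let x : S := SemidirectProduct.inr (Multiplicative.ofAdd 1)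
  have hx : ∀ g, SemidirectProduct.inl g * x = x * SemidirectProduct.inl (α g) := fun g => by
    have := SemidirectProduct.inl_aut (φ := zpowersHom _ a⁻¹) (Multiplicative.ofAdd 1) (a g)
    rw [MonoidHom.map_inv, eq_mul_inv_iff_mul_eq] at this
    exact (by simpa using this : SemidirectProduct.inl g * SemidirectProduct.inr (Multiplicative.ofAdd 1) =
      (SemidirectProduct.inr (Multiplicative.ofAdd 1) : S) * SemidirectProduct.inl (a g))
  have hxn : ∀ n g, SemidirectProduct.inl g * x ^ n = x ^ n * SemidirectProduct.inl (α^[n] g) := fun n => by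
    induction n with
    | zero => simp
    | succ n ih => intro g; rw [pow_succ, ← mul_assoc, ih, mul_assoc, hx, mul_assoc, Function.iterate_succ_apply']
  have hz : ∀ k : ℤ, x ^ k = SemidirectProduct.inr (Multiplicative.ofAdd k) := fun k => by
    rw [← map_zpow, ← ofAdd_zsmul, smul_eq_mul, mul_one]
  have hs : ∀ s : S, s = SemidirectProduct.inl s.left * x ^ s.right.toAdd := fun s => by
    rw [hz]; exact s.inl_left_mul_inr_right.symm
  let c : S := (SemidirectProduct.inl v)⁻¹ * x ^ l
  have hc : zpowers c ≤ center S := zpowers_le.2 (mem_center_iff.2 fun s => by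
    have a1 : Commute (SemidirectProduct.inl v) x := (hx v).trans (by rw [h1])
    have a2 : Commute x c := a1.symm.inv_right.mul_right (Commute.refl x |>.pow_right l)
    have a3 : Commute (SemidirectProduct.inl s.left) c := by
      show _ * (_ * _) = _ * _ * _
      have e : α^[l] (v * s.left * v⁻¹) = s.left := mul_left_cancel (a := v) (by rw [h2]; group)
      conv_rhs => rw [← e, mul_assoc, ← hxn, ← mul_assoc, ← map_inv, ← map_mul]
      rw [← map_inv, ← mul_assoc, ← map_mul]
      congr 2; group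
    rw [hs s]
    exact (a3.mul_left (a2.zpow_left _)).eq)
  haveI := normal_of_central hc
  let p := QuotientGroup.mk' (zpowers c)
  have hp : p x ^ l = p (SemidirectProduct.inl v) := by
    rw [← map_pow]; exact (QuotientGroup.eq.2 (mem_zpowers c)).symm
  let r : S →* Multiplicative (ZMod l) :=
    (AddMonoidHom.toMultiplicative (Int.castAddHom (ZMod l))).comp SemidirectProduct.rightHom
  have r1 : ∀ g, r (SemidirectProduct.inl g) = 1 := fun g => map_one (AddMonoidHom.toMultiplicative (Int.castAddHom (ZMod l)))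
  have hr : zpowers c ≤ r.ker := zpowers_le.2 (by
    rw [MonoidHom.mem_ker, map_mul, map_inv, ← zpow_natCast, hz, r1, inv_one, one_mul]
    exact congrArg Multiplicative.ofAdd (show ((l : ℤ) : ZMod l) = 0 by simp))
  let r' := QuotientGroup.lift _ r hr
  let e := p.comp SemidirectProduct.inl
  have he : Function.Injective e := (injective_iff_map_eq_one _).2 fun g hg => by
    obtain ⟨k, hk⟩ := mem_zpowers_iff.1 ((QuotientGroup.eq_one_iff _).1 hg)
    have := congrArg (fun s => (SemidirectProduct.rightHom s).toAdd) hk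
    simp only [c, map_zpow, map_mul, map_inv, ← zpow_natCast, hz] at this
    simp at this
    have h0 : k * l = 0 := this
    rw [(mul_eq_zero.1 h0).resolve_right (by omega), zpow_zero] at hk
    exact SemidirectProduct.inl_injective (hk.symm.trans (map_one _).symm)
  have hk : r'.ker = e.range := le_antisymm (fun q hq => by
      obtain ⟨s, rfl⟩ := QuotientGroup.mk'_surjective _ q
      obtain ⟨k, hk⟩ := (ZMod.intCast_zmod_eq_zero_iff_dvd s.right.toAdd l).1 hq
      rw [hs s, hk, map_mul, map_zpow, zpow_mul, zpow_natCast, hp]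
      exact mul_mem ⟨_, rfl⟩ (zpow_mem (show _ ∈ e.range from ⟨_, rfl⟩) _))
    (by rintro _ ⟨g, rfl⟩; exact r1 g)
  refine ⟨_, inferInstance, e, p x, fun g => ?_, hp, ?_, eq_top_iff.2 fun q _ => ?_⟩
  · exact (map_mul p _ _).symm.trans ((congrArg p (hx g)).trans (map_mul p _ _))
  · rw [CA.SchurCov.card_eq_mul (σ := r') fun t => ?_, hk, card_mz, mul_comm, ← Nat.card_congr (MonoidHom.ofInjective he).toEquiv]
    obtain ⟨k, hk⟩ := ZMod.intCast_surjective t.toAdd
    exact ⟨p (SemidirectProduct.inr (Multiplicative.ofAdd k)), congrArg Multiplicative.ofAdd hk⟩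
  · obtain ⟨s, rfl⟩ := QuotientGroup.mk'_surjective _ q
    rw [hs s, map_mul, map_zpow]
    exact mul_mem (mem_sup_left ⟨_, rfl⟩) (mem_sup_right (zpow_mem (mem_zpowers _) _))

variable {Γ Δ : Type*} [Group Γ] [Group Δ]

theorem pv_flat (y : ℕ → Γ) (g : ℕ → List ℕ) (w : List ℕ) : pv y (flat g w) = pv (fun a => pv y (g a)) w := by
  induction w with
  | nil => rfl
  | cons a w ih => rw [pv_cons, ← ih, ← pv_append, ← lapp_eq]; rfl

theorem pv_congr {y y' : ℕ → Γ} {w : List ℕ} (h : ∀ a ∈ w, y a = y' a) : pv y w = pv y' w :=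
  congrArg List.prod (List.map_congr_left h)

theorem pv_mem' {y : ℕ → Γ} {H : Subgroup Γ} {w : List ℕ} (h : ∀ a ∈ w, y a ∈ H) : pv y w ∈ H :=
  H.list_prod_mem (by simpa using h)

/-- all numbers in `[a, a + n)` -/
noncomputable def allN (a n : ℕ) (p : ℕ → Bool) : Bool :=
  Nat.rec (motive := fun _ => Bool) true (fun d ih => force (Nat.add a d) fun j => band (p j) ih) n

theorem allN_spec {a n : ℕ} {p : ℕ → Bool} (h : allN a n p = true) {j : ℕ} (h1 : a ≤ j) (h2 : j < a + n) :
    p j = true := by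
  induction n with
  | zero => omega
  | succ n ih =>
    have h4 := band_iff.1 ((force_eq (a + n) fun j => band (p j) (allN a n p)).symm.trans h)
    by_cases e : j = a + n
    exacts [e ▸ h4.1, ih h4.2 (by omega)]

variable (C : PC)

/-- the rules between the generators `f 0, …, f (m - 1)` hold -/
def On (y : ℕ → Γ) (f : ℕ → ℕ) (m : ℕ) : Prop :=
  ∀ i j, i ≤ j → j < m → pv y (C.lhs (f i) (f j)) = pv y (C.rhs (f i) (f j))

/-- the subgroup generated by the `y (f i)` -/
abbrev gn (y : ℕ → Γ) (f : ℕ → ℕ) (m : ℕ) : Subgroup Γ := closure ((y ∘ f) '' Iio m)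

/-- the shape of the data is right -/
noncomputable def wf : Bool := band C.num (allN 0 C.K (C.rowOK fun _ _ => true))

/-- forget the generators below `lo` -/
noncomputable def cut (lo : ℕ) : PC := ⟨C.K, C.l, C.N, C.w, C.f1, C.f2, C.M, C.r, C.s, fun e =>
  Bool.rec (C.tab e) (Bool.rec [Nat.mod e C.K] [] (Nat.beq (Nat.div e C.K) (Nat.mod e C.K))) (Nat.blt e (Nat.mul lo C.K)), []⟩

/-- equality of words by collection -/
noncomputable def eqw (lo : ℕ) (u v : List ℕ) : Bool :=
  band (band (C.ok u) (C.ok v)) ((cut C lo).col u 0 fun S _ => (cut C lo).col v 0 fun S' _ => leq S S')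

/-- conjugation by the generator `i` -/
noncomputable def sub (i : ℕ) : List ℕ → List ℕ := flat fun j => C.tab (C.idx i j)

/-- consistency at level `i` -/
noncomputable def lvl (i : ℕ) : Bool := force (Nat.succ i) fun lo =>
  band (eqw C lo (sub C i (C.tab (C.idx i i))) (C.tab (C.idx i i))) (allN lo (Nat.sub C.K lo) fun j =>
    band (C.rowOK (fun u v => eqw C lo (sub C i u) (sub C i v)) j)
      (eqw C lo (lapp (C.tab (C.idx i i)) (Nat.rec [j] (fun _ w => sub C i w) C.l)) (j :: C.tab (C.idx i i))))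

variable {C}

theorem rng (W : wf C = true) {i j : ℕ} (h1 : i ≤ j) (h2 : j < C.K) : ∀ a ∈ C.tab (C.idx i j), i < a ∧ a < C.K :=
  (C.rowOK_spec (allN_spec (band_iff.1 W).2 (Nat.zero_le i) (by omega)) h1 h2).1

theorem l_pos (W : wf C = true) : 0 < C.l := by
  simpa [Nat.blt_eq] using (band_iff.1 (band_iff.1 (band_iff.1 (band_iff.1 W).1).1).2).1

theorem mem_rule (W : wf C = true) {i j : ℕ} (h1 : i ≤ j) (h2 : j < C.K) :
    (∀ a ∈ C.lhs i j, a = i ∨ a = j) ∧ (∀ a ∈ C.rhs i j, i ≤ a ∧ a < C.K) ∧ ∀ a ∈ C.tab (C.idx i j), a ∈ C.rhs i j := by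
  have := rng W h1 h2
  rcases h1.eq_or_lt with rfl | h
  · rw [C.lhs_self, C.rhs_self]
    exact ⟨fun a ha => .inl (List.eq_of_mem_replicate ha), fun a ha => (this a ha).imp_left le_of_lt, fun _ => id⟩
  · rw [C.lhs_lt h, C.rhs_lt h]
    exact ⟨by simp, by simpa [h.trans h2] using fun a ha => (this a ha).imp_left le_of_lt, by simp +contextual⟩

theorem On.cj {y : ℕ → Γ} {f : ℕ → ℕ} {m i j : ℕ} (h : On C y f m) (h1 : i ≤ j) (h2 : j < m) (h3 : f i < f j) :
    y (f j) * y (f i) = y (f i) * pv y (C.tab (C.idx (f i) (f j))) := by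
  simpa [C.lhs_lt h3, C.rhs_lt h3] using h i j h1 h2

theorem On.pw {y : ℕ → Γ} {f : ℕ → ℕ} {m i : ℕ} (h : On C y f m) (h2 : i < m) :
    y (f i) ^ C.l = pv y (C.tab (C.idx (f i) (f i))) := by
  simpa [C.lhs_self, C.rhs_self, pv_replicate] using h i i le_rfl h2

theorem On.map {y : ℕ → Γ} {f : ℕ → ℕ} {m : ℕ} (h : On C y f m) (φ : Γ →* Δ) : On C (φ ∘ y) f m :=
  fun i j h1 h2 => by rw [← map_pv, ← map_pv, h i j h1 h2]

theorem On.eqw (W : wf C = true) {y : ℕ → Γ} {lo d : ℕ} (hd : lo + d = C.K) (h : On C y (lo + ·) d)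
    (h0 : ∀ a < lo, y a = 1) {u v : List ℕ} (e : eqw C lo u v = true) : pv y u = pv y v := by
  have t : ∀ i j, j < C.K → (cut C lo).tab (C.idx i j) =
      if i < lo then if i = j then [] else [j] else C.tab (C.idx i j) := fun i j hj => by
    have e : C.idx i j = j + C.K * i := by show i * C.K + j = _; ring
    have e1 : Nat.div (C.idx i j) C.K = i := by
      show C.idx i j / C.K = i
      rw [e, Nat.add_mul_div_left _ _ (by omega), Nat.div_eq_of_lt hj, zero_add]
    have e2 : Nat.mod (C.idx i j) C.K = j := by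
      show C.idx i j % C.K = j
      rw [e, Nat.add_mul_mod_self_left, Nat.mod_eq_of_lt hj]
    have e3 : Nat.blt (C.idx i j) (Nat.mul lo C.K) = decide (i < lo) := by
      rw [Bool.eq_iff_iff, Nat.blt_eq, e, decide_eq_true_eq, Nat.mul_eq]
      exact ⟨fun h => by_contra fun h' => by nlinarith, fun h => by nlinarith⟩
    simp only [cut, e1, e2, e3]
    by_cases a : i < lo
    · by_cases b : i = j
      · simp [a, b ▸ a, b]
      · rw [if_pos a, if_neg b, decide_eq_true a, Bool.eq_false_iff.2 fun h => b (Nat.eq_of_beq_eq_true h)]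
    · simp [a]
  have S : Sys (cut C lo) (1 : Unit →* Γ) y (fun _ => 1) fun _ => 1 :=
    ⟨by simp, fun _ _ _ => rfl, fun _ => rfl, band_iff.2 ⟨(band_iff.1 (band_iff.1 W).1).1,
      band_iff.2 ⟨(band_iff.1 (band_iff.1 (band_iff.1 W).1).2).1, rfl⟩⟩,
    fun i j h1 h2 => by
      rw [show (cut C lo).idx i j = C.idx i j from rfl, t i j h2]
      split_ifs
      exacts [by simp, by simpa using ⟨by omega, h2⟩, rng W h1 h2],
    fun i j h1 h2 => by
      rw [show (cut C lo).idx i j = C.idx i j from rfl, t i j h2]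
      split_ifs with a b
      · omega
      · simp [h0 i a]
      · have := h.cj (i := i - lo) (j := j - lo) (by omega) (by have : j < C.K := h2; omega) (by omega)
        simpa [show lo + (i - lo) = i by omega, show lo + (j - lo) = j by omega] using this,
    fun i h2 => by
      rw [show (cut C lo).idx i i = C.idx i i from rfl, t i i h2]
      split_ifs with a b
      · simp [h0 i a]
      · omega
      · have := h.pw (i := i - lo) (by have : i < C.K := h2; omega)
        rw [show lo + (i - lo) = i by omega] at this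
        exact this.trans (mul_one _).symm,
    fun a => by simp [PC.ent, cut]⟩
  obtain ⟨e1, e⟩ := band_iff.1 e
  simp only [band_iff, PC.ok_iff] at e1
  obtain ⟨S1, _, _, -, -, a3, e⟩ := S.col_spec e1.1 (Rep.zero 0) e
  obtain ⟨S2, _, _, -, -, b3, e⟩ := S.col_spec e1.2 (Rep.zero 0) e
  obtain rfl := eq_of_leq e
  simp only [MonoidHom.one_apply, mul_one] at a3 b3
  exact a3.symm.trans b3

theorem On.card_le [Finite Γ] (W : wf C = true) {y : ℕ → Γ} {f : ℕ → ℕ} {m : ℕ} (h : On C y f m) (hf : StrictMono f)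
    (hc : ∀ i j, i ≤ j → j < m → ∀ c ∈ C.tab (C.idx (f i) (f j)), y c ∈ closure ((y ∘ f) '' Ioo i m)) :
    Nat.card (gn y f m) ≤ C.l ^ m :=
  card_pc_le _ _ _ (l_pos W) (fun i hi => (h.pw hi).symm ▸ pv_mem' (hc i i le_rfl hi)) fun i j h1 h2 => by
    rw [mul_assoc, Function.comp, Function.comp, h.cj h1.le h2 (hf h1), inv_mul_cancel_left]
    exact pv_mem' (hc i j h1.le h2)

theorem On.card_le' [Finite Γ] (W : wf C = true) {y : ℕ → Γ} {f : ℕ → ℕ} {m : ℕ} (h : On C y f m) (hf : StrictMono f)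
    (hK : ∀ i < m, f i < C.K)
    (hc : ∀ i j, i ≤ j → j < m → ∀ c ∈ C.tab (C.idx (f i) (f j)), y c = 1 ∨ ∃ k < m, f k = c) :
    Nat.card (gn y f m) ≤ C.l ^ m :=
  h.card_le W hf fun i j h1 h2 c h3 => by
    rcases hc i j h1 h2 c h3 with e | ⟨k, hk, rfl⟩
    · exact e ▸ one_mem _
    · exact subset_closure ⟨k, ⟨hf.lt_iff_lt.1 (rng W (hf.monotone h1) (hK j h2) _ h3).1, hk⟩, rfl⟩

theorem On.exists_hom [Finite Γ] [Finite Δ] (W : wf C = true) {y : ℕ → Γ} {y' : ℕ → Δ} {f : ℕ → ℕ} {m : ℕ}
    (h : On C y f m) (h' : On C y' f m) (hf : StrictMono f) (hK : ∀ i < m, f i < C.K)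
    (hc : ∀ i j, i ≤ j → j < m → ∀ c ∈ C.tab (C.idx (f i) (f j)), ∃ k < m, f k = c)
    (hl : C.l ^ m ≤ Nat.card (gn y f m)) :
    ∃ φ : gn y f m →* Δ, ∀ i < m, ∀ x : gn y f m, x = y (f i) → φ x = y' (f i) := by
  have h2 : On C (fun a => (y a, y' a)) f m := fun i j a b => Prod.ext
    (by rw [← MonoidHom.coe_fst, map_pv, map_pv]; exact h i j a b)
    (by rw [← MonoidHom.coe_snd, map_pv, map_pv]; exact h' i j a b)
  have h3 := h2.card_le' W hf hK fun i j a b c d => .inr (hc i j a b c d)
  set D := gn (fun a => (y a, y' a)) f m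
  have e : D.map (MonoidHom.fst _ _) = gn y f m := by rw [MonoidHom.map_closure, image_image]; rfl
  let q := (MulEquiv.ofBijective _ (equiv_of_surj_of_card_le ((MonoidHom.fst _ _).subgroupMap D)
    (MonoidHom.subgroupMap_surjective _ _) (by rw [e]; exact h3.trans hl))).trans (MulEquiv.subgroupCongr e)
  refine ⟨((MonoidHom.snd _ _).comp D.subtype).comp q.symm.toMonoidHom, fun i hi x hx => ?_⟩
  rw [show x = q ⟨(y (f i), y' (f i)), subset_closure ⟨i, hi, rfl⟩⟩ from Subtype.ext hx]
  exact congrArg (fun z : D => z.1.2) (q.symm_apply_apply _)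

theorem exists_pc (W : wf C = true) (h : ∀ i < C.K, lvl C i = true) (d lo : ℕ) (hd : lo + d = C.K) :
    ∃ (E : Type) (_ : Group E) (y : ℕ → E), On C y (lo + ·) d ∧ (∀ a < lo, y a = 1) ∧ Nat.card E = C.l ^ d ∧
      gn y (lo + ·) d = ⊤ := by
  induction d generalizing lo with
  | zero => exact ⟨Unit, inferInstance, fun _ => 1, fun _ _ _ _ => rfl, fun _ _ => rfl, by simp, Subsingleton.elim _ _⟩
  | succ d ih =>
    obtain ⟨E, _, y, h1, h2, h3, h4⟩ := ih (lo + 1) (by omega)
    haveI : Finite E := Nat.finite_of_card_ne_zero (h3 ▸ pow_ne_zero _ (l_pos W).ne')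
    have q := fun u v => h1.eqw W (u := u) (v := v) (by omega) h2
    obtain ⟨k1, k2⟩ := band_iff.1 ((force_eq _ _).symm.trans (h lo (by omega)))
    replace k2 := fun j a (b : j < C.K) => band_iff.1 (allN_spec k2 (j := j) a (by
      have : lo + 1 ≤ j := a
      show j < lo + 1 + (C.K - (lo + 1)); omega))
    obtain ⟨φ, hφ⟩ := h1.exists_hom W (y' := fun a => pv y (C.tab (C.idx lo a))) (fun i j a b => by
        rw [← pv_flat, ← pv_flat]
        exact q _ _ (C.rowOK_spec (k2 _ (Nat.le_add_right _ _) (by omega)).1 (by omega) (by omega)).2)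
      (fun _ _ => by simp) (fun _ _ => by omega) (fun i j a b c hc => by
        have := rng W (by omega) (by omega) c hc
        exact ⟨c - (lo + 1), by omega, by omega⟩) (by rw [h4, card_top, h3])
    let α : E →* E := φ.comp ((MonoidHom.id E).codRestrict _ fun x => h4 ▸ mem_top x)
    have a1 : ∀ w : List ℕ, (∀ a ∈ w, lo < a ∧ a < C.K) →
        α (pv y w) = pv y (sub C lo w) ∧ ∀ a ∈ sub C lo w, lo < a ∧ a < C.K := fun w hw => by
      refine ⟨?_, ?_⟩
      · rw [sub, pv_flat, map_pv]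
        refine pv_congr fun a ha => ?_
        obtain ⟨k, rfl⟩ := Nat.exists_eq_add_of_le (show lo + 1 ≤ a from (hw a ha).1)
        exact hφ k (by have := (hw _ ha).2; omega) _ rfl
      · induction w with
        | nil => exact hw
        | cons b w ih =>
          intro a ha
          rcases List.mem_append.1 (lapp_eq (C.tab (C.idx lo b)) (sub C lo w) ▸ show a ∈ lapp _ _ from ha) with ha | ha
          exacts [rng W (hw b (by simp)).1.le (hw b (by simp)).2 a ha, ih (fun c hc => hw c (by simp [hc])) a ha]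
    have hv := rng W (le_refl lo) (by omega)
    obtain ⟨Δ, _, e, x, b1, b2, b3, b4⟩ := exists_cyc α (l_pos W) (v := pv y (C.tab (C.idx lo lo)))
      ((a1 _ hv).1.trans (q _ _ k1)) fun g => by
        have : ∀ j, lo < j → j < C.K → ∀ n : ℕ, α^[n] (y j) = pv y (Nat.rec [j] (fun _ w => sub C lo w) n) ∧
            ∀ a ∈ (Nat.rec [j] (fun _ w => sub C lo w) n : List ℕ), lo < a ∧ a < C.K := fun j a b n => by
          induction n with
          | zero => simp [a, b]
          | succ n ih => rw [Function.iterate_succ_apply', ih.1]; exact a1 _ ih.2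
        have hg : g ∈ gn y (lo + 1 + ·) d := h4 ▸ mem_top g
        induction hg using closure_induction with
        | mem _ hg =>
          obtain ⟨j, hj, rfl⟩ := hg
          have hj : j < d := hj
          have h5 := q _ _ (k2 (lo + 1 + j) (Nat.le_add_right _ _) (by omega)).2
          rwa [lapp_eq, pv_append, pv_cons, ← (this (lo + 1 + j) (by omega) (by omega) _).1] at h5
        | one => simp
        | mul a b _ _ ha hb => rw [iterate_map_mul, ← mul_assoc, ha, mul_assoc, hb, mul_assoc]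
        | inv a _ ha => rw [iterate_map_inv, mul_inv_eq_iff_eq_mul, mul_assoc, ha, inv_mul_cancel_left]
    let z : ℕ → Δ := fun a => if a = lo then x else e (y a)
    have z1 : ∀ w : List ℕ, (∀ a ∈ w, lo < a) → pv z w = e (pv y w) := fun w hw => by
      rw [map_pv]; exact pv_congr fun a ha => if_neg (hw a ha).ne'
    have z2 : z lo = x := if_pos rfl
    refine ⟨Δ, inferInstance, z, fun i j a b => ?_, fun a ha => ?_, by rw [b3, h3, pow_succ'], ?_⟩
    · show pv z (C.lhs (lo + i) (lo + j)) = pv z (C.rhs (lo + i) (lo + j))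
      rcases Nat.eq_zero_or_pos i with rfl | hi
      · rcases a.eq_or_lt with rfl | a
        · rw [add_zero, C.lhs_self, C.rhs_self, pv_replicate, z2, b2, z1 _ fun a ha => (hv a ha).1]
        · have := a1 [lo + j] (by simp; omega)
          rw [add_zero, C.lhs_lt (by omega), C.rhs_lt (by omega), pv_cons, pv_cons, pv_cons, pv_nil, mul_one, z2,
            z1 _ fun c hc => (rng W (by omega) (by omega) c hc).1, show z (lo + j) = e (y (lo + j)) from
            if_neg (by omega), b1, show y (lo + j) = pv y [lo + j] by simp, this.1, sub, pv_flat]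
          simp
      · have := mem_rule W (show lo + i ≤ lo + j by omega) (by omega)
        rw [z1 _ fun c hc => by have := this.1 c hc; omega, z1 _ fun c hc => by have := this.2.1 c hc; omega]
        have := h1 (i - 1) (j - 1) (by omega) (by omega)
        simp only [show lo + 1 + (i - 1) = lo + i by omega, show lo + 1 + (j - 1) = lo + j by omega] at this
        rw [this]
    · simp [z, ha.ne, h2 a (by omega)]
    · refine top_le_iff.1 (b4 ▸ sup_le ?_ (zpowers_le.2 (subset_closure ⟨0, by simp, z2⟩)))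
      rw [MonoidHom.range_eq_map, ← h4, MonoidHom.map_closure, closure_le]
      rintro _ ⟨_, ⟨j, hj, rfl⟩, rfl⟩
      exact subset_closure ⟨j + 1, Nat.succ_lt_succ hj, (if_neg (show lo + (j + 1) ≠ lo by omega)).trans (by
        rw [Function.comp, add_assoc, add_comm 1])⟩

theorem On.of_id {y : ℕ → Γ} (h : On C y id C.K) {f : ℕ → ℕ} {m : ℕ} (hf : StrictMono f) (hK : ∀ i < m, f i < C.K) :
    On C y f m := fun _ j a b => h _ _ (hf.monotone a) (hK j b)

/-- skip the interval `[a, a + d)` -/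
def skp (a d k : ℕ) : ℕ := if k < a then k else k + d

theorem skp_mono (a d : ℕ) : StrictMono (skp a d) := fun i j h => by unfold skp; split_ifs <;> omega
theorem skp_lt {a d K i : ℕ} (h : i < K - d) : skp a d i < K := by unfold skp; split_ifs <;> omega
theorem skp_out (a d i : ℕ) : skp a d i < a ∨ a + d ≤ skp a d i := by unfold skp; split_ifs <;> omega
theorem exists_skp {a d K c : ℕ} (h : a + d ≤ K) (h1 : c < K) (h2 : c < a ∨ a + d ≤ c) : ∃ k < K - d, skp a d k = c := by
  rcases h2 with h2 | h2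
  · exact ⟨c, by omega, if_pos h2⟩
  · exact ⟨c - d, by omega, (if_neg (by omega)).trans (by omega)⟩

theorem On.not_mem [Finite Γ] (W : wf C = true) (hl : C.l = 2) {y : ℕ → Γ} (h : On C y id C.K)
    (hc : 2 ^ C.K ≤ Nat.card (gn y id C.K)) {i : ℕ} (hi : i < C.K) : y i ∉ closure (y '' Ioo i C.K) := fun hy => by
  have m : ∀ t c, c < C.K → (∀ k, c ≤ skp i 1 k → t ≤ k) → y c ∈ closure ((y ∘ skp i 1) '' Set.Ico t (C.K - 1)) := by
    intro t c h1 h2
    have : ∀ c', c ≤ c' → c' < C.K → c' ≠ i → y c' ∈ closure ((y ∘ skp i 1) '' Set.Ico t (C.K - 1)) := fun c' a b e => by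
      obtain ⟨k, h3, rfl⟩ := exists_skp (a := i) (d := 1) hi b (by omega)
      exact subset_closure ⟨k, ⟨h2 k a, h3⟩, rfl⟩
    by_cases e : c = i
    · subst e
      exact (closure_le _).2 (by rintro _ ⟨c', h3, rfl⟩; exact this c' h3.1.le h3.2 h3.1.ne') hy
    · exact this c le_rfl h1 e
  have h1 := (h.of_id (skp_mono i 1) fun _ => skp_lt).card_le W (skp_mono i 1) fun a b h1 h2 c h3 => by
    have := rng W ((skp_mono i 1).monotone h1) (skp_lt h2) c h3
    exact m (a + 1) c this.2 fun k hk => (skp_mono i 1).lt_iff_lt.1 (this.1.trans_le hk)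
  have h2 : gn y id C.K ≤ gn y (skp i 1) (C.K - 1) := (closure_le _).2 (by
    rintro _ ⟨c, h3, rfl⟩
    exact closure_mono (Set.image_mono fun _ h => h.2) (m 0 c h3 fun _ _ => Nat.zero_le _))
  have := hc.trans ((card_le_of_le h2).trans h1)
  rw [hl, Nat.pow_le_pow_iff_right (by norm_num)] at this
  omega

theorem echelon [Finite Γ] {y X : ℕ → Γ} {K m : ℕ} (h : ∀ i < K, y i ∉ closure (y '' Ioo i K)) {a : ℕ → ℕ}
    (ha : ∀ i j, i < j → j < m → a i < a j) (hK : ∀ i < m, a i < K)
    (hX : ∀ i < m, (y (a i))⁻¹ * X i ∈ closure (y '' Ioo (a i) K)) : 2 ^ m ≤ Nat.card (gn X id m) := by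
  have key : ∀ d i, i + d = m → 2 ^ d ≤ Nat.card (closure (X '' Set.Ico i m)) := fun d => by
    induction d with
    | zero => exact fun _ _ => Nat.card_pos
    | succ d ih =>
      intro i hi
      have h1 : closure (X '' Set.Ico (i + 1) m) ≤ closure (y '' Ioo (a i) K) := (closure_le _).2 (by
        rintro _ ⟨j, hj, rfl⟩
        have := ha i j hj.1 hj.2
        exact (mul_mem_cancel_left (inv_mem (Subgroup.subset_closure (Set.mem_image_of_mem y (show a j ∈ Ioo _ _ from ⟨this, hK j hj.2⟩))))).1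
          (closure_mono (Set.image_mono (Set.Ioo_subset_Ioo_left this.le)) (hX j hj.2)))
      have h2 : closure (X '' Set.Ico (i + 1) m) ≤ closure (X '' Set.Ico i m) :=
        closure_mono (Set.image_mono (Set.Ico_subset_Ico_left (by omega)))
      obtain ⟨k, hk⟩ := card_dvd_of_le h2
      have h3 : k ≠ 1 := fun e => h (a i) (hK i (by omega)) (inv_mem_iff.1 ((mul_mem_cancel_right (h1
        (eq_of_le_of_card_ge h2 (by rw [hk, e, mul_one]) ▸ subset_closure ⟨i, ⟨le_rfl, by omega⟩, rfl⟩))).1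
        (hX i (by omega))))
      have h4 : k ≠ 0 := fun e => Nat.card_pos.ne' (hk.trans (by rw [e, mul_zero]))
      rw [hk, pow_succ]
      exact Nat.mul_le_mul (ih (i + 1) (by omega)) (by omega)
  have := key m 0 (by omega)
  rwa [show Set.Ico 0 m = Iio m from Set.ext fun _ => by simp] at this

variable (C)

/-- outside the interval -/
noncomputable def out (a d c : ℕ) : Bool := Bool.rec (Nat.ble (Nat.add a d) c) true (Nat.blt c a)

/-- the words `wd` define a homomorphism on the subgroup without the generators `a, …, a + d - 1` -/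
noncomputable def fusR (a d : ℕ) (wd : ℕ → List ℕ) (i : ℕ) : Bool := C.rowOK (fun u v => Bool.rec true
  (band (lall v (out a d)) (eqw C 0 (flat wd u) (flat wd v))) (lall u (out a d))) i

/-- generators in the commutator subgroup -/
noncomputable def abOK (L : List (ℕ × ℕ × ℕ)) : List ℕ → (List ℕ → Bool) → Bool :=
  List.rec (motive := fun _ => List ℕ → (List ℕ → Bool) → Bool) (fun kn k => k kn) (fun s _ ih kn k =>
    band (decide (s.1 < s.2.1 ∧ s.2.1 < C.K ∧
      (C.tab (C.idx s.1 s.2.1)).filter (· ∉ kn) = [s.2.1, s.2.2])) (ih (s.2.2 :: kn) k)) L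

variable {C}

theorem out_iff {a d c : ℕ} : out a d c = true ↔ c < a ∨ a + d ≤ c := by
  unfold out
  cases h : Nat.blt c a
  · have : ¬ c < a := by rw [← Nat.blt_eq, h]; simp
    simp [this]
  · simp [show c < a from Nat.blt_eq ▸ h]

theorem abOK_spec {A : Type*} [CommGroup A] {y : ℕ → A} (h : On C y id C.K) {L : List (ℕ × ℕ × ℕ)} {kn : List ℕ}
    {k : List ℕ → Bool} (hk : ∀ a ∈ kn, y a = 1) (e : abOK C L kn k = true) : ∃ kn, (∀ a ∈ kn, y a = 1) ∧ k kn = true := by
  induction L generalizing kn with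
  | nil => exact ⟨kn, hk, e⟩
  | cons s L ih =>
    obtain ⟨e1, e2⟩ := band_iff.1 e
    obtain ⟨h1, h2, h3⟩ := of_decide_eq_true e1
    refine ih (List.forall_mem_cons.2 ⟨?_, hk⟩) e2
    have h4 : ∀ w, pv y w = pv y (w.filter (· ∉ kn)) := fun w => by
      induction w with
      | nil => rfl
      | cons a w ih => by_cases ha : a ∈ kn <;> simp [ha, ih, hk a]
    have := h.cj h1.le h2 h1
    rw [h4, id, id, h3, mul_comm] at this
    simpa using this

universe u

theorem st_of_pc (W : wf C = true) (hl : C.l = 2) (lv : ∀ i < C.K, lvl C i = true) {K0 a0 : ℕ} (hK : K0 + a0 = C.K)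
    (cen : ∀ j < C.K, K0 ≤ j → ∀ i ≤ j, C.tab (C.idx i j) = if i = j then [] else [j]) (L : List (ℕ × ℕ × ℕ))
    (ab : abOK C L [] (fun kn => decide (∀ j < C.K, K0 ≤ j → j ∈ kn)) = true)
    {G : Type u} [Group G] [Finite G] {X : ℕ → G} (hX : On C X id C.K) (h1 : ∀ a, K0 ≤ a → X a = 1)
    (hc : 2 ^ K0 ≤ Nat.card (gn X id K0)) (hn : ¬ 2 ^ (K0 + 1) ∣ Nat.card G) (P : BNPair G) (hU : gn X id K0 ≤ P.B)
    (fus : G → ℕ → Prop) (hf : ∀ n d, fus n d → ∃ a wd, a + d ≤ K0 ∧ (∀ i < C.K, fusR C a d wd i = true) ∧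
      (∀ c < C.K, K0 ≤ c → wd c = [c]) ∧ ∀ c < K0, c < a ∨ a + d ≤ c → X c * n = n * pv X (wd c))
    (h2 : P.B ≤ gn X id K0 ⊔ closure {n | fus n 0})
    (h3 : ∀ s : P.S, ∃ n d, InCell P n (sr P s) ∧ fus n d ∧
      2 ^ d ≤ ((gn X id K0).comap (MulAut.conj n⁻¹).toMonoidHom).relIndex (gn X id K0))
    {A : Type} [CommGroup A] (hA : ∀ (Z : Type) [Group Z], Nat.card Z = 2 ^ a0 → (∀ z : Z, z * z = 1) →
      Nonempty (Z ≃* A)) : St G A := by
  obtain ⟨E, _, y, a1, -, a2, a3⟩ := exists_pc W lv C.K 0 (zero_add _)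
  rw [show (0 + ·) = id from funext zero_add] at a1 a3
  rw [hl] at a2
  haveI : Finite E := Nat.finite_of_card_ne_zero (a2 ▸ by simp)
  have a4 : 2 ^ C.K ≤ Nat.card (gn y id C.K) := by rw [a3, card_top, a2]
  have a5 : ∀ {f : ℕ → ℕ} {m}, StrictMono f → (∀ i < m, f i < C.K) → 2 ^ m ≤ Nat.card (gn y f m) := fun hf hK =>
    echelon (X := y ∘ _) (fun i => a1.not_mem W hl a4) (fun _ _ h _ => hf h) hK fun _ _ => by simp
  obtain ⟨φ, hφ⟩ := a1.exists_hom W hX strictMono_id (fun _ => id)
    (fun i j a b c d => ⟨c, (rng W a b c d).2, rfl⟩) (hl ▸ a4)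
  obtain ⟨σ, hσ⟩ : ∃ σ : E →* G, ∀ i < C.K, σ (y i) = X i :=
    ⟨φ.comp ((MonoidHom.id E).codRestrict _ fun x => a3 ▸ mem_top x), fun i hi => hφ i hi _ rfl⟩
  have hp : ∀ w, C.Ok w → σ (pv y w) = pv X w := fun w hw => by
    rw [map_pv]; exact pv_congr fun a ha => hσ a (hw a ha)
  have r : σ.range = gn X id K0 := by
    rw [MonoidHom.range_eq_map, ← a3, MonoidHom.map_closure]
    refine le_antisymm ((closure_le _).2 ?_) (closure_mono ?_)
    · rintro _ ⟨_, ⟨j, hj, rfl⟩, rfl⟩
      rw [Function.comp, id, hσ j hj]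
      by_cases e : j < K0
      exacts [subset_closure ⟨j, e, rfl⟩, h1 j (by omega) ▸ one_mem _]
    · rintro _ ⟨j, hj, rfl⟩
      have : j < C.K := by have : j < K0 := hj; omega
      exact ⟨_, ⟨j, this, rfl⟩, hσ j this⟩
  have c1 : Nat.card σ.range = 2 ^ K0 := r ▸ le_antisymm (hl ▸ (hX.of_id strictMono_id fun _ _ => by
    simp; omega).card_le' W strictMono_id (fun _ _ => by simp; omega) fun i j _ _ c _ =>
      (le_or_gt K0 c).imp (h1 c) fun h => ⟨c, h, rfl⟩) hc
  have c2 : Nat.card σ.ker = 2 ^ a0 := by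
    have := σ.ker.card_mul_index
    rw [index_ker, c1, a2, ← hK, pow_add, mul_comm] at this
    exact Nat.eq_of_mul_eq_mul_left (by simp) this
  have k : gn y (K0 + ·) a0 = σ.ker := eq_of_le_of_card_ge ((closure_le _).2 (by
    rintro _ ⟨j, hj, rfl⟩
    exact (hσ (K0 + j) (by have : j < a0 := hj; omega)).trans (h1 _ (Nat.le_add_right _ _))))
    (c2 ▸ a5 (fun _ _ => by simp) fun _ _ => by omega)
  have kle : ∀ {H : Subgroup E}, (∀ c < C.K, K0 ≤ c → y c ∈ H) → σ.ker ≤ H := fun h => k ▸ (closure_le _).2 (by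
    rintro _ ⟨j, hj, rfl⟩; exact h (K0 + j) (by have : j < a0 := hj; omega) (Nat.le_add_right _ _))
  have z1 : σ.ker ≤ center E := kle fun c a b => by
    rw [← centralizer_univ, ← coe_top, ← a3, centralizer_closure]
    rintro _ ⟨i, hi, rfl⟩
    rcases lt_trichotomy i c with h | rfl | h
    · simpa [cen c a b i h.le, h.ne] using (a1.cj h.le a h).symm
    · rfl
    · simpa [cen i hi (by omega) c h.le, h.ne] using a1.cj h.le hi h
  have z2 : σ.ker ≤ commutator E := by
    obtain ⟨kn, b1, b2⟩ := abOK_spec (a1.map Abelianization.of) (by simp) ab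
    exact kle fun c a b => Abelianization.ker_of E ▸ b1 c (of_decide_eq_true b2 c a b)
  have lf : ∀ n d, fus n d → ∃ V, Lf σ V n ∧ V ≤ Vg σ n ∧ 2 ^ (C.K - d) ≤ Nat.card V := fun n d h => by
    obtain ⟨a, wd, b1, b2, b3, b4⟩ := hf n d h
    have b5 : ∀ i j, i ≤ j → j < C.K - d → band (lall (C.rhs (skp a d i) (skp a d j)) (out a d))
        (eqw C 0 (flat wd (C.lhs (skp a d i) (skp a d j))) (flat wd (C.rhs (skp a d i) (skp a d j)))) = true :=
      fun i j p q => by
        have := (C.rowOK_spec (b2 _ (skp_lt (p.trans_lt q))) ((skp_mono a d).monotone p) (skp_lt q)).2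
        rwa [(lall_iff (l := C.lhs _ _)).2 fun c hc => out_iff.2 (by
          rcases (mem_rule W ((skp_mono a d).monotone p) (skp_lt q)).1 c hc with rfl | rfl <;> exact skp_out _ _ _)] at this
    obtain ⟨c, hc⟩ := (a1.of_id (skp_mono a d) fun _ => skp_lt).exists_hom W (y' := fun c => pv y (wd c))
      (fun i j p q => by
        rw [← pv_flat, ← pv_flat]
        exact On.eqw W (zero_add _) (by rwa [show (0 + ·) = id from funext zero_add]) (by simp) (band_iff.1 (b5 i j p q)).2)
      (skp_mono a d) (fun _ => skp_lt) (fun i j p q c hc => by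
        have := mem_rule W ((skp_mono a d).monotone p) (skp_lt q)
        exact exists_skp (by omega) (this.2.1 c (this.2.2 c hc)).2
          (out_iff.1 (lall_iff.1 (band_iff.1 (b5 i j p q)).1 c (this.2.2 c hc)))) (hl ▸ a5 (skp_mono a d) fun _ => skp_lt)
    have b6 : ∀ x, σ (c x) = n⁻¹ * σ x * n := fun ⟨x, hx⟩ => by
      induction hx using closure_induction with
      | mem _ hx =>
        obtain ⟨j, hj, rfl⟩ := hx
        have q := (band_iff.1 (band_iff.1 (b5 j j le_rfl hj)).2).1
        rw [C.lhs_self, hl, band_iff, PC.ok_iff] at q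
        rw [hc j hj _ rfl, hp _ fun t ht => q.1 t (show t ∈ lapp _ _ from lapp_eq _ _ ▸ List.mem_append_left _ ht), mul_assoc,
          eq_inv_mul_iff_mul_eq]
        show _ = σ (y (skp a d j)) * n
        rw [hσ _ (skp_lt hj)]
        by_cases e : skp a d j < K0
        · exact (b4 _ e (skp_out _ _ _)).symm
        · simp [b3 _ (skp_lt hj) (not_lt.1 e), h1 _ (not_lt.1 e)]
      | one => exact (congrArg σ c.map_one).trans (by simp)
      | mul a b p q ha hb => exact (congrArg σ (c.map_mul ⟨a, p⟩ ⟨b, q⟩)).trans (by simp [ha, hb, mul_assoc])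
      | inv a p ha => exact (congrArg σ (c.map_inv ⟨a, p⟩)).trans (by simp [ha, mul_assoc])
    refine ⟨_, ⟨c, b6, fun x hx => ?_⟩, fun x hx => mem_Vg.2 ⟨_, b6 ⟨x, hx⟩⟩, a5 (skp_mono a d) fun _ => skp_lt⟩
    obtain ⟨_, h, e⟩ := kle (H := (c.eqLocus (Subgroup.subtype _)).map (Subgroup.subtype _)) (fun t p q => by
      obtain ⟨j, hj, rfl⟩ := exists_skp (a := a) (d := d) (by omega) p (by omega)
      exact ⟨⟨_, subset_closure ⟨j, hj, rfl⟩⟩, (hc j hj _ rfl).trans (by simp [b3 _ p q]), rfl⟩) hx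
    exact Subtype.ext e ▸ h
  have lB : ∀ b ∈ P.B, Lf σ ⊤ b := fun b hb => by
    have : ∀ b ∈ Submonoid.closure ((σ.range : Set G) ∪ {n | fus n 0}), Lf σ ⊤ b := fun b hb => by
      induction hb using Submonoid.closure_induction with
      | mem x hx =>
        rcases hx with ⟨x, rfl⟩ | hx
        · exact lf_range z1 x
        · obtain ⟨V, p, -, q⟩ := lf x 0 hx
          exact p.mono (eq_top_of_le_card V (a2 ▸ q)).ge
      | one => exact map_one σ ▸ lf_range z1 1
      | mul _ _ _ _ p q => exact p.mul q fun _ _ _ _ => trivial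
    refine this b ?_
    rw [← closure_toSubmonoid_of_finite, Subgroup.closure_union, closure_eq, r]
    exact h2 hb
  haveI := Fact.mk Nat.prime_two
  refine st_of_stab z1 z2 ?_ (stab_of_bn P (r ▸ hU) (fun x g hg => ?_) lB fun s => ?_) (hA _ c2 fun z => ?_).some
  · rw [c2]
    refine Nat.Coprime.pow_right _ ((Nat.coprime_two_right).2 (Nat.not_even_iff_odd.1 fun h => hn ?_))
    rw [← σ.range.card_mul_index, c1, pow_succ]
    exact Nat.mul_dvd_mul_left _ h.two_dvd
  · set t := g⁻¹ * σ x * g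
    have p1 : IsPGroup 2 (zpowers t) := IsPGroup.of_card_dvd_pow (n := C.K) (by
      rw [Nat.card_zpowers, orderOf_dvd_iff_pow_eq_one, show t = g⁻¹ * σ x * g⁻¹⁻¹ by simp [t], conj_pow, ← map_pow,
        ← a2, pow_card_eq_one']; simp)
    obtain ⟨c, p, -⟩ := lB t hg
    obtain ⟨m, hm⟩ := (p1.to_sup_of_normal_right' (IsPGroup.of_card c1) (zpowers_le.2 (inv_mem_iff.1
      (mem_normalizer_fintype (by rintro _ ⟨u, rfl⟩; exact ⟨_, (p ⟨u, trivial⟩).trans (by simp)⟩))))).exists_card_eq
    have : m ≤ K0 := not_lt.1 fun h => hn ((pow_dvd_pow 2 h).trans (hm ▸ card_subgroup_dvd_card _))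
    rw [eq_of_le_of_card_ge (le_sup_right (a := zpowers t) (b := σ.range)) (by
      rw [hm, c1]; exact Nat.pow_le_pow_right two_pos this)]
    exact mem_sup_left (mem_zpowers t)
  · obtain ⟨n, d, p, q, h⟩ := h3 s
    obtain ⟨V, v1, v2, v3⟩ := lf n d q
    obtain ⟨a, -, b, -⟩ := hf n d q
    refine ⟨n, p, v1.mono (eq_of_le_of_card_ge v2 (le_trans ?_ v3)).ge⟩
    have := (Vg σ n).card_mul_index
    rw [Vg, index_comap, ← Vg, r, a2, show C.K = C.K - d + d by omega, pow_add] at this
    exact Nat.le_of_mul_le_mul_right ((Nat.mul_le_mul_left _ h).trans this.le) (by simp)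
  · obtain ⟨z, hz⟩ := z
    refine Subtype.ext (show z * z = 1 from ?_)
    rw [← k] at hz z1
    induction hz using closure_induction with
    | mem _ h =>
      obtain ⟨j, hj, rfl⟩ := h
      have : K0 + j < C.K := by have : j < a0 := hj; omega
      simpa [cen _ this (Nat.le_add_right _ _) _ le_rfl, hl, sq] using a1.pw this
    | one => simp
    | mul a b p q ha hb => rw [mul_assoc, ← mul_assoc b, mem_center_iff.1 (z1 p) b, mul_assoc, hb, mul_one, ha]
    | inv a _ ha => rw [← mul_inv_rev, ha, inv_one]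

end CA.PcEx
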