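import Cfsg.Agent.Lib.Grp.SchurLow
import Cfsg.Agent.Lib.Lie.BNBasic
import Mathlib.GroupTheory.FreeGroup.NielsenSchreier

/-! A central extension of a subgroup of coprime index which is stable under fusion comes from a stem
extension of the whole group; for a (B,N)-pair stability is checked on `B` and the simple reflections. -/

set_option autoImplicit false

namespace CA.SchurSt

open Cfsg CA.SchurHopf CA.SchurLow CA.BNBasic

universe u

variable {G : Type u} [Group G] {E : Type} [Group E] (σ : E →* G)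

/-- conjugation by `g` lifts on `V` -/
def Lf (V : Subgroup E) (g : G) : Prop :=
  ∃ c : V →* E, (∀ x, σ (c x) = g⁻¹ * σ x * g) ∧ ∀ x : V, σ x = 1 → c x = x

/-- the elements which stay in the image after conjugation -/
def Vg (g : G) : Subgroup E := (σ.range.comap (MulAut.conj g⁻¹).toMonoidHom).comap σ

/-- stability -/
def Stab (g : G) : Prop := Lf σ (Vg σ g) g

variable {σ}

theorem mem_Vg {g : G} {x : E} : x ∈ Vg σ g ↔ g⁻¹ * σ x * g ∈ σ.range := by simp [Vg]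

theorem Lf.mono {V V' : Subgroup E} {g : G} (h : Lf σ V g) (h' : V' ≤ V) : Lf σ V' g :=
  let ⟨c, h1, h2⟩ := h
  ⟨c.comp (Subgroup.inclusion h'), fun x => h1 _, fun x hx => h2 (Subgroup.inclusion h' x) hx⟩

theorem Lf.mul {V V' : Subgroup E} {g g' : G} (h : Lf σ V g) (h' : Lf σ V' g')
    (hV : ∀ x ∈ V, ∀ y, σ y = g⁻¹ * σ x * g → y ∈ V') : Lf σ V (g * g') := by
  obtain ⟨c, h1, h2⟩ := h
  obtain ⟨c', h3, h4⟩ := h'
  refine ⟨c'.comp (c.codRestrict V' fun x => hV x x.2 _ (h1 x)), fun x => (h3 _).trans ?_, fun x hx => ?_⟩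
  · show g'⁻¹ * σ (c x) * g' = _
    rw [h1]; group
  · exact (h4 (c.codRestrict V' (fun x => hV x x.2 _ (h1 x)) x)
      (show σ (c x) = 1 by rw [h1, hx]; simp)).trans (h2 x hx)

theorem lf_range (hc : σ.ker ≤ Subgroup.center E) (y : E) : Lf σ ⊤ (σ y) :=
  ⟨(MulAut.conj y⁻¹).toMonoidHom.comp (Subgroup.subtype _), fun x => by simp, fun x hx => by
    have := Subgroup.mem_center_iff.1 (hc hx) y⁻¹
    simp [this]⟩

theorem Stab.mul {g g' : G} (h : Stab σ g) (h' : Stab σ g') (hV : Vg σ (g * g') ≤ Vg σ g) : Stab σ (g * g') :=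
  (h.mono hV).mul h' fun x hx y e => by
    rw [mem_Vg] at hx ⊢
    rw [e]; simpa [mul_assoc] using hx

theorem st_of_stab' {F : Type} [Group F] [IsFreeGroup F] {π : F →* G} (hπ : Function.Surjective π)
    [Finite G] [Finite σ.ker] (hc : σ.ker ≤ Subgroup.center E) (hk : σ.ker ≤ commutator E)
    (hn : σ.range.index.Coprime (Nat.card σ.ker)) (h : ∀ g, Stab σ g) {A : Type} [CommGroup A]
    (e : σ.ker ≃* A) : St G A := by
  classical
  let U := σ.range.comap π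
  choose s hs using fun x : U => x.2
  let ψ : U →* E := IsFreeGroup.lift fun i => s (IsFreeGroup.of i)
  have hψ : ∀ x, σ (ψ x) = π x := DFunLike.congr_fun (show σ.comp ψ = π.comp U.subtype from
    IsFreeGroup.ext_hom fun i => by simp [ψ, hs])
  let κ : E → A := fun y => if h : σ y = 1 then e ⟨y, h⟩ else 1
  have κm : ∀ a b, σ a = 1 → σ b = 1 → κ (a * b) = κ a * κ b := fun a b ha hb => by
    simp only [κ]
    rw [dif_pos ha, dif_pos hb, dif_pos (by rw [map_mul, ha, hb, mul_one])]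
    exact map_mul e ⟨a, ha⟩ ⟨b, hb⟩
  let P : F → E := fun x => if h : x ∈ U then ψ ⟨x, h⟩ else 1
  have Pe : ∀ x : U, P x = ψ x := fun x => dif_pos x.2
  have Pm : ∀ x ∈ U, ∀ y ∈ U, P (x * y) = P x * P y := fun x hx y hy =>
    (Pe (⟨x, hx⟩ * ⟨y, hy⟩)).trans ((map_mul _ _ _).trans (by rw [← Pe, ← Pe]))
  have Ps : ∀ x ∈ U, σ (P x) = π x := fun x hx => (congrArg σ (Pe ⟨x, hx⟩)).trans (hψ _)
  have RU : ∀ r, π r = 1 → r ∈ U := fun r hr => show π r ∈ σ.range from hr ▸ one_mem _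
  have Rc : ∀ r γ, π r = 1 → π (γ⁻¹ * r * γ) = 1 := fun r γ hr => by simp [hr]
  have f1 : ∀ r γ, π r = 1 → γ ∈ U → P (γ⁻¹ * r * γ) = P r := fun r γ hr hγ => by
    have := Subgroup.mem_center_iff.1 (hc ((Ps r (RU r hr)).trans hr)) (P γ)
    apply mul_left_cancel (a := P γ)
    rw [← Pm _ hγ _ (RU _ (Rc r γ hr)), this, ← Pm _ (RU r hr) _ hγ, mul_assoc, mul_inv_cancel_left]
  have hl : ∀ γ : F, ∃ l : F → A, (∀ x ∈ U, γ⁻¹ * x * γ ∈ U → ∀ y ∈ U, γ⁻¹ * y * γ ∈ U → l (x * y) = l x * l y) ∧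
      ∀ r, π r = 1 → κ (P (γ⁻¹ * r * γ)) = l r * κ (P r) := fun γ => by
    obtain ⟨c, h1, h2⟩ := h (π γ)
    let c' : E → E := fun y => if h : y ∈ Vg σ (π γ) then c ⟨y, h⟩ else 1
    have hV : ∀ x ∈ U, γ⁻¹ * x * γ ∈ U → P x ∈ Vg σ (π γ) := fun x hx h => by
      rw [mem_Vg, Ps x hx]; simpa using show π _ ∈ σ.range from h
    have h3 : ∀ x ∈ U, γ⁻¹ * x * γ ∈ U → σ (P (γ⁻¹ * x * γ) * (c' (P x))⁻¹) = 1 := fun x hx h => by
      simp only [c']
      rw [dif_pos (hV x hx h), map_mul, map_inv, h1, Ps _ h, Ps x hx]; simp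
    refine ⟨fun x => κ (P (γ⁻¹ * x * γ) * (c' (P x))⁻¹), fun x hx hx' y hy hy' => ?_, fun r hr => ?_⟩
    · have e1 : c' (P (x * y)) = c' (P x) * c' (P y) := by
        simp only [c']
        rw [Pm x hx y hy, dif_pos (hV x hx hx'), dif_pos (hV y hy hy'),
          dif_pos (mul_mem (hV x hx hx') (hV y hy hy')), ← map_mul]; rfl
      have e2 : γ⁻¹ * (x * y) * γ = γ⁻¹ * x * γ * (γ⁻¹ * y * γ) := by group
      show κ _ = κ _ * κ _
      rw [← κm _ _ (h3 x hx hx') (h3 y hy hy'), e1, e2, Pm _ hx' _ hy', mul_assoc (P _) _ (_ * _),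
        Subgroup.mem_center_iff.1 (hc (h3 y hy hy'))]
      congr 1; group
    · have a := RU r hr
      have b := RU _ (Rc r γ hr)
      have d := (Ps r a).trans hr
      show _ = κ _ * _
      rw [← κm _ _ (h3 r a b) d]
      simp only [c']
      rw [dif_pos (hV r a b), h2 _ d, inv_mul_cancel_right]
  choose l l1 l2 using hl
  have hi : U.index = σ.range.index := Subgroup.index_comap_of_surjective _ hπ
  haveI : U.FiniteIndex := ⟨hi ▸ Subgroup.index_ne_zero_of_finite⟩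
  haveI := Fintype.ofFinite (F ⧸ U)
  let ρ : F ⧸ U → F := fun q => (Quotient.mk (MulAction.orbitRel U (F ⧸ U)) q).out.out
  have hρ : ∀ x ∈ U, ∀ q, ρ (x • q) = ρ q := fun x hx q =>
    congrArg (fun z : Quotient (MulAction.orbitRel U (F ⧸ U)) => z.out.out) (Quotient.sound ⟨⟨x, hx⟩, rfl⟩)
  have hu : ∀ q, ∃ u ∈ U, ((u * ρ q : F) : F ⧸ U) = q := fun q => by
    obtain ⟨u, hu⟩ := Quotient.mk_out (s := MulAction.orbitRel U (F ⧸ U)) q
    refine ⟨u⁻¹, inv_mem u.2, ?_⟩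
    show (u : F)⁻¹ • ((ρ q : F) : F ⧸ U) = q
    rw [QuotientGroup.out_eq', ← hu]
    exact inv_smul_smul (u : F) q
  choose u u1 u2 using hu
  have f2 : ∀ r, π r = 1 → ∀ a b : F, (a : F ⧸ U) = b → P (a⁻¹ * r * a) = P (b⁻¹ * r * b) := fun r hr a b e => by
    rw [← f1 _ _ (Rc r a hr) (QuotientGroup.eq.1 e)]; congr 1; group
  let f : π.ker →* A := MonoidHom.mk' (fun r => ∏ q, κ (P ((u q * ρ q)⁻¹ * r * (u q * ρ q)))) fun a b => by
    rw [← Finset.prod_mul_distrib]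
    refine Finset.prod_congr rfl fun q _ => ?_
    have a1 := Rc a (u q * ρ q) a.2
    have b1 := Rc b (u q * ρ q) b.2
    rw [← κm _ _ ((Ps _ (RU _ a1)).trans a1) ((Ps _ (RU _ b1)).trans b1), ← Pm _ (RU _ a1) _ (RU _ b1)]
    congr 2; rw [Subgroup.coe_mul]; group
  have f3 : ∀ (r : π.ker) δ, f ⟨_, Rc r δ r.2⟩ = f r := fun r δ =>
    Fintype.prod_equiv (MulAction.toPerm δ) _ _ fun q => congrArg κ (by
      rw [← f2 r r.2 (δ * (u q * ρ q)) _ (by rw [u2]; exact congrArg (δ • ·) (u2 q))]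
      congr 1; show _ * (δ⁻¹ * r * δ) * _ = _; group)
  have m1 : ∀ x ∈ U, ∀ q, (u (x • q))⁻¹ * x * u q ∈ U := fun x hx q =>
    mul_mem (mul_mem (inv_mem (u1 _)) hx) (u1 _)
  have m2 : ∀ x ∈ U, ∀ q, (ρ q)⁻¹ * ((u (x • q))⁻¹ * x * u q) * ρ q ∈ U := fun x hx q => by
    have := QuotientGroup.eq.1 ((u2 (x • q)).trans (congrArg (x • ·) (u2 q)).symm)
    rw [hρ x hx] at this
    simpa [mul_assoc] using this
  let Λ : U →* A := MonoidHom.mk' (fun x => ∏ q, l (ρ q) ((u (x.1 • q))⁻¹ * x * u q)) fun x y => by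
    rw [← Fintype.prod_equiv (MulAction.toPerm y.1) (fun q => l (ρ q) ((u (x.1 • y.1 • q))⁻¹ * x * u (y.1 • q)))
      (fun q => l (ρ q) ((u (x.1 • q))⁻¹ * x * u q)) fun q => by
        rw [MulAction.toPerm_apply, hρ _ y.2], ← Finset.prod_mul_distrib]
    refine Finset.prod_congr rfl fun q _ => ?_
    rw [← l1 _ _ (m1 _ x.2 _) (hρ _ y.2 q ▸ m2 _ x.2 _) _ (m1 _ y.2 _) (m2 _ y.2 _), Subgroup.coe_mul, mul_smul]
    congr 1; group
  have f4 : ∀ r : π.ker, f r = Λ ⟨r, RU _ r.2⟩ * κ (P r) ^ σ.range.index := fun r => by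
    rw [← hi, Subgroup.index_eq_card, Nat.card_eq_fintype_card, ← Finset.card_univ, ← Finset.prod_const]
    refine Eq.trans ?_ Finset.prod_mul_distrib
    refine Finset.prod_congr rfl fun q _ => ?_
    have : (r : F) • q = q := by
      rw [← u2 q]
      exact (QuotientGroup.eq.2 (by simpa [mul_assoc] using RU _ (Rc r (u q * ρ q) r.2))).symm
    show κ _ = l _ ((u ((r : F) • q))⁻¹ * r * u q) * _
    rw [this, ← f1 r _ r.2 (u1 q), ← l2 _ _ (Rc r _ r.2)]
    congr 2; group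
  have f5 : ∀ a, ∃ r : π.ker, r.1 ∈ commutator F ∧ f r = a := fun a => by
    obtain ⟨b, rfl⟩ := (Nat.card_congr e.toEquiv ▸ hn).symm.pow_left_bijective.2 a
    obtain ⟨k, rfl⟩ := e.surjective b
    have := hk k.2
    rw [← map_commutator_eq (σ := σ.rangeRestrict) (by rwa [MonoidHom.ker_rangeRestrict]) ψ fun g => by
      obtain ⟨x, hx⟩ := hπ g
      exact ⟨⟨x, show π x ∈ σ.range from hx ▸ g.2⟩, Subtype.ext ((hψ _).trans hx)⟩] at this
    obtain ⟨x, h1, h2⟩ := this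
    refine ⟨⟨x, by rw [MonoidHom.mem_ker, ← hψ, h2]; exact k.2⟩, ?_, ?_⟩
    · have : (commutator U).map U.subtype ≤ commutator F := by
        rw [commutator_def, Subgroup.map_commutator]; exact Subgroup.commutator_mono le_top le_top
      exact this ⟨x, h1, rfl⟩
    · rw [f4, show Λ _ = 1 from Abelianization.commutator_subset_ker Λ h1, one_mul, Pe, h2]
      exact congrArg (· ^ _) (dif_pos k.2)
  let N := f.ker.map π.ker.subtype
  haveI : N.Normal := ⟨by
    rintro _ ⟨r, hr, rfl⟩ δ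
    exact ⟨⟨_, Rc r δ⁻¹ r.2⟩, (f3 r _).trans hr, by simp⟩⟩
  have hN : N ≤ π.ker := Subgroup.map_subtype_le _
  let τ := QuotientGroup.lift N π hN
  let j : π.ker →* τ.ker := ((QuotientGroup.mk' N).comp π.ker.subtype).codRestrict _ fun r => r.2
  have j1 : Function.Surjective j := fun ⟨x, hx⟩ => by
    obtain ⟨r, rfl⟩ := QuotientGroup.mk_surjective x
    exact ⟨⟨r, hx⟩, rfl⟩
  have j2 : ∀ a b, j a = j b ↔ f a = f b := fun a b => by
    rw [Subtype.ext_iff, ← inv_mul_eq_one (a := f a), ← map_inv, ← map_mul]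
    exact QuotientGroup.eq.trans ⟨fun ⟨x, h1, h2⟩ => (Subtype.ext h2 : x = a⁻¹ * b) ▸ h1, fun h => ⟨a⁻¹ * b, h, rfl⟩⟩
  refine ⟨F ⧸ N, inferInstance, τ, ⟨fun g => (hπ g).elim fun x hx => ⟨x, hx⟩, fun x hx => ?_, fun x hx => ?_⟩,
    ⟨(QuotientGroup.quotientKerEquivOfSurjective j j1).symm.trans ((QuotientGroup.quotientMulEquivOfEq
      (Subgroup.ext fun a => by simpa [MonoidHom.mem_ker] using j2 a 1)).trans
      (QuotientGroup.quotientKerEquivOfSurjective f fun a => (f5 a).imp fun _ h => h.2))⟩⟩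
  · obtain ⟨r, hr⟩ := j1 ⟨x, hx⟩
    refine Subgroup.mem_center_iff.2 fun y => ?_
    obtain ⟨δ, rfl⟩ := QuotientGroup.mk_surjective y
    have h1 : ((δ⁻¹ * r * δ : F) : F ⧸ N) = x := congrArg Subtype.val (((j2 _ _).2 (f3 r δ)).trans hr)
    have h2 : ((r : F) : F ⧸ N) = x := congrArg Subtype.val hr
    conv_lhs => rw [← h1]
    rw [← h2]; simp [mul_assoc]
  · obtain ⟨r, hr⟩ := j1 ⟨x, hx⟩
    obtain ⟨r', h1, h2⟩ := f5 (f r)
    have : (commutator F).map (QuotientGroup.mk' N) ≤ commutator _ := by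
      rw [commutator_def, Subgroup.map_commutator]; exact Subgroup.commutator_mono le_top le_top
    exact this ⟨r', h1, congrArg Subtype.val (((j2 _ _).2 h2).trans hr)⟩

theorem st_of_stab [Finite G] [Finite σ.ker] (hc : σ.ker ≤ Subgroup.center E) (hk : σ.ker ≤ commutator E)
    (hn : σ.range.index.Coprime (Nat.card σ.ker)) (h : ∀ g, Stab σ g) {A : Type} [CommGroup A]
    (e : σ.ker ≃* A) : St G A :=
  st_of_stab' (π := FreeGroup.lift (Finite.equivFin G).symm)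
    (fun g => ⟨FreeGroup.of (Finite.equivFin G g), by simp⟩) hc hk hn h e

theorem stab_of_bn (P : BNPair G) (hU : σ.range ≤ P.B)
    (h1 : ∀ x g, g⁻¹ * σ x * g ∈ P.B → g⁻¹ * σ x * g ∈ σ.range) (h2 : ∀ b ∈ P.B, Lf σ ⊤ b)
    (h3 : ∀ s : P.S, ∃ n, InCell P n (sr P s) ∧ Stab σ n) (g : G) : Stab σ g := by
  obtain ⟨w, hw⟩ := exists_inCell P g
  obtain ⟨L, hL, rfl⟩ := (invGen P).exists_red w
  have hB : ∀ x, σ x ∈ P.B := fun x => hU ⟨x, rfl⟩
  induction L generalizing g with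
  | nil => exact (h2 g (inCell_one_iff.1 hw)).mono le_top
  | cons s L ih =>
    have hL' := (invGen P).red_tail hL
    have hle : WordLen.len (sr P) (WordLen.wp (sr P) L) ≤ WordLen.len (sr P) (sr P s * WordLen.wp (sr P) L) := by
      rw [show WordLen.len _ _ = _ from hL', show WordLen.len _ (sr P s * WordLen.wp (sr P) L) = _ from hL]; simp
    obtain ⟨n, hn, hn'⟩ := h3 s
    obtain ⟨m, hm⟩ := mkW_surj (WordLen.wp (sr P) L)
    have hm' := hm ▸ inCell_mk m
    obtain ⟨b, hb, b', hb', rfl⟩ := (InCell.simple_mul_of_le hle hn hm').exists_eq_of_same hw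
    have hg := hm'.mul_right hb'
    rw [mul_assoc, mul_assoc]
    refine Stab.mul ((h2 b hb).mono le_top) (hn'.mul (ih _ hL' hg) fun x hx => ?_) fun x _ =>
      mem_Vg.2 (h1 _ _ (mul_mem (mul_mem (inv_mem hb) (hB x)) hb))
    have hi : InCell P n⁻¹ (sr P s) := by simpa [(invGen P).inv] using hn.inv
    rcases (hi.mul_right (hB x)).simple_mul hn with h | h
    · rw [sr_sq, inCell_one_iff] at h
      exact mem_Vg.2 (h1 _ _ h)
    · have h4 := hg.mul_right (hU (mem_Vg.1 hx))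
      rw [show (m * b' : G) * ((n * (m * b'))⁻¹ * σ x * (n * (m * b'))) = n⁻¹ * σ x * n * (m * b') by group] at h4
      exact absurd ((InCell.simple_mul_of_le hle h hg).unique h4) (sr_mul_ne _ _)

end CA.SchurSt
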